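import Mathlib
import Cfsg.Prelude.Def_GeometricClasses
import Cfsg.Prelude.Def_ClassicalGeometry

/-!
# S6002 team project (helper75): definitions and piece statements

`PSp_4(p)`, `p` odd, and `H = N_Sp(R)`, `R` an absolutely irreducible extraspecial group
`2^{1+4}_-` inside `Sp_4(p)`: all elements of prime order `r` are conjugate into `H` iff `r = 2`,
or `r = 5` and `p` has order `4` modulo `5`.

`G4 F = GL (Fin 2 ⊕ Fin 2) F`, `M4 F` the `4 × 4` matrices, `-1 : G4 F` is the unit `-1`.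
-/

set_option autoImplicit false

namespace Cfsg.Agent.H75.ES

open Matrix

universe u

/-- The index type of the symplectic space of dimension four. -/
abbrev I4 : Type := Fin 2 ⊕ Fin 2

/-- `4 × 4` matrices. -/
abbrev M4 (F : Type u) : Type u := Matrix I4 I4 F

/-- `GL_4(F)`. -/
abbrev G4 (F : Type u) [Field F] : Type u := Matrix.GeneralLinearGroup I4 F

/-- `R` is an "extraspecial matrix group" of order `32`: it contains `-1`, squares are `±1`, two
elements commute or anticommute, and only `±1` are central. -/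
structure IsES {F : Type u} [Field F] (R : Subgroup (G4 F)) : Prop where
  neg_mem : (-1 : G4 F) ∈ R
  card : Nat.card R = 32
  sq : ∀ x ∈ R, x * x = 1 ∨ x * x = -1
  comm : ∀ x ∈ R, ∀ y ∈ R, x * y = y * x ∨ x * y = -(y * x)
  center : ∀ x ∈ R, (∀ y ∈ R, x * y = y * x) → x = 1 ∨ x = -1

/-- Exactly twelve elements of `R` have square one (`±1` and ten non-central involutions). -/
def Cnt12 {F : Type u} [Field F] (R : Subgroup (G4 F)) : Prop :=
  Nat.card {x : G4 F // x ∈ R ∧ x * x = 1} = 12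

/-- `t 0, …, t 4` are pairwise anticommuting involutions of `R`, and every involution of `R` is
`±1` or `± t i`. -/
structure IsFive {F : Type u} [Field F] (R : Subgroup (G4 F)) (t : Fin 5 → G4 F) : Prop where
  mem : ∀ i, t i ∈ R
  sq : ∀ i, t i * t i = 1
  anti : ∀ i j, i ≠ j → t i * t j = -(t j * t i)
  invol : ∀ x ∈ R, x * x = 1 → x = 1 ∨ x = -1 ∨ ∃ i, x = t i ∨ x = -t i

/-- The centraliser of `y` in `R`, as a type. -/
abbrev CentR {F : Type u} [Field F] (R : Subgroup (G4 F)) (y : G4 F) : Type u :=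
  {h : G4 F // h ∈ R ∧ y * h = h * y}

/-! ## Group theory: a group of order 32 of symplectic type with centre of order 2 and exponent 4
is extraspecial -/

/-- The hypotheses on the abstract group. -/
structure GHyp (G : Type u) [Group G] : Prop where
  card : Nat.card G = 32
  center : Nat.card (Subgroup.center G) = 2
  exp : ∀ x : G, x ^ 4 = 1
  char : ∀ A : Subgroup G, A.Characteristic → IsMulCommutative A → IsCyclic A

/-- ES-GRP1: if the second centre has order at least 8 then `G / Z(G)` is abelian. -/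
def StGrp1 : Prop :=
  ∀ (G : Type u) [Group G] [Finite G], GHyp G →
    8 ≤ Nat.card (Subgroup.upperCentralSeries G 2) → ∀ x y : G, x * y * x⁻¹ * y⁻¹ ∈ Subgroup.center G

/-- ES-GRP2: no group of order 16 has centre of order 2 and abelian central quotient. -/
def StGrp2 : Prop :=
  ∀ (K : Type u) [Group K] [Finite K], Nat.card K = 16 → Nat.card (Subgroup.center K) = 2 →
    (∀ x y : K, x * y * x⁻¹ * y⁻¹ ∈ Subgroup.center K) → False

/-- ES-GRP3: the second centre cannot have order 4 with `G / Z_2(G)` non-abelian. -/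
def StGrp3 : Prop :=
  ∀ (G : Type u) [Group G] [Finite G], GHyp G →
    Nat.card (Subgroup.upperCentralSeries G 2) = 4 →
    (¬ ∀ x y : G, x * y * x⁻¹ * y⁻¹ ∈ Subgroup.upperCentralSeries G 2) → False

/-- ES-GRP: `G / Z(G)` is abelian. -/
def StGrp : Prop :=
  ∀ (G : Type u) [Group G] [Finite G], GHyp G → ∀ x y : G, x * y * x⁻¹ * y⁻¹ ∈ Subgroup.center G

/-! ## The matrix group -/

/-- ES-MAT: the hypotheses of S6002 on `R` make it an extraspecial matrix group. -/
def StMat : Prop :=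
  ∀ (F : Type u) [Field F] (R : Subgroup (G4 F)),
    Cfsg.Geo.IsSymplecticTypeGroup 2 R →
    Cfsg.Geo.ActsAbsolutelyIrreducibly (Cfsg.Geo.matrixSet R) →
    Nat.card R = 2 ^ 5 → Nat.card (Subgroup.center R) = 2 → IsES R

/-- ES-LI: elements of `R` that are pairwise different modulo `±1` are linearly independent. -/
def StLI : Prop :=
  ∀ (F : Type u) [Field F] (R : Subgroup (G4 F)), (2 : F) ≠ 0 → IsES R →
    ∀ (n : ℕ) (h : Fin n → G4 F), (∀ i, h i ∈ R) → (∀ i j, i ≠ j → h i ≠ h j ∧ h i ≠ -h j) →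
      LinearIndependent F (fun i => ((h i : G4 F) : M4 F))

/-- ES-CNT: inside `Sp_4`, exactly twelve elements of `R` have square one. -/
def StCnt : Prop :=
  ∀ (F : Type u) [Field F] (R : Subgroup (G4 F)), (2 : F) ≠ 0 → IsES R →
    R ≤ Cfsg.spGL 2 F → Cnt12 R

/-- ES-FIVE: five pairwise anticommuting involutions. -/
def StFive : Prop :=
  ∀ (F : Type u) [Field F] (R : Subgroup (G4 F)), (2 : F) ≠ 0 → IsES R → Cnt12 R →
    Cfsg.Geo.IsOfMinusType 2 R → ∃ t : Fin 5 → G4 F, IsFive R t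

/-- ES-GEN: the five involutions generate `R`. -/
def StGen : Prop :=
  ∀ (F : Type u) [Field F] (R : Subgroup (G4 F)), (2 : F) ≠ 0 → IsES R →
    ∀ t : Fin 5 → G4 F, IsFive R t → Subgroup.closure (Set.range t) = R

/-! ## The normaliser -/

/-- ES-TV: no element `y` of the normaliser of `R` has `y - 1` of rank one. -/
def StTV : Prop :=
  ∀ (F : Type u) [Field F] (R : Subgroup (G4 F)), (2 : F) ≠ 0 → IsES R →
    Cfsg.Geo.ActsAbsolutelyIrreducibly (Cfsg.Geo.matrixSet R) →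
    ∀ t : Fin 5 → G4 F, IsFive R t → Subgroup.closure (Set.range t) = R →
    ∀ y ∈ Cfsg.Geo.subgroupNormalizer R,
      Module.finrank F ↥(LinearMap.range (Matrix.toLin' (y : M4 F) - 1)) ≠ 1

/-- ES-TR: the trace identity `2 tr(y) tr(y⁻¹) = |C_R(y)|` for `y` in the normaliser of `R`
inverting no element of `R` up to sign. -/
def StTR : Prop :=
  ∀ (F : Type u) [Field F] (R : Subgroup (G4 F)), (2 : F) ≠ 0 → IsES R →
    Cfsg.Geo.ActsAbsolutelyIrreducibly (Cfsg.Geo.matrixSet R) →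
    ∀ y ∈ Cfsg.Geo.subgroupNormalizer R, (∀ h ∈ R, y * h * y⁻¹ ≠ -h) →
      2 * (Matrix.trace (y : M4 F) * Matrix.trace ((y⁻¹ : G4 F) : M4 F)) =
        (Nat.card (CentR R y) : F)

/-- ES-FIX: an element of odd prime order `r` of the normaliser of `R` that does not centralise
`R` has `r = 3` and `|C_R(y)| = 8`, or `r = 5` and `|C_R(y)| = 2`. -/
def StFix : Prop :=
  ∀ (F : Type u) [Field F] (R : Subgroup (G4 F)), (2 : F) ≠ 0 → IsES R → Cnt12 R →
    ∀ y ∈ Cfsg.Geo.subgroupNormalizer R, ∀ r : ℕ, r.Prime → r ≠ 2 → y ^ r = 1 →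
    (¬ ∀ h ∈ R, y * h = h * y) →
      (r = 3 ∧ Nat.card (CentR R y) = 8) ∨ (r = 5 ∧ Nat.card (CentR R y) = 2)

/-- ES-ROT: for `a ∈ R` of square `-1` the matrix `1 + a` is invertible, normalises `R` (fixing
the elements commuting with `a` and sending `h` to `-(h a)` otherwise) and scales the form
by `2`. -/
def StRot : Prop :=
  ∀ (F : Type u) [Field F] (R : Subgroup (G4 F)), (2 : F) ≠ 0 → IsES R → R ≤ Cfsg.spGL 2 F →
    ∀ a ∈ R, a * a = -1 → ∃ g : G4 F, (g : M4 F) = 1 + (a : M4 F) ∧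
      g ∈ Cfsg.Geo.subgroupNormalizer R ∧
      (∀ h ∈ R, a * h = h * a → g * h * g⁻¹ = h) ∧
      (∀ h ∈ R, a * h = -(h * a) → g * h * g⁻¹ = -(h * a)) ∧
      (∀ u v : I4 → F, Cfsg.sympForm 2 F ((g : M4 F) *ᵥ u) ((g : M4 F) *ᵥ v) =
        2 * Cfsg.sympForm 2 F u v)

/-- ES-ORD5: the normaliser of `R` in `Sp_4` has an element of order five. -/
def StOrd5 : Prop :=
  ∀ (F : Type u) [Field F] [Fintype F] (R : Subgroup (G4 F)), (2 : F) ≠ 0 → IsES R →
    R ≤ Cfsg.spGL 2 F → ∀ t : Fin 5 → G4 F, IsFive R t →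
    ∃ y : G4 F, y ∈ Cfsg.spGL 2 F ∧ y ∈ Cfsg.Geo.subgroupNormalizer R ∧ orderOf y = 5

/-! ## Witnesses in `Sp_4` -/

/-- ES-X3: an element of order dividing three with traces one. -/
def StX3 : Prop :=
  ∀ (F : Type u) [Field F], ∃ x : G4 F, x ∈ Cfsg.spGL 2 F ∧ x ^ 3 = 1 ∧
    Matrix.trace (x : M4 F) = 1 ∧ Matrix.trace ((x⁻¹ : G4 F) : M4 F) = 1

/-- ES-X5: an element of order dividing five with traces `2 + τ`, `τ² + τ - 1 = 0`. -/
def StX5 : Prop :=
  ∀ (F : Type u) [Field F] (τ : F), τ ^ 2 + τ - 1 = 0 → ∃ x : G4 F, x ∈ Cfsg.spGL 2 F ∧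
    x ^ 5 = 1 ∧ Matrix.trace (x : M4 F) = 2 + τ ∧ Matrix.trace ((x⁻¹ : G4 F) : M4 F) = 2 + τ

/-- ES-TAU: a root of `τ² + τ - 1` in the prime field when `p ≡ ±1 (mod 5)`. -/
def StTau : Prop :=
  ∀ (F : Type u) [Field F] [Fintype F] (p : ℕ) [Fact p.Prime], Fintype.card F = p →
    (p % 5 = 1 ∨ p % 5 = 4) → ∃ τ : F, τ ^ 2 + τ - 1 = 0

/-! ## Sylow 5-subgroups when `p ≡ ±2 (mod 5)` -/

/-- ES-IRR5: an element of order five of `GL_4(p)`, `p ≡ ±2 (mod 5)`, acts irreducibly. -/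
def StIrr5 : Prop :=
  ∀ (F : Type u) [Field F] [Fintype F] (p : ℕ) [Fact p.Prime], Fintype.card F = p →
    (p % 5 = 2 ∨ p % 5 = 3) → ∀ w : G4 F, orderOf w = 5 →
    ∀ W : Submodule F (I4 → F), W.map (Matrix.toLin' (w : M4 F)) ≤ W → W = ⊥ ∨ W = ⊤

/-- ES-CYC5: the 5-subgroups of `GL_4(p)`, `p ≡ ±2 (mod 5)`, are cyclic. -/
def StCyc5 : Prop :=
  ∀ (F : Type u) [Field F] [Fintype F] (p : ℕ) [Fact p.Prime], Fintype.card F = p →
    (p % 5 = 2 ∨ p % 5 = 3) → ∀ S : Subgroup (G4 F), IsPGroup 5 S → IsCyclic S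

/-- ES-SYL5: in a subgroup `H` of `GL_4(p)`, `p ≡ ±2 (mod 5)`, any two subgroups of order five
are conjugate. -/
def StSyl5 : Prop :=
  ∀ (F : Type u) [Field F] [Fintype F] (p : ℕ) [Fact p.Prime], Fintype.card F = p →
    (p % 5 = 2 ∨ p % 5 = 3) → ∀ H : Subgroup (G4 F), ∀ x ∈ H, ∀ y ∈ H,
    orderOf x = 5 → orderOf y = 5 → ∃ g ∈ H, ∃ k : ℕ, g⁻¹ * x * g = y ^ k

end Cfsg.Agent.H75.ES
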