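import Mathlib
import Cfsg.Agent.H42.SpnDefs

/-!
# helper75: piece SPN-COMPL of S5956 (helper42's project)

Orthogonal complement of an invariant nondegenerate subspace inside another one, for `Iso B T`
(no semisimplicity).  Adapted from helper77's `Cfsg.Agent.H77.Spd.compl`.
-/

set_option autoImplicit false

namespace Cfsg.Agent.H75.Spn

open Cfsg.Agent.H45 Cfsg.Agent.H42.Spd Cfsg.Agent.H42.Spn Module

universe u v

section
variable {F : Type u} [Field F] {V : Type v} [AddCommGroup V] [Module F V]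
  {B : V →ₗ[F] V →ₗ[F] F} {T : Module.End F V}

theorem iso_skew (hd : Iso B T) (x y : V) : B x y = -B y x := by
  have h := hd.alt (x + y)
  simp only [map_add, LinearMap.add_apply, hd.alt x, hd.alt y, zero_add, add_zero] at h
  exact eq_neg_of_add_eq_zero_right h

theorem iso_refl (hd : Iso B T) {x y : V} (h : B x y = 0) : B y x = 0 := by
  rw [iso_skew hd, h, neg_zero]

theorem iso_injective (hd : Iso B T) : Function.Injective T := by
  rw [← LinearMap.ker_eq_bot, LinearMap.ker_eq_bot']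
  intro x hx
  apply hd.nondeg
  intro y
  have h := hd.isom x y
  rw [hx, map_zero, LinearMap.zero_apply] at h
  exact h.symm

theorem iso_surj_on [FiniteDimensional F V] (hd : Iso B T) (U : Submodule F V)
    (hU : U ∈ T.invtSubmodule) : ∀ u ∈ U, ∃ u' ∈ U, T u' = u := by
  have hTU : ∀ x ∈ U, T x ∈ U :=
    (Module.End.mem_invtSubmodule_iff_forall_mem_of_mem (f := T)).mp hU
  have hle : U.map T ≤ U := by
    rintro _ ⟨x, hx, rfl⟩
    exact hTU x hx
  have hfr : finrank F ↥(U.map T) = finrank F U :=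
    (Submodule.equivMapOfInjective T (iso_injective hd) U).finrank_eq.symm
  have heq : U.map T = U := Submodule.eq_of_le_of_finrank_eq hle hfr
  intro u hu
  rw [← heq] at hu
  obtain ⟨u', hu', rfl⟩ := hu
  exact ⟨u', hu', rfl⟩

theorem iso_perp_invt [FiniteDimensional F V] (hd : Iso B T) (U : Submodule F V)
    (hU : U ∈ T.invtSubmodule) : perp B U ∈ T.invtSubmodule := by
  rw [Module.End.mem_invtSubmodule_iff_forall_mem_of_mem]
  intro y hy u hu
  obtain ⟨u', hu', rfl⟩ := iso_surj_on hd U hU u hu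
  rw [hd.isom]
  exact hy u' hu'

end

theorem isoCompl : StIsoCompl.{u, v} := by
  intro F _ _ V _ _ _ B T hd U W hU hW hUW
  obtain ⟨hUinv, hUnd⟩ := hU
  obtain ⟨hWinv, hWnd⟩ := hW
  have hTW : ∀ x ∈ W, T x ∈ W :=
    (Module.End.mem_invtSubmodule_iff_forall_mem_of_mem (f := T)).mp hWinv
  have hPinv : perp B U ∈ T.invtSubmodule := iso_perp_invt hd U hUinv
  have hTP : ∀ x ∈ perp B U, T x ∈ perp B U :=
    (Module.End.mem_invtSubmodule_iff_forall_mem_of_mem (f := T)).mp hPinv
  have hcompl := isCompl_perp B U hUnd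
  have hsup : U ⊔ (W ⊓ perp B U) = W := by
    rw [inf_comm, ← sup_inf_assoc_of_le _ hUW, hcompl.sup_eq_top, top_inf_eq]
  have hinf : U ⊓ (W ⊓ perp B U) = ⊥ := by
    rw [eq_bot_iff, ← hUnd]
    exact inf_le_inf_left _ inf_le_right
  refine ⟨⟨?_, ?_⟩, hsup, ?_⟩
  · rw [Module.End.mem_invtSubmodule]
    rintro x ⟨hx1, hx2⟩
    exact ⟨hTW x hx1, hTP x hx2⟩
  · rw [eq_bot_iff]
    rintro x ⟨⟨hxW, hxP⟩, hx2⟩
    rw [Submodule.mem_bot]
    have key : x ∈ W ⊓ perp B W := by
      refine ⟨hxW, fun w hw => ?_⟩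
      rw [← hsup] at hw
      obtain ⟨u, hu, w', hw', rfl⟩ := Submodule.mem_sup.mp hw
      rw [map_add, LinearMap.add_apply, hxP u hu, hx2 w' hw', add_zero]
    rw [hWnd, Submodule.mem_bot] at key
    exact key
  · have h := Submodule.finrank_sup_add_finrank_inf_eq U (W ⊓ perp B U)
    rw [hsup, hinf, finrank_bot, add_zero] at h
    exact h.symm

example : Cfsg.Agent.H42.Spn.StIsoCompl.{u, v} := isoCompl

end Cfsg.Agent.H75.Spn
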