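import Mathlib
import Cfsg.Agent.H52.SoDefs
import Cfsg.Agent.H63.SnIfV

/-!
# SO-WID (piece of S2943): `W_K = [V, K]`

`V = Ω₁(Z(O₂(L)))`, `K ≤ L` a `J(T)`-component, `O = O₂(K) ≤ O₂(L)`, `O₂(L)` normalizes `K`,
`K` does not centralize `V`.  Then `[V, K] ≤ V ⊓ K ≤ Ω₁(Z(O))`; for `k ∈ K` the cube `k ^ 3`
centralizes `V`, and on the elementary abelian group `V` this gives
`⁅v, k⁆ = ⁅⁅k⁻¹ v k, k⁆, k ^ 2⁆`, so `[V, K] = [[V, K], K] ≤ [Ω₁(Z(O)), K] = W_K`; `W_K` has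
order 4 and `[V, K]` cannot have order 2 (`K` would centralize it).
-/

set_option autoImplicit false
open Cfsg

namespace Cfsg.Agent.H75.SoW

open Cfsg.Agent.H52.Sn
open scoped commutatorElement

universe u

/-- The commutator identity on an elementary abelian 2-group normalized by `k` and centralized
by `k ^ 3`. -/
theorem comm_id {G : Type u} [Group G] (V : Subgroup G)
    (hVab : ∀ a ∈ V, ∀ b ∈ V, a * b = b * a) (hV2 : ∀ a ∈ V, a * a = 1)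
    (k v : G) (hv : v ∈ V) (hkv : ∀ x ∈ V, k * x * k⁻¹ ∈ V) (hkv' : ∀ x ∈ V, k⁻¹ * x * k ∈ V)
    (hk3 : k ^ 3 * v = v * k ^ 3) :
    ⁅⁅k⁻¹ * v * k, k⁆, k ^ 2⁆ = ⁅v, k⁆ := by
  have ha : k⁻¹ * v * k ∈ V := hkv' v hv
  have hvi : v⁻¹ ∈ V := inv_mem hv
  have hc : k * v⁻¹ * k⁻¹ ∈ V := hkv _ hvi
  have e1 : ⁅k⁻¹ * v * k, k⁆ = (k⁻¹ * v * k) * v⁻¹ := by
    simp only [commutatorElement_def]; group
  have e2 : k ^ 2 * v * (k ^ 2)⁻¹ = k⁻¹ * v * k := by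
    have : k ^ 2 * v * (k ^ 2)⁻¹ = k⁻¹ * (k ^ 3 * v) * (k ^ 3)⁻¹ * k := by group
    rw [this, hk3]; group
  have e3 : ⁅(k⁻¹ * v * k) * v⁻¹, k ^ 2⁆ =
      (k⁻¹ * v * k) * v⁻¹ * (k ^ 2 * v * (k ^ 2)⁻¹) * (k * v⁻¹ * k⁻¹) := by
    simp only [commutatorElement_def]; group
  have e4 : ⁅v, k⁆ = v * (k * v⁻¹ * k⁻¹) := by
    simp only [commutatorElement_def]; group
  rw [e1, e3, e2, e4]
  have hvv : v⁻¹ = v := by
    rw [inv_eq_iff_mul_eq_one]; exact hV2 v hv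
  have h1 : (k⁻¹ * v * k) * v⁻¹ * (k⁻¹ * v * k) = v⁻¹ := by
    rw [hVab _ ha _ hvi, mul_assoc, hV2 _ ha, mul_one]
  rw [h1, hvv]

/-- The abstract core of SO-WID. -/
theorem core {G : Type u} [Group G] [Finite G] (V K Z : Subgroup G)
    (hVab : ∀ a ∈ V, ∀ b ∈ V, a * b = b * a) (hV2 : ∀ a ∈ V, a * a = 1)
    (hKV : ∀ k ∈ K, ∀ v ∈ V, k * v * k⁻¹ ∈ V)
    (hVK : ∀ v ∈ V, ∀ k ∈ K, v * k * v⁻¹ ∈ K)
    (hk3 : ∀ k ∈ K, ∀ v ∈ V, k ^ 3 * v = v * k ^ 3)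
    (hZ : V ⊓ K ≤ Z) (hW : Nat.card ↥⁅Z, K⁆ = 4)
    (hne : ¬ K ≤ Subgroup.centralizer (V : Set G)) :
    ⁅V, K⁆ = ⁅Z, K⁆ := by
  have h1 : ⁅V, K⁆ ≤ V ⊓ K := by
    rw [Subgroup.commutator_le]
    intro v hv k hk
    refine Subgroup.mem_inf.mpr ⟨?_, ?_⟩
    · have : ⁅v, k⁆ = v * (k * v⁻¹ * k⁻¹) := by simp only [commutatorElement_def]; group
      rw [this]; exact mul_mem hv (hKV k hk _ (inv_mem hv))
    · have : ⁅v, k⁆ = (v * k * v⁻¹) * k⁻¹ := by simp only [commutatorElement_def]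
      rw [this]; exact mul_mem (hVK v hv k hk) (inv_mem hk)
  have h2 : ⁅V, K⁆ ≤ ⁅⁅V, K⁆, K⁆ := by
    rw [Subgroup.commutator_le]
    intro v hv k hk
    have hkv' : ∀ x ∈ V, k⁻¹ * x * k ∈ V := by
      intro x hx
      have := hKV k⁻¹ (inv_mem hk) x hx
      simpa using this
    rw [← comm_id V hVab hV2 k v hv (hKV k hk) hkv' (hk3 k hk v hv)]
    exact Subgroup.commutator_mem_commutator
      (Subgroup.commutator_mem_commutator (hkv' v hv) hk) (pow_mem hk 2)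
  have h3 : ⁅V, K⁆ ≤ ⁅Z, K⁆ := h2.trans (Subgroup.commutator_mono (h1.trans hZ) le_rfl)
  have hnb : ⁅V, K⁆ ≠ ⊥ := by
    intro h
    rw [Subgroup.commutator_comm, Subgroup.commutator_eq_bot_iff_le_centralizer] at h
    exact hne h
  have hdvd : Nat.card ↥⁅V, K⁆ ∣ 4 := hW ▸ Subgroup.card_dvd_of_le h3
  have hle : Nat.card ↥⁅V, K⁆ ≤ 4 := Nat.le_of_dvd (by norm_num) hdvd
  have hn1 : Nat.card ↥⁅V, K⁆ ≠ 1 := by
    intro h
    exact hnb (Subgroup.card_eq_one.mp h)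
  have hn2 : Nat.card ↥⁅V, K⁆ ≠ 2 := by
    intro h
    apply hnb
    have hb : ⁅⁅V, K⁆, K⁆ = ⊥ := by
      rw [eq_bot_iff, Subgroup.commutator_le]
      intro d hd k hk
      rw [Subgroup.mem_bot]
      have hdV : d ∈ V := (Subgroup.mem_inf.mp (h1 hd)).1
      have he : k * d⁻¹ * k⁻¹ ∈ ⁅V, K⁆ := by
        have hc : ⁅d, k⁆ ∈ ⁅V, K⁆ := Subgroup.commutator_mem_commutator hdV hk
        have : k * d⁻¹ * k⁻¹ = d⁻¹ * ⁅d, k⁆ := by simp only [commutatorElement_def]; group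
        rw [this]; exact mul_mem (inv_mem hd) hc
      have hform : ⁅d, k⁆ = d * (k * d⁻¹ * k⁻¹) := by simp only [commutatorElement_def]; group
      by_cases hd1 : d = 1
      · subst hd1; simp
      · have he1 : k * d⁻¹ * k⁻¹ ≠ 1 := by
          intro h0
          apply hd1
          have : d⁻¹ = 1 := by
            have := congrArg (fun x => k⁻¹ * x * k) h0
            simpa [mul_assoc] using this
          simpa using this
        obtain ⟨y, -, hy⟩ := (Nat.card_eq_two_iff' (1 : ↥⁅V, K⁆)).mp h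
        have e1 : (⟨d, hd⟩ : ↥⁅V, K⁆) = y := hy _ (fun h0 => hd1 (congrArg Subtype.val h0))
        have e2 : (⟨k * d⁻¹ * k⁻¹, he⟩ : ↥⁅V, K⁆) = y :=
          hy _ (fun h0 => he1 (congrArg Subtype.val h0))
        have e3 : k * d⁻¹ * k⁻¹ = d := congrArg Subtype.val (e2.trans e1.symm)
        rw [hform, e3]; exact hV2 d hdV
    exact le_antisymm (hb ▸ h2) bot_le
  have h4 : Nat.card ↥⁅V, K⁆ = 4 := by
    have hpos : 0 < Nat.card ↥⁅V, K⁆ := Nat.card_pos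
    interval_cases hc : Nat.card ↥⁅V, K⁆ <;> simp_all
  exact Subgroup.eq_of_le_of_card_ge h3 (by rw [hW, h4])

/-- SO-WID: `W_K = [V, K]`. -/
theorem wid : StWid.{u} := by
  intro G _ _ T L K M hJ hKL hF hOQ hnc
  have hVL : omegaCenterOf (pCoreOf 2 L) ≤ L := fun x hx =>
    Cfsg.Agent.H63.Sn.pCoreOf_le L (Cfsg.Agent.H63.Sn.mem_omegaCenterOf _ hx).1
  have hmap : (⁅(omegaCenterOf (pCoreOf 2 L)).subgroupOf L, K.subgroupOf L⁆).map L.subtype =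
      ⁅omegaCenterOf (pCoreOf 2 L), K⁆ := by
    rw [Subgroup.map_commutator, Subgroup.subgroupOf_map_subtype, Subgroup.subgroupOf_map_subtype,
      inf_of_le_left hVL, inf_of_le_left hKL]
  rw [hmap]
  unfold wOf
  have hVmem := fun {x : G} (hx : x ∈ omegaCenterOf (pCoreOf 2 L)) =>
    Cfsg.Agent.H63.Sn.mem_omegaCenterOf (pCoreOf 2 L) hx
  obtain ⟨hVn, -, -⟩ := Cfsg.Agent.H63.Sn.ifV.{u} L
  -- `O ≤ Q`
  have hOQ' : pCoreOf 2 K ≤ pCoreOf 2 L := by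
    intro x hx
    have hxK : x ∈ K := Cfsg.Agent.H63.Sn.pCoreOf_le K hx
    have hxL : x ∈ L := hKL hxK
    have h1 : (⟨x, hxL⟩ : ↥L) ∈ (pCoreOf 2 K).subgroupOf L := Subgroup.mem_subgroupOf.mpr hx
    exact (Cfsg.Agent.H63.Sn.mem_pCoreOf L).mpr ⟨hxL, hOQ h1⟩
  have hVab : ∀ a ∈ omegaCenterOf (pCoreOf 2 L), ∀ b ∈ omegaCenterOf (pCoreOf 2 L),
      a * b = b * a := by
    intro a ha b hb
    exact (Subgroup.mem_centralizer_iff.mp (hVmem hb).2.1) a (hVmem ha).1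
  have hV2 : ∀ a ∈ omegaCenterOf (pCoreOf 2 L), a * a = 1 := by
    intro a ha
    have := (hVmem ha).2.2
    rwa [pow_two] at this
  have hKV : ∀ k ∈ K, ∀ v ∈ omegaCenterOf (pCoreOf 2 L),
      k * v * k⁻¹ ∈ omegaCenterOf (pCoreOf 2 L) := by
    intro k hk v hv
    have h1 : (⟨v, hVL hv⟩ : ↥L) ∈ (omegaCenterOf (pCoreOf 2 L)).subgroupOf L :=
      Subgroup.mem_subgroupOf.mpr hv
    have h2 := hVn.conj_mem _ h1 ⟨k, hKL hk⟩
    exact Subgroup.mem_subgroupOf.mp h2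
  have hVK : ∀ v ∈ omegaCenterOf (pCoreOf 2 L), ∀ k ∈ K, v * k * v⁻¹ ∈ K := by
    intro v hv k hk
    obtain ⟨hvL, hvQ⟩ := (Cfsg.Agent.H63.Sn.mem_pCoreOf L).mp (hVmem hv).1
    have h1 := hF.hQK hvQ
    rw [Subgroup.mem_normalizer_iff] at h1
    have h2 : (⟨k, hKL hk⟩ : ↥L) ∈ K.subgroupOf L := Subgroup.mem_subgroupOf.mpr hk
    exact Subgroup.mem_subgroupOf.mp ((h1 _).mp h2)
  have hk3O : ∀ k ∈ K, k ^ 3 ∈ pCoreOf 2 K := by
    intro k hk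
    have h3 := hJ.2.2.1
    have e : (pCoreOf 2 K).subgroupOf K = pCore 2 ↥K := by
      unfold pCoreOf Subgroup.subgroupOf
      exact Subgroup.comap_map_eq_self_of_injective (Subtype.coe_injective) _
    rw [Subgroup.relIndex, e] at h3
    have : (pCore 2 ↥K).Normal := Cfsg.Agent.H53.pCore_normal 2 ↥K
    have h4 := Subgroup.pow_index_mem (pCore 2 ↥K) (⟨k, hk⟩ : ↥K)
    rw [h3] at h4
    exact (Cfsg.Agent.H63.Sn.mem_pCoreOf K).mpr ⟨pow_mem hk 3, h4⟩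
  have hk3 : ∀ k ∈ K, ∀ v ∈ omegaCenterOf (pCoreOf 2 L), k ^ 3 * v = v * k ^ 3 := by
    intro k hk v hv
    exact (Subgroup.mem_centralizer_iff.mp (hVmem hv).2.1) _ (hOQ' (hk3O k hk))
  have hZ : omegaCenterOf (pCoreOf 2 L) ⊓ K ≤ omegaCenterOf (pCoreOf 2 K) := by
    intro x hx
    obtain ⟨hxV, hxK⟩ := Subgroup.mem_inf.mp hx
    refine Cfsg.Agent.H63.Sn.omegaCenterOf_mem _ ?_ ?_ (hVmem hxV).2.2
    · -- `V ⊓ K` is a normal 2-subgroup of `K`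
      have hN : ((omegaCenterOf (pCoreOf 2 L) ⊓ K).subgroupOf K).Normal := by
        refine ⟨fun n hn g => ?_⟩
        rw [Subgroup.mem_subgroupOf] at hn ⊢
        obtain ⟨h1, h2⟩ := Subgroup.mem_inf.mp hn
        refine Subgroup.mem_inf.mpr ⟨?_, ?_⟩
        · simpa using hKV g g.2 n h1
        · exact (g * n * g⁻¹).2
      have hP : IsPGroup 2 ↥((omegaCenterOf (pCoreOf 2 L) ⊓ K).subgroupOf K) := by
        intro g
        refine ⟨1, ?_⟩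
        have hg : ((g : ↥K) : G) ∈ omegaCenterOf (pCoreOf 2 L) ⊓ K :=
          Subgroup.mem_subgroupOf.mp g.2
        have h2 := hV2 _ (Subgroup.mem_inf.mp hg).1
        apply Subtype.ext
        apply Subtype.ext
        simpa [pow_two] using h2
      have hle := Cfsg.Agent.H53.le_pCore hN hP
      have : (⟨x, hxK⟩ : ↥K) ∈ (omegaCenterOf (pCoreOf 2 L) ⊓ K).subgroupOf K :=
        Subgroup.mem_subgroupOf.mpr hx
      exact (Cfsg.Agent.H63.Sn.mem_pCoreOf K).mpr ⟨hxK, hle this⟩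
    · rw [Subgroup.mem_centralizer_iff]
      intro o ho
      exact (Subgroup.mem_centralizer_iff.mp (hVmem hxV).2.1) o (hOQ' ho)
  have hne : ¬ K ≤ Subgroup.centralizer ((omegaCenterOf (pCoreOf 2 L) : Subgroup G) : Set G) := by
    intro h
    apply hnc
    intro k hk
    rw [Subgroup.mem_centralizer_iff]
    intro v hv
    have h1 := (Subgroup.mem_centralizer_iff.mp (h (Subgroup.mem_subgroupOf.mp hk))) _
      (Subgroup.mem_subgroupOf.mp hv)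
    apply Subtype.ext
    simpa using h1
  exact core _ K _ hVab hV2 hKV hVK hk3 hZ hJ.2.2.2.2.1 hne

end Cfsg.Agent.H75.SoW

universe u in
example : Cfsg.Agent.H52.Sn.StWid.{u} := Cfsg.Agent.H75.SoW.wid.{u}
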