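import Cfsg.Agent.H86.Ev2Defs
/-!
EV2 sub-project (helper86), piece EV2-JEIG: if `-1 = s * s` and `T` is an isometry with
`T * T = -1`, the eigenspaces `ker (T ∓ s)` are totally isotropic and complementary; every invariant
nondegenerate subspace has even dimension, and there are invariant totally isotropic subspaces of
every dimension `j` with `2 j ≤ dim V`.
-/
set_option autoImplicit false

namespace Cfsg.Agent.H75.Ev2

open Cfsg.Agent.H45 Cfsg.Agent.H42.Spd Cfsg.Agent.H42.Ti Cfsg.Agent.H14.Ot Cfsg.Agent.H95.Oh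
  Cfsg.Agent.H86.Ev2 Module

universe u v

/-- a subspace of every dimension `j ≤ dim E` inside `E` -/
theorem je_exists_le_finrank {F : Type u} [Field F] {V : Type v} [AddCommGroup V] [Module F V]
    [FiniteDimensional F V] (E : Submodule F V) (j : ℕ) (hj : j ≤ finrank F E) :
    ∃ W : Submodule F V, W ≤ E ∧ finrank F W = j := by
  obtain ⟨f, hf⟩ := exists_linearIndependent_of_le_finrank (R := F) (M := E) hj
  have hg : LinearIndependent F (fun a => (f a : V)) :=
    hf.map' E.subtype (Submodule.ker_subtype E)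
  refine ⟨Submodule.span F (Set.range (fun a => (f a : V))), ?_, ?_⟩
  · rw [Submodule.span_le]
    rintro _ ⟨a, rfl⟩
    exact (f a).2
  · rw [finrank_span_eq_card hg]; simp

theorem jEig (hH : StOHalf.{u, v}) : StJEig.{u, v} := by
  intro F _ V _ _ _ B T h2 hsq hsym hnd hiso hTT
  obtain ⟨s, hs⟩ := hsq
  have hs0 : s ≠ 0 := by
    rintro rfl
    simp at hs
  have h2s : (2 * s : F) ≠ 0 := mul_ne_zero h2 hs0
  have hTTv : ∀ v, T (T v) = -v := by
    intro v
    have := congrArg (fun f : Module.End F V => f v) hTT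
    simpa using this
  set Ep : Submodule F V := LinearMap.ker (T - s • (1 : Module.End F V)) with hEp
  set Em : Submodule F V := LinearMap.ker (T + s • (1 : Module.End F V)) with hEm
  have memEp : ∀ v, v ∈ Ep ↔ T v = s • v := by
    intro v; rw [hEp, LinearMap.mem_ker]; simp [sub_eq_zero]
  have memEm : ∀ v, v ∈ Em ↔ T v = -(s • v) := by
    intro v; rw [hEm, LinearMap.mem_ker]; simp [add_eq_zero_iff_eq_neg]
  have tiEp : TI B Ep := by
    intro x hx y hy
    have h := hiso x y
    rw [(memEp x).mp hx, (memEp y).mp hy] at h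
    simp only [map_smul, LinearMap.smul_apply, smul_eq_mul] at h
    have h' : s * (s * B x y) = -(B x y) := by rw [← mul_assoc, ← hs]; ring
    have : (2 : F) * B x y = 0 := by linear_combination h' - h
    exact (mul_eq_zero.mp this).resolve_left h2
  have tiEm : TI B Em := by
    intro x hx y hy
    have h := hiso x y
    rw [(memEm x).mp hx, (memEm y).mp hy] at h
    simp only [map_neg, map_smul, LinearMap.neg_apply, LinearMap.smul_apply, smul_eq_mul] at h
    have h' : s * (s * B x y) = -(B x y) := by rw [← mul_assoc, ← hs]; ring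
    have : (2 : F) * B x y = 0 := by linear_combination h' - h
    exact (mul_eq_zero.mp this).resolve_left h2
  have hdec : ∀ v : V, (2 * s) • v = (T v + s • v) - (T v - s • v) := by
    intro v; rw [mul_smul, two_smul]; abel
  have hp : ∀ v, T v + s • v ∈ Ep := by
    intro v
    rw [memEp, map_add, map_smul, hTTv, smul_add, smul_smul, ← hs]
    simp [add_comm]
  have hm : ∀ v, T v - s • v ∈ Em := by
    intro v
    rw [memEm, map_sub, map_smul, hTTv, smul_sub, smul_smul, ← hs]
    simp
    abel
  -- the splitting of an invariant subspace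
  have key : ∀ W : Submodule F V, (∀ w ∈ W, T w ∈ W) →
      finrank F ↥(W ⊓ Ep) + finrank F ↥(W ⊓ Em) = finrank F W := by
    intro W hWT
    have hsup : (W ⊓ Ep) ⊔ (W ⊓ Em) = W := by
      apply le_antisymm (sup_le inf_le_left inf_le_left)
      intro w hw
      have h1 : T w + s • w ∈ W ⊓ Ep := ⟨W.add_mem (hWT w hw) (W.smul_mem s hw), hp w⟩
      have h2' : T w - s • w ∈ W ⊓ Em := ⟨W.sub_mem (hWT w hw) (W.smul_mem s hw), hm w⟩
      have : w = (2 * s)⁻¹ • ((T w + s • w) - (T w - s • w)) := by
        rw [← hdec, smul_smul, inv_mul_cancel₀ h2s, one_smul]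
      rw [this]
      apply Submodule.smul_mem
      exact Submodule.sub_mem _ (Submodule.mem_sup_left h1) (Submodule.mem_sup_right h2')
    have hinf : (W ⊓ Ep) ⊓ (W ⊓ Em) = ⊥ := by
      rw [eq_bot_iff]
      intro w hw
      obtain ⟨⟨_, h1⟩, ⟨_, h2'⟩⟩ := hw
      have e1 := (memEp w).mp h1
      have e2 := (memEm w).mp h2'
      have : (2 * s) • w = 0 := by
        rw [mul_smul, two_smul]
        have e3 : s • w = -(s • w) := e1.symm.trans e2
        nth_rewrite 1 [e3]
        simp
      exact (smul_eq_zero.mp this).resolve_left h2s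
    have := Submodule.finrank_sup_add_finrank_inf_eq (W ⊓ Ep) (W ⊓ Em)
    rw [hsup, hinf, finrank_bot, add_zero] at this
    exact this.symm
  constructor
  · intro W hW hWnd
    have hWT : ∀ w ∈ W, T w ∈ W := fun w hw => hW hw
    have hdim := key W hWT
    have hp2 := hH F V B hsym W (W ⊓ Ep) hWnd inf_le_left (fun x hx y hy => tiEp x hx.2 y hy.2)
    have hm2 := hH F V B hsym W (W ⊓ Em) hWnd inf_le_left (fun x hx y hy => tiEm x hx.2 y hy.2)
    exact ⟨finrank F ↥(W ⊓ Ep), by omega⟩
  · intro j hj
    have htop : (⊤ : Submodule F V) ⊓ perp B ⊤ = ⊥ := by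
      rw [eq_bot_iff]
      intro y hy
      have hy2 : y ∈ perp B ⊤ := hy.2
      apply hnd y
      intro z
      rw [hsym]
      exact hy2 z Submodule.mem_top
    have hdimE := key ⊤ (fun w _ => Submodule.mem_top)
    rw [top_inf_eq, top_inf_eq, finrank_top] at hdimE
    have hp2 := hH F V B hsym ⊤ Ep htop le_top tiEp
    have hm2 := hH F V B hsym ⊤ Em htop le_top tiEm
    rw [finrank_top] at hp2 hm2
    have hjE : j ≤ finrank F Ep := by omega
    obtain ⟨W, hWE, hWj⟩ := je_exists_le_finrank Ep j hjE
    refine ⟨W, ?_, fun x hx y hy => tiEp x (hWE hx) y (hWE hy), hWj⟩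
    rw [Module.End.mem_invtSubmodule]
    intro w hw
    rw [Submodule.mem_comap, (memEp w).mp (hWE hw)]
    exact W.smul_mem s hw

example : (@jEig.{u, v} : Cfsg.Agent.H14.Ot.StOHalf.{u, v} → Cfsg.Agent.H86.Ev2.StJEig.{u, v}) =
    @jEig.{u, v} := rfl

end Cfsg.Agent.H75.Ev2
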