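import Cfsg.Agent.H86.Ev2Defs
/-!
EV2 sub-project (helper86), piece EV2-JTS: if `-1` is not a square and `T` is an isometry of a
nondegenerate symmetric form with `T * T = -1`, there are invariant totally isotropic subspaces of
every even dimension `2 j` with `4 j ≤ dim V`.
-/
set_option autoImplicit false

namespace Cfsg.Agent.H75.Ev2

open Cfsg.Agent.H45 Cfsg.Agent.H42.Spd Cfsg.Agent.H42.Ti Cfsg.Agent.H14.Ot Cfsg.Agent.H95.Oh
  Cfsg.Agent.H86.Ev2 Module

universe u v

theorem jTs (hW : StOWitt.{u, v}) : StJTs.{u, v} := by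
  intro F _ _ V _ _ _ B T h2 hns hsym hnd hiso hTT j hj
  have hTTv : ∀ v, T (T v) = -v := by
    intro v
    have := congrArg (fun f : Module.End F V => f v) hTT
    simpa using this
  have hxTx : ∀ x, B x (T x) = 0 := by
    intro x
    have h := hiso x (T x)
    rw [hTTv, map_neg, hsym (T x) x] at h
    have : (2 : F) * B x (T x) = 0 := by linear_combination -h
    exact (mul_eq_zero.mp this).resolve_left h2
  have hadj : ∀ x y, B x (T y) = -(B (T x) y) := by
    intro x y
    have h := hiso x (T y)
    rw [hTTv, map_neg] at h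
    exact h.symm
  have hpair : ∀ x y : V, finrank F (Submodule.span F ({x, y} : Set V)) ≤ 2 := by
    intro x y
    classical
    have := finrank_span_finset_le_card (R := F) ({x, y} : Finset V)
    rw [Finset.coe_pair] at this
    exact this.trans Finset.card_le_two
  have claim : ∀ j : ℕ, ∀ K : Submodule F V, (∀ k ∈ K, T k ∈ K) → K ⊓ perp B K = ⊥ →
      4 * j ≤ finrank F K → ∃ W : Submodule F V, W ≤ K ∧ (∀ w ∈ W, T w ∈ W) ∧ TI B W ∧
        finrank F W = 2 * j := by
    intro j
    induction j with
    | zero =>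
      intro K _ _ _
      refine ⟨⊥, bot_le, ?_, ?_, by simp⟩
      · intro w hw
        rw [Submodule.mem_bot] at hw
        rw [hw, map_zero]
        exact Submodule.zero_mem _
      · intro x hx y _
        rw [Submodule.mem_bot] at hx
        rw [hx, map_zero, LinearMap.zero_apply]
    | succ j ih =>
      intro K hKT hK hdim
      obtain ⟨J, hJK, hJTI, hJdim⟩ := hW F V B h2 hsym K 1 hK (by omega)
      have hJne : J ≠ ⊥ := by
        intro h
        rw [h, finrank_bot] at hJdim
        omega
      obtain ⟨v, hvJ, hv0⟩ := Submodule.exists_mem_ne_zero_of_ne_bot hJne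
      have hvK : v ∈ K := hJK hvJ
      have hvv : B v v = 0 := hJTI v hvJ v hvJ
      obtain ⟨k, hkK, hk⟩ : ∃ k ∈ K, B k v ≠ 0 := by
        have h1 : v ∉ perp B K := by
          intro h
          have : v ∈ K ⊓ perp B K := ⟨hvK, h⟩
          rw [hK, Submodule.mem_bot] at this
          exact hv0 this
        rw [mem_perp] at h1
        push Not at h1
        exact h1
      obtain ⟨a, ha⟩ : ∃ a : F, a = B v k := ⟨_, rfl⟩
      obtain ⟨b, hb⟩ : ∃ b : F, b = B (T v) k := ⟨_, rfl⟩
      have ha0 : a ≠ 0 := by rw [ha, hsym]; exact hk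
      have hab : a * a + b * b ≠ 0 := by
        intro h
        apply hns
        have h' : b * b = -(a * a) := by linear_combination h
        refine ⟨b / a, ?_⟩
        rw [div_mul_div_comm, h', neg_div, div_self (mul_ne_zero ha0 ha0)]
      obtain ⟨u, hu⟩ : ∃ u : V, u = k + (-b / a) • T k := ⟨_, rfl⟩
      have huK : u ∈ K := by
        rw [hu]
        exact K.add_mem hkK (K.smul_mem _ (hKT k hkK))
      have hTvu : B (T v) u = 0 := by
        rw [hu, map_add, map_smul, hiso, smul_eq_mul, ← ha, ← hb, div_mul_cancel₀ _ ha0,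
          add_neg_cancel]
      have hαa : B v u * a = a * a + b * b := by
        rw [hu, map_add, map_smul, hadj v k, smul_eq_mul, ← ha, ← hb]
        have e : -b / a * a = -b := div_mul_cancel₀ _ ha0
        linear_combination (-b) * e
      obtain ⟨α, hα⟩ : ∃ α : F, α = B v u := ⟨_, rfl⟩
      rw [← hα] at hαa
      have hα0 : α ≠ 0 := by
        intro h
        rw [h, zero_mul] at hαa
        exact hab hαa.symm
      obtain ⟨β, hβ⟩ : ∃ β : F, β = B u u := ⟨_, rfl⟩
      have hvu : B v u = α := hα.symm
      have huu : B u u = β := hβ.symm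
      have hvTu : B v (T u) = 0 := by rw [hadj, hTvu, neg_zero]
      have hTvTu : B (T v) (T u) = α := by rw [hiso, hvu]
      have huTu : B u (T u) = 0 := hxTx u
      have huv : B u v = α := by rw [hsym, hvu]
      have huTv : B u (T v) = 0 := by rw [hsym]; exact hTvu
      have hTuv : B (T u) v = 0 := by rw [hsym]; exact hvTu
      have hTuTv : B (T u) (T v) = α := by rw [hsym]; exact hTvTu
      have hTuu : B (T u) u = 0 := by rw [hsym]; exact huTu
      have hTuTu : B (T u) (T u) = β := by rw [hiso, huu]
      have hvTv : B v (T v) = 0 := hxTx v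
      have hTvv : B (T v) v = 0 := by rw [hsym]; exact hvTv
      have hTvTv : B (T v) (T v) = 0 := by rw [hiso]; exact hvv
      -- the planes and the 4-space
      obtain ⟨L, hL⟩ : ∃ L : Submodule F V, L = Submodule.span F {v, T v} := ⟨_, rfl⟩
      obtain ⟨L', hL'⟩ : ∃ L' : Submodule F V, L' = Submodule.span F {u, T u} := ⟨_, rfl⟩
      obtain ⟨H, hH⟩ : ∃ H : Submodule F V, H = L ⊔ L' := ⟨_, rfl⟩
      have hmemL : ∀ x, x ∈ L ↔ ∃ a b : F, a • v + b • T v = x := by
        intro x; rw [hL, Submodule.mem_span_pair]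
      have hmemL' : ∀ x, x ∈ L' ↔ ∃ a b : F, a • u + b • T u = x := by
        intro x; rw [hL', Submodule.mem_span_pair]
      have hmemH : ∀ x, x ∈ H ↔ ∃ a b c d : F, a • v + b • T v + (c • u + d • T u) = x := by
        intro x
        rw [hH, Submodule.mem_sup]
        constructor
        · rintro ⟨y, hy, z, hz, rfl⟩
          obtain ⟨a', b', rfl⟩ := (hmemL y).1 hy
          obtain ⟨c', d', rfl⟩ := (hmemL' z).1 hz
          exact ⟨a', b', c', d', rfl⟩
        · rintro ⟨a', b', c', d', rfl⟩
          exact ⟨_, (hmemL _).2 ⟨a', b', rfl⟩, _, (hmemL' _).2 ⟨c', d', rfl⟩, rfl⟩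
      have hvH : v ∈ H := (hmemH v).2 ⟨1, 0, 0, 0, by simp⟩
      have hTvH : T v ∈ H := (hmemH _).2 ⟨0, 1, 0, 0, by simp⟩
      have huH : u ∈ H := (hmemH u).2 ⟨0, 0, 1, 0, by simp⟩
      have hTuH : T u ∈ H := (hmemH _).2 ⟨0, 0, 0, 1, by simp⟩
      have pv : ∀ a b c d : F, B v (a • v + b • T v + (c • u + d • T u)) = c * α := by
        intro a b c d
        simp only [map_add, map_smul, smul_eq_mul]
        rw [hvv, hvTv, hvu, hvTu]; ring
      have pTv : ∀ a b c d : F, B (T v) (a • v + b • T v + (c • u + d • T u)) = d * α := by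
        intro a b c d
        simp only [map_add, map_smul, smul_eq_mul]
        rw [hTvv, hTvTv, hTvu, hTvTu]; ring
      have pu : ∀ a b c d : F, B u (a • v + b • T v + (c • u + d • T u)) = a * α + c * β := by
        intro a b c d
        simp only [map_add, map_smul, smul_eq_mul]
        rw [huv, huTv, huu, huTu]; ring
      have pTu : ∀ a b c d : F,
          B (T u) (a • v + b • T v + (c • u + d • T u)) = b * α + d * β := by
        intro a b c d
        simp only [map_add, map_smul, smul_eq_mul]
        rw [hTuv, hTuTv, hTuu, hTuTu]; ring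
      have hHK : H ≤ K := by
        intro x hx
        obtain ⟨a', b', c', d', rfl⟩ := (hmemH x).1 hx
        exact K.add_mem (K.add_mem (K.smul_mem _ hvK) (K.smul_mem _ (hKT v hvK)))
          (K.add_mem (K.smul_mem _ huK) (K.smul_mem _ (hKT u huK)))
      have hHT : ∀ h ∈ H, T h ∈ H := by
        intro x hx
        obtain ⟨a', b', c', d', rfl⟩ := (hmemH x).1 hx
        refine (hmemH _).2 ⟨-b', a', -d', c', ?_⟩
        simp only [map_add, map_smul, hTTv, smul_neg, neg_smul]
        abel
      have hHnd : H ⊓ perp B H = ⊥ := by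
        rw [eq_bot_iff]
        rintro x ⟨hxH, hxp⟩
        obtain ⟨a', b', c', d', rfl⟩ := (hmemH x).1 hxH
        have e1 := hxp v hvH
        have e2 := hxp (T v) hTvH
        have e3 := hxp u huH
        have e4 := hxp (T u) hTuH
        rw [pv] at e1
        rw [pTv] at e2
        rw [pu] at e3
        rw [pTu] at e4
        have hc' : c' = 0 := (mul_eq_zero.mp e1).resolve_right hα0
        have hd' : d' = 0 := (mul_eq_zero.mp e2).resolve_right hα0
        rw [hc', zero_mul, add_zero] at e3
        rw [hd', zero_mul, add_zero] at e4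
        have ha' : a' = 0 := (mul_eq_zero.mp e3).resolve_right hα0
        have hb' : b' = 0 := (mul_eq_zero.mp e4).resolve_right hα0
        rw [Submodule.mem_bot, ha', hb', hc', hd']
        simp
      have hcompl := isCompl_perp B H hHnd
      obtain ⟨K', hK'⟩ : ∃ K' : Submodule F V, K' = K ⊓ perp B H := ⟨_, rfl⟩
      have hK'K : K' ≤ K := hK' ▸ inf_le_left
      have hK'p : K' ≤ perp B H := hK' ▸ inf_le_right
      have hdec : ∀ k ∈ K, ∃ h ∈ H, ∃ k' ∈ K', k = h + k' := by
        intro k hk
        have : k ∈ H ⊔ perp B H := by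
          rw [hcompl.sup_eq_top]
          exact Submodule.mem_top
        obtain ⟨h, hh, y, hy, rfl⟩ := Submodule.mem_sup.1 this
        refine ⟨h, hh, y, ?_, rfl⟩
        rw [hK']
        refine ⟨?_, hy⟩
        have : y = (h + y) - h := by abel
        rw [this]
        exact K.sub_mem hk (hHK hh)
      have hK'nd : K' ⊓ perp B K' = ⊥ := by
        rw [eq_bot_iff]
        rintro x ⟨hxK', hxp⟩
        have hx : x ∈ K ⊓ perp B K := by
          refine ⟨hK'K hxK', ?_⟩
          intro k hk
          obtain ⟨h, hh, k', hk', rfl⟩ := hdec k hk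
          rw [map_add, LinearMap.add_apply, hK'p hxK' h hh, hxp k' hk', add_zero]
        rw [hK] at hx
        exact hx
      have hK'T : ∀ k ∈ K', T k ∈ K' := by
        intro y hy
        rw [hK'] at hy ⊢
        refine ⟨hKT y hy.1, ?_⟩
        intro h hh
        rw [hadj, hy.2 (T h) (hHT h hh), neg_zero]
      have hfinH : finrank F H ≤ 4 := by
        rw [hH]
        have h1 : finrank F L ≤ 2 := by rw [hL]; exact hpair v (T v)
        have h1' : finrank F L' ≤ 2 := by rw [hL']; exact hpair u (T u)
        have := Submodule.finrank_add_le_finrank_add_finrank L L'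
        omega
      have hfinK' : finrank F K ≤ finrank F K' + 4 := by
        have h1 : H ⊔ K' = K := by
          apply le_antisymm (sup_le hHK hK'K)
          intro k hk
          obtain ⟨h, hh, k', hk', rfl⟩ := hdec k hk
          exact Submodule.add_mem_sup hh hk'
        have h3 := Submodule.finrank_sup_add_finrank_inf_eq H K'
        rw [h1] at h3
        omega
      obtain ⟨W', hW'K', hW'T, hW'TI, hW'dim⟩ := ih K' hK'T hK'nd (by omega)
      have hLH : L ≤ H := hH ▸ le_sup_left
      have hLT : ∀ l ∈ L, T l ∈ L := by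
        intro x hx
        obtain ⟨a', b', rfl⟩ := (hmemL x).1 hx
        refine (hmemL _).2 ⟨-b', a', ?_⟩
        simp only [map_add, map_smul, hTTv, smul_neg, neg_smul]
        abel
      have hLTI : TI B L := by
        intro x hx y hy
        obtain ⟨a', b', rfl⟩ := (hmemL x).1 hx
        obtain ⟨a'', b'', rfl⟩ := (hmemL y).1 hy
        simp only [map_add, map_smul, LinearMap.add_apply, LinearMap.smul_apply, smul_eq_mul]
        rw [hvv, hvTv, hTvv, hTvTv]; ring
      have hLdim : finrank F L = 2 := by
        rw [hL]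
        have hli : LinearIndependent F ![v, T v] := by
          rw [LinearIndependent.pair_iff]
          intro a' b' hab'
          have e1 : B u (a' • v + b' • T v) = 0 := by rw [hab', map_zero]
          have e2 : B (T u) (a' • v + b' • T v) = 0 := by rw [hab', map_zero]
          rw [map_add, map_smul, map_smul, smul_eq_mul, smul_eq_mul] at e1 e2
          rw [huv, huTv, mul_zero, add_zero] at e1
          rw [hTuv, hTuTv, mul_zero, zero_add] at e2
          exact ⟨(mul_eq_zero.mp e1).resolve_right hα0, (mul_eq_zero.mp e2).resolve_right hα0⟩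
        have h3 := finrank_span_eq_card hli
        have h4 : Set.range ![v, T v] = {v, T v} := by
          ext x
          simp only [Matrix.range_cons, Matrix.range_empty, Set.union_empty, Set.mem_union,
            Set.mem_singleton_iff, Set.mem_insert_iff]
        rw [h4] at h3
        simpa using h3
      refine ⟨W' ⊔ L, sup_le (hW'K'.trans hK'K) (hLH.trans hHK), ?_, ?_, ?_⟩
      · intro w hw
        obtain ⟨w1, hw1, w2, hw2, rfl⟩ := Submodule.mem_sup.1 hw
        rw [map_add]
        exact Submodule.add_mem_sup (hW'T w1 hw1) (hLT w2 hw2)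
      · intro x hx y hy
        obtain ⟨x1, hx1, x2, hx2, rfl⟩ := Submodule.mem_sup.1 hx
        obtain ⟨y1, hy1, y2, hy2, rfl⟩ := Submodule.mem_sup.1 hy
        have h1 : B x2 y1 = 0 := hK'p (hW'K' hy1) x2 (hLH hx2)
        have h2' : B x1 y2 = 0 := by rw [hsym]; exact hK'p (hW'K' hx1) y2 (hLH hy2)
        simp only [map_add, LinearMap.add_apply]
        rw [hW'TI x1 hx1 y1 hy1, h1, h2', hLTI x2 hx2 y2 hy2]
        simp
      · have hdisj : W' ⊓ L = ⊥ := by
          rw [eq_bot_iff]
          rintro x ⟨hxW, hxL⟩
          obtain ⟨a', b', rfl⟩ := (hmemL x).1 hxL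
          have hp' := hK'p (hW'K' hxW)
          have e1 := hp' u huH
          have e2 := hp' (T u) hTuH
          rw [map_add, map_smul, map_smul, smul_eq_mul, smul_eq_mul] at e1 e2
          rw [huv, huTv, mul_zero, add_zero] at e1
          rw [hTuv, hTuTv, mul_zero, zero_add] at e2
          rw [Submodule.mem_bot, (mul_eq_zero.mp e1).resolve_right hα0,
            (mul_eq_zero.mp e2).resolve_right hα0]
          simp
        have h3 := Submodule.finrank_sup_add_finrank_inf_eq W' L
        rw [hdisj, finrank_bot, hLdim, hW'dim] at h3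
        omega
  have htop : (⊤ : Submodule F V) ⊓ perp B ⊤ = ⊥ := by
    rw [eq_bot_iff]
    intro y hy
    have hy2 : y ∈ perp B ⊤ := hy.2
    apply hnd y
    intro z
    rw [hsym]
    exact hy2 z Submodule.mem_top
  obtain ⟨W, -, hWT, hWTI, hWdim⟩ := claim j ⊤ (fun k _ => Submodule.mem_top) htop
    (by rw [finrank_top]; exact hj)
  refine ⟨W, ?_, hWTI, hWdim⟩
  rw [Module.End.mem_invtSubmodule]
  intro w hw
  exact hWT w hw

example : (@jTs.{u, v} : Cfsg.Agent.H14.Ot.StOWitt.{u, v} → Cfsg.Agent.H86.Ev2.StJTs.{u, v}) =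
    @jTs.{u, v} := rfl

end Cfsg.Agent.H75.Ev2
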