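import Mathlib
import Cfsg.Agent.H45.D4Defs
import Cfsg.Agent.H49.AutEich
import Cfsg.Agent.H4.MGen

set_option autoImplicit false
set_option linter.unusedSectionVars false

/-! S1082 piece P-GENP (helper75 for helper45): every Siegel element of the hyperbolic form in
dimension 8 lies in any subgroup containing the two unipotent radicals `upMat S`, `lowMat S`.
Adapted from helper4's `Cfsg.Agent.H4.M.gen` (no anisotropic block). -/

namespace Cfsg.Agent.H75.D4

open Matrix Cfsg.Agent.H49 Cfsg.Agent.H45.D4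

variable {F : Type*} [Field F]

theorem el_add (x y x' y' : Fin 4 → F) :
    (Sum.elim x y : I8 → F) + Sum.elim x' y' = Sum.elim (x + x') (y + y') := by
  funext i
  rcases i with i | i <;> rfl

theorem el_sub (x y x' y' : Fin 4 → F) :
    (Sum.elim x y : I8 → F) - Sum.elim x' y' = Sum.elim (x - x') (y - y') := by
  funext i
  rcases i with i | i <;> rfl

theorem el_smul (c : F) (x y : Fin 4 → F) :
    c • (Sum.elim x y : I8 → F) = Sum.elim (c • x) (c • y) := by
  funext i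
  rcases i with i | i <;> rfl

theorem el_zero : (Sum.elim (0 : Fin 4 → F) 0 : I8 → F) = 0 := by
  funext i
  rcases i with i | i <;> rfl

theorem el_eta (v : I8 → F) : ∃ x y : Fin 4 → F, v = Sum.elim x y :=
  ⟨fun i => v (Sum.inl i), fun i => v (Sum.inr i), by
    funext i
    rcases i with i | i <;> rfl⟩

theorem el_congr {x x' y y' : Fin 4 → F} (hx : x = x') (hy : y = y') :
    (Sum.elim x y : I8 → F) = Sum.elim x' y' := by
  rw [hx, hy]

theorem QP_el (x y : Fin 4 → F) : QP 4 F (Sum.elim x y) = x ⬝ᵥ y := rfl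

theorem polar_el (x y x' y' : Fin 4 → F) :
    QuadraticMap.polar (⇑(QP 4 F)) (Sum.elim x y) (Sum.elim x' y') = x ⬝ᵥ y' + x' ⬝ᵥ y := by
  rw [polar_QP]
  simp only [Sum.elim_inl, Sum.elim_inr, dotProduct, Finset.sum_add_distrib]

theorem QP_elX (p : Fin 4 → F) : QP 4 F (Sum.elim p 0) = 0 := by
  rw [QP_el, dotProduct_zero]

theorem QP_elY (p : Fin 4 → F) : QP 4 F (Sum.elim 0 p) = 0 := by
  rw [QP_el, zero_dotProduct]

theorem polar_elX (p s : Fin 4 → F) :
    QuadraticMap.polar (⇑(QP 4 F)) (Sum.elim p 0) (Sum.elim s 0) = 0 := by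
  rw [polar_el, dotProduct_zero, dotProduct_zero, add_zero]

theorem polar_elY (p s : Fin 4 → F) :
    QuadraticMap.polar (⇑(QP 4 F)) (Sum.elim 0 p) (Sum.elim 0 s) = 0 := by
  rw [polar_el, zero_dotProduct, zero_dotProduct, add_zero]

/-- The upper Eichler element. -/
def eU (p s : Fin 4 → F) : O8 F :=
  eichG (QP 4 F) (Sum.elim p 0) (Sum.elim s 0) (QP_elX p) (polar_elX p s)

/-- The lower Eichler element. -/
def eL (p s : Fin 4 → F) : O8 F :=
  eichG (QP 4 F) (Sum.elim 0 p) (Sum.elim 0 s) (QP_elY p) (polar_elY p s)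

theorem act_eU (p s X Y : Fin 4 → F) :
    act (eU p s) (Sum.elim X Y) = Sum.elim (X + (p ⬝ᵥ Y) • s - (s ⬝ᵥ Y) • p) Y := by
  unfold eU
  rw [act_eichG, polar_el, polar_el, QP_elX, el_smul, el_smul, el_smul, el_add, el_sub, el_sub]
  apply el_congr
  · simp
  · simp

theorem act_eL (p s X Y : Fin 4 → F) :
    act (eL p s) (Sum.elim X Y) = Sum.elim X (Y + (p ⬝ᵥ X) • s - (s ⬝ᵥ X) • p) := by
  unfold eL
  rw [act_eichG, polar_el, polar_el, QP_elY, el_smul, el_smul, el_smul, el_add, el_sub, el_sub]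
  apply el_congr
  · simp
  · simp [dotProduct_comm X p, dotProduct_comm X s]

theorem mat_eq_of_act {g : O8 F} {M : Matrix I8 I8 F}
    (h : ∀ X Y : Fin 4 → F, act g (Sum.elim X Y) = M *ᵥ Sum.elim X Y) : mat g = M := by
  apply Matrix.toLin'.injective
  apply LinearMap.ext
  intro v
  obtain ⟨X, Y, rfl⟩ := el_eta v
  rw [Matrix.toLin'_apply, Matrix.toLin'_apply]
  exact h X Y

theorem mat_eU (p s : Fin 4 → F) : mat (eU p s) = upMat (vecMulVec s p - vecMulVec p s) := by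
  apply mat_eq_of_act
  intro X Y
  rw [act_eU, upMat, Matrix.fromBlocks_mulVec, Sum.elim_comp_inl, Sum.elim_comp_inr]
  apply el_congr
  · rw [Matrix.one_mulVec, Matrix.sub_mulVec, vecMulVec_mulVec, vecMulVec_mulVec]
    simp only [op_smul_eq_smul]
    funext i
    simp only [Pi.add_apply, Pi.sub_apply, Pi.smul_apply, smul_eq_mul]
    ring
  · rw [Matrix.zero_mulVec, Matrix.one_mulVec, zero_add]

theorem mat_eL (p s : Fin 4 → F) : mat (eL p s) = lowMat (vecMulVec s p - vecMulVec p s) := by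
  apply mat_eq_of_act
  intro X Y
  rw [act_eL, lowMat, Matrix.fromBlocks_mulVec, Sum.elim_comp_inl, Sum.elim_comp_inr]
  apply el_congr
  · rw [Matrix.zero_mulVec, Matrix.one_mulVec, add_zero]
  · rw [Matrix.one_mulVec, Matrix.sub_mulVec, vecMulVec_mulVec, vecMulVec_mulVec]
    simp only [op_smul_eq_smul]
    funext i
    simp only [Pi.add_apply, Pi.sub_apply, Pi.smul_apply, smul_eq_mul]
    ring

section steps

variable (K : Subgroup (O8 F))

/-- Step A, case `x ≠ 0`. -/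
theorem stepA_x
    (hL : ∀ (g : O8 F) (S : Matrix (Fin 4) (Fin 4) F), mat g = lowMat S → g ∈ K)
    (x y : Fin 4 → F) (hx : x ≠ 0) (hu : QP 4 F (Sum.elim x y) = 0) :
    ∃ h ∈ K, act h (Sum.elim x y) = Sum.elim x 0 := by
  obtain ⟨q, hq⟩ := Cfsg.Agent.H4.M.exists_dot_one hx
  rw [QP_el] at hu
  refine ⟨eL q (-y), hL _ _ (mat_eL q (-y)), ?_⟩
  rw [act_eL]
  apply el_congr rfl
  rw [hq, neg_dotProduct, dotProduct_comm y x, hu]
  simp

/-- Step A. -/
theorem stepA
    (hU : ∀ (g : O8 F) (S : Matrix (Fin 4) (Fin 4) F), mat g = upMat S → g ∈ K)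
    (hL : ∀ (g : O8 F) (S : Matrix (Fin 4) (Fin 4) F), mat g = lowMat S → g ∈ K)
    (u : I8 → F) (hu : QP 4 F u = 0) (hu0 : u ≠ 0) :
    ∃ h ∈ K, ∃ p : Fin 4 → F, p ≠ 0 ∧ act h u = Sum.elim p 0 := by
  obtain ⟨x, y, rfl⟩ := el_eta u
  by_cases hx : x = 0
  · subst hx
    have hy : y ≠ 0 := by
      rintro rfl
      exact hu0 el_zero
    obtain ⟨q, hq⟩ := Cfsg.Agent.H4.M.exists_dot_one hy
    obtain ⟨p, hp, hp0⟩ := Cfsg.Agent.H4.M.exists_perp (by norm_num : 2 ≤ 4) hy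
    have e1 : act (eU q p) (Sum.elim (0 : Fin 4 → F) y) = Sum.elim p y := by
      rw [act_eU]
      apply el_congr _ rfl
      rw [hq, hp]
      simp
    have hs : QP 4 F (Sum.elim p y) = 0 := by
      rw [← e1, Q_act]
      exact hu
    obtain ⟨h₂, h₂K, h₂a⟩ := stepA_x K hL p y hp0 hs
    refine ⟨h₂ * eU q p, K.mul_mem h₂K (hU _ _ (mat_eU q p)), p, hp0, ?_⟩
    rw [act_mul, e1, h₂a]
  · obtain ⟨h, hK, ha⟩ := stepA_x K hL x y hx hu
    exact ⟨h, hK, x, hx, ha⟩

/-- Step B. -/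
theorem stepB
    (hU : ∀ (g : O8 F) (S : Matrix (Fin 4) (Fin 4) F), mat g = upMat S → g ∈ K)
    (hL : ∀ (g : O8 F) (S : Matrix (Fin 4) (Fin 4) F), mat g = lowMat S → g ∈ K)
    (p : Fin 4 → F) (hp : p ≠ 0) (v : I8 → F) (hv : QP 4 F v = 0)
    (hpv : QuadraticMap.polar (⇑(QP 4 F)) (Sum.elim p 0) v = 0) :
    ∃ h ∈ K, act h (Sum.elim p 0) = Sum.elim p 0 ∧ ∃ p' : Fin 4 → F, act h v = Sum.elim p' 0 := by
  obtain ⟨x, y, rfl⟩ := el_eta v
  rw [polar_el, dotProduct_zero, add_zero] at hpv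
  by_cases hy : y = 0
  · subst hy
    exact ⟨1, K.one_mem, act_one _, x, act_one _⟩
  · obtain ⟨q, hq⟩ := Cfsg.Agent.H4.M.exists_dot_one hy
    have hs : x ⬝ᵥ y = 0 := by
      rw [← QP_el]
      exact hv
    -- kill x
    have e2 : act (eU q (-x)) (Sum.elim x y) = Sum.elim (0 : Fin 4 → F) y := by
      rw [act_eU]
      apply el_congr _ rfl
      rw [hq, neg_dotProduct, hs]
      simp
    have f2 : act (eU q (-x)) (Sum.elim p 0) = Sum.elim p 0 := by
      rw [act_eU]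
      apply el_congr _ rfl
      simp
    -- move to (p₁, y)
    obtain ⟨p₁, q', hp₁, hq'p, hq'a⟩ :=
      Cfsg.Agent.H4.M.exists_perp_pair (by norm_num : 3 ≤ 4) hp hy hpv
    have e3 : act (eU q p₁) (Sum.elim (0 : Fin 4 → F) y) = Sum.elim p₁ y := by
      rw [act_eU]
      apply el_congr _ rfl
      rw [hq, hp₁]
      simp
    have f3 : act (eU q p₁) (Sum.elim p 0) = Sum.elim p 0 := by
      rw [act_eU]
      apply el_congr _ rfl
      simp
    -- kill y
    have e4 : act (eL q' (-y)) (Sum.elim p₁ y) = Sum.elim p₁ 0 := by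
      rw [act_eL]
      apply el_congr rfl
      rw [hq'p, neg_dotProduct, dotProduct_comm y p₁, hp₁]
      simp
    have f4 : act (eL q' (-y)) (Sum.elim p 0) = Sum.elim p 0 := by
      rw [act_eL]
      apply el_congr rfl
      rw [hq'a, neg_dotProduct, dotProduct_comm y p, hpv]
      simp
    refine ⟨eL q' (-y) * (eU q p₁ * eU q (-x)),
      K.mul_mem (hL _ _ (mat_eL _ _)) (K.mul_mem (hU _ _ (mat_eU _ _)) (hU _ _ (mat_eU _ _))),
      ?_, p₁, ?_⟩
    · rw [act_mul, act_mul, f2, f3, f4]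
    · rw [act_mul, act_mul, e2, e3, e4]

end steps

/-- **P-GENP.** -/
theorem siegel_le_of_up_low (K : Subgroup (O8 F))
    (hU : ∀ (g : O8 F) (S : Matrix (Fin 4) (Fin 4) F), mat g = upMat S → g ∈ K)
    (hL : ∀ (g : O8 F) (S : Matrix (Fin 4) (Fin 4) F), mat g = lowMat S → g ∈ K) :
    ∀ g ∈ siegelSet (QP 4 F), g ∈ K := by
  rintro g ⟨u, v, hu, hv, huv, c, rfl⟩
  by_cases hu0 : u = 0
  · rw [siegelG_eq_one _ u v hu hv huv c (Or.inl hu0)]
    exact K.one_mem
  · obtain ⟨h₁, h₁K, p, hp, h₁u⟩ := stepA K hU hL u hu hu0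
    have hv₁ : QP 4 F (act h₁ v) = 0 := by rw [Q_act]; exact hv
    have huv₁ : QuadraticMap.polar (⇑(QP 4 F)) (Sum.elim p 0) (act h₁ v) = 0 := by
      rw [← h₁u, polar_act]
      exact huv
    obtain ⟨h₂, h₂K, h₂u, p', h₂v⟩ := stepB K hU hL p hp _ hv₁ huv₁
    have hhK : h₂ * h₁ ∈ K := K.mul_mem h₂K h₁K
    have e_u : act (h₂ * h₁) u = Sum.elim p 0 := by rw [act_mul, h₁u, h₂u]
    have e_v : act (h₂ * h₁) v = Sum.elim p' 0 := by rw [act_mul, h₂v]
    have hconj := conj_siegelG (QP 4 F) (h₂ * h₁) u v hu hv huv c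
    have hmem : (h₂ * h₁) * siegelG (QP 4 F) u v hu hv huv c * (h₂ * h₁)⁻¹ ∈ K := by
      rw [hconj, siegelG_eq_eichG]
      have e : eichG (QP 4 F) (act (h₂ * h₁) u) (c • act (h₂ * h₁) v)
          (by rw [Q_act, hu])
          (by rw [QuadraticMap.polar_smul_right, polar_act, huv, smul_zero])
          = eU p (c • p') := by
        unfold eU
        apply eichG_congr _ _ _ _ _ _ _ _ _ e_u
        rw [e_v, el_smul]
        simp
      rw [e]
      exact hU _ _ (mat_eU _ _)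
    have e2 : siegelG (QP 4 F) u v hu hv huv c
        = (h₂ * h₁)⁻¹ * ((h₂ * h₁) * siegelG (QP 4 F) u v hu hv huv c * (h₂ * h₁)⁻¹)
          * (h₂ * h₁) := by group
    rw [e2]
    exact K.mul_mem (K.mul_mem (K.inv_mem hhK) hmem) hhK

end Cfsg.Agent.H75.D4
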