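import Mathlib
import Cfsg.Agent.H45.D4Defs
import Cfsg.Agent.H49.OmegaGen
import Cfsg.Agent.H49.SimpleForms

set_option autoImplicit false

/-! S1082 piece P-ROOT (helper75 for helper45): the root elements `gmat F r t` are Siegel
elements of the hyperbolic form, hence lie in the commutator subgroup of `O₈⁺(F)`. -/

namespace Cfsg.Agent.H75.D4

open Matrix Cfsg.Agent.H49 Cfsg.Agent.H45.D4

variable {F : Type*} [Field F]

/-- The basis index at position `n`. -/
def ofPos (n : ℕ) : I8 :=
  if h : n < 4 then Sum.inl ⟨n, h⟩ else Sum.inr ⟨(n - 4) % 4, Nat.mod_lt _ (by norm_num)⟩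

theorem pos_ofPos {n : ℕ} (hn : n < 8) : pos (ofPos n) = n := by
  unfold ofPos
  split_ifs with h
  · rfl
  · show 4 + (n - 4) % 4 = n
    omega

theorem pos_inj {k l : I8} (h : pos k = pos l) : k = l := by
  rcases k with k | k <;> rcases l with l | l <;> simp only [pos] at h
  · exact congrArg Sum.inl (Fin.ext h)
  · exfalso; have := k.2; omega
  · exfalso; have := l.2; omega
  · exact congrArg Sum.inr (Fin.ext (by omega))

theorem pos_swap (k : I8) : pos (Sum.swap k) = par (pos k) := by
  rcases k with k | k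
  · have hk := k.2
    show 4 + k.val = par k.val
    unfold par
    rw [if_pos hk]; omega
  · have hk := k.2
    show k.val = par (4 + k.val)
    unfold par
    rw [if_neg (by omega)]; omega

theorem pos_eq_iff {k : I8} {n : ℕ} (hn : n < 8) : pos k = n ↔ k = ofPos n := by
  constructor
  · intro h
    apply pos_inj
    rw [pos_ofPos hn, h]
  · rintro rfl
    exact pos_ofPos hn

theorem pos_eq_par_iff {l : I8} {n : ℕ} (hn : n < 8) :
    pos l = par n ↔ l = Sum.swap (ofPos n) := by
  constructor
  · intro h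
    apply pos_inj
    rw [pos_swap, pos_ofPos hn, h]
  · rintro rfl
    rw [pos_swap, pos_ofPos hn]

theorem QP_single (i : I8) : QP 4 F (Pi.single i 1) = 0 := by
  rw [QP_apply]
  apply Finset.sum_eq_zero
  intro k _
  rcases i with i | i
  · have h : (Pi.single (Sum.inl i) (1 : F) : I8 → F) (Sum.inr k) = 0 := by simp
    rw [h, mul_zero]
  · have h : (Pi.single (Sum.inr i) (1 : F) : I8 → F) (Sum.inl k) = 0 := by simp
    rw [h, zero_mul]

theorem polar_single (i : I8) (y : I8 → F) :
    QuadraticMap.polar (⇑(QP 4 F)) (Pi.single i 1) y = y (Sum.swap i) := by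
  rcases i with i | i
  · exact polar_QP_single_inl 4 F i y
  · exact polar_QP_single_inr 4 F i y

theorem tables_ok : ∀ r : Fin 24, (pairTab r).1 < 8 ∧ (pairTab r).2 < 8 ∧
    (pairTab r).1 ≠ (pairTab r).2 ∧ (pairTab r).1 ≠ par (pairTab r).2 := by
  decide

theorem gmat_mulVec (r : Fin 24) (t : F) (x : I8 → F) :
    gmat F r t *ᵥ x = x + (((sgnTab r : ℤ) : F) * t) •
      (x (Sum.swap (ofPos (pairTab r).2)) • Pi.single (ofPos (pairTab r).1) (1 : F)
        - x (Sum.swap (ofPos (pairTab r).1)) • Pi.single (ofPos (pairTab r).2) (1 : F)) := by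
  obtain ⟨ha, hb, -, -⟩ := tables_ok r
  funext k
  simp only [gmat, Matrix.add_mulVec, Matrix.one_mulVec, Matrix.smul_mulVec, Pi.add_apply,
    Pi.smul_apply, Pi.sub_apply, smul_eq_mul, Pi.single_apply]
  congr 1
  have hN : ((Ntab r).map (Int.cast : ℤ → F) *ᵥ x) k
      = (if k = ofPos (pairTab r).1 then ((sgnTab r : ℤ) : F) * x (Sum.swap (ofPos (pairTab r).2))
          else 0)
        - (if k = ofPos (pairTab r).2 then
            ((sgnTab r : ℤ) : F) * x (Sum.swap (ofPos (pairTab r).1)) else 0) := by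
    simp only [Matrix.mulVec, dotProduct, Matrix.map_apply, Ntab, Matrix.of_apply,
      pos_eq_iff ha, pos_eq_iff hb, pos_eq_par_iff ha, pos_eq_par_iff hb, Int.cast_sub,
      sub_mul, Finset.sum_sub_distrib]
    congr 1
    · by_cases hk : k = ofPos (pairTab r).1
      · rw [if_pos hk, Finset.sum_eq_single (Sum.swap (ofPos (pairTab r).2))]
        · rw [if_pos ⟨hk, rfl⟩]
        · intro l _ hl
          rw [if_neg (fun h => hl h.2), Int.cast_zero, zero_mul]
        · intro h; exact absurd (Finset.mem_univ _) h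
      · rw [if_neg hk]
        apply Finset.sum_eq_zero
        intro l _
        rw [if_neg (fun h => hk h.1), Int.cast_zero, zero_mul]
    · by_cases hk : k = ofPos (pairTab r).2
      · rw [if_pos hk, Finset.sum_eq_single (Sum.swap (ofPos (pairTab r).1))]
        · rw [if_pos ⟨hk, rfl⟩]
        · intro l _ hl
          rw [if_neg (fun h => hl h.2), Int.cast_zero, zero_mul]
        · intro h; exact absurd (Finset.mem_univ _) h
      · rw [if_neg hk]
        apply Finset.sum_eq_zero
        intro l _
        rw [if_neg (fun h => hk h.1), Int.cast_zero, zero_mul]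
  rw [hN]
  split_ifs <;> ring

theorem exists_rootElt (r : Fin 24) (t : F) :
    ∃ g : O8 F, mat g = gmat F r t ∧ g ∈ commutator (O8 F) := by
  obtain ⟨ha, hb, hab, hab'⟩ := tables_ok r
  have hu : QP 4 F (Pi.single (ofPos (pairTab r).2) (1 : F)) = 0 := QP_single _
  have hv : QP 4 F (Pi.single (ofPos (pairTab r).1) (1 : F)) = 0 := QP_single _
  have huv : QuadraticMap.polar (⇑(QP 4 F)) (Pi.single (ofPos (pairTab r).2) (1 : F))
      (Pi.single (ofPos (pairTab r).1) (1 : F)) = 0 := by
    rw [polar_single, Pi.single_apply, if_neg]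
    intro h
    apply hab'
    have := congrArg pos h
    rw [pos_swap, pos_ofPos hb, pos_ofPos ha] at this
    exact this.symm
  refine ⟨siegelG (QP 4 F) _ _ hu hv huv (((sgnTab r : ℤ) : F) * t), ?_, ?_⟩
  · apply Matrix.toLin'.injective
    apply LinearMap.ext
    intro x
    rw [Matrix.toLin'_apply, Matrix.toLin'_apply, gmat_mulVec]
    show (((siegelG (QP 4 F) _ _ hu hv huv (((sgnTab r : ℤ) : F) * t) :
        ↥(Cfsg.isometryGroup F (⇑(QP 4 F)))) : Matrix.GeneralLinearGroup I8 F) :
          Matrix I8 I8 F) *ᵥ x = _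
    rw [siegelG_mulVec, polar_single, polar_single]
  · exact closure_siegelSet_le_commutator (QP 4 F) (QP_nondeg 4 F) (hasTS3_QP 4 (by norm_num))
      (Subgroup.subset_closure (siegelG_mem_siegelSet (QP 4 F) _ _ hu hv huv _))

end Cfsg.Agent.H75.D4
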