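import Mathlib
import Cfsg.Agent.H48.SPCDefs
import Cfsg.Agent.H50.FieldAutSpLang

/-!
# helper75: piece SPC-CLASSORB of S2676 (helper48's project)

The class–orbit correspondence for the symplectic group: the `Sp`-classes of the elements similar
to `M` correspond to the orbits of the centraliser of `M` on the nondegenerate alternating
`M`-invariant forms.
-/

set_option autoImplicit false

namespace Cfsg.Agent.H75.SPC

open Matrix Cfsg.Agent.H48.SPC

universe u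

section
variable {F : Type u} [Field F] {m : ℕ}

local notation "ι" => (Fin m ⊕ Fin m)

theorem alt_of_skew (h2 : (2 : F) ≠ 0) (A : Matrix ι ι F) (hA : Aᵀ = -A) (v : ι → F) :
    v ⬝ᵥ A *ᵥ v = 0 := by
  have h1 : v ⬝ᵥ A *ᵥ v = -(v ⬝ᵥ A *ᵥ v) := by
    calc v ⬝ᵥ A *ᵥ v = (v ᵥ* A) ⬝ᵥ v := Matrix.dotProduct_mulVec v A v
      _ = (Aᵀ *ᵥ v) ⬝ᵥ v := by rw [Matrix.mulVec_transpose]
      _ = -((A *ᵥ v) ⬝ᵥ v) := by rw [hA, Matrix.neg_mulVec, neg_dotProduct]
      _ = -(v ⬝ᵥ A *ᵥ v) := by rw [dotProduct_comm]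
  have h3 : (2 : F) * (v ⬝ᵥ A *ᵥ v) = 0 := by linear_combination h1
  exact (mul_eq_zero.mp h3).resolve_left h2

theorem det_J_ne_zero : (Matrix.J (Fin m) F).det ≠ 0 := by
  intro h
  have := Matrix.J_det_mul_J_det (Fin m) F
  rw [h, mul_zero] at this
  exact zero_ne_one this

/-- The chosen data for a nondegenerate alternating matrix: `P, Q` mutually inverse with
`Qᵀ A Q = J` and `Pᵀ J P = A`. -/
theorem exists_PQ (h2 : (2 : F) ≠ 0) (A : Matrix ι ι F) (hA : Aᵀ = -A) (hdet : A.det ≠ 0) :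
    ∃ P Q : Matrix ι ι F, P * Q = 1 ∧ Q * P = 1 ∧ Qᵀ * A * Q = Matrix.J (Fin m) F ∧
      Pᵀ * Matrix.J (Fin m) F * P = A := by
  obtain ⟨L, hL⟩ := Cfsg.Agent.H50.FieldAutSp.exists_alt_basis A (alt_of_skew h2 A hA) hdet
  have hLdet : L.det ≠ 0 := by
    intro h
    have := congrArg Matrix.det hL
    rw [Matrix.det_mul, Matrix.det_mul, h, mul_zero] at this
    exact det_J_ne_zero this.symm
  have hu : IsUnit L.det := isUnit_iff_ne_zero.mpr hLdet
  have h1 : L⁻¹ * L = 1 := Matrix.nonsing_inv_mul L hu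
  have h2' : L * L⁻¹ = 1 := Matrix.mul_nonsing_inv L hu
  refine ⟨L⁻¹, L, h1, h2', hL, ?_⟩
  rw [← hL]
  calc (L⁻¹)ᵀ * (Lᵀ * A * L) * L⁻¹ = (L * L⁻¹)ᵀ * A * (L * L⁻¹) := by
        simp only [Matrix.transpose_mul, Matrix.mul_assoc]
    _ = A := by rw [h2', Matrix.transpose_one, Matrix.one_mul, Matrix.mul_one]

theorem sp_of {P Q A J c : Matrix ι ι F} (hA : Pᵀ * J * P = A) :
    (P * c * Q)ᵀ * J * (P * c * Q) = Qᵀ * (cᵀ * A * c) * Q := by
  subst hA
  simp only [Matrix.transpose_mul, Matrix.mul_assoc]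

theorem det_ne_zero_of_mul_eq_one {P Q : Matrix ι ι F} (h : P * Q = 1) : P.det ≠ 0 := by
  intro h0
  have := congrArg Matrix.det h
  rw [Matrix.det_mul, h0, zero_mul, Matrix.det_one] at this
  exact zero_ne_one this

theorem det_ne_zero_of_mul_eq_one' {P Q : Matrix ι ι F} (h : P * Q = 1) : Q.det ≠ 0 := by
  intro h0
  have := congrArg Matrix.det h
  rw [Matrix.det_mul, h0, mul_zero, Matrix.det_one] at this
  exact zero_ne_one this

theorem sp_det_ne_zero (y : ↥(Matrix.symplecticGroup (Fin m) F)) :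
    (y : Matrix ι ι F).det ≠ 0 :=
  (SymplecticGroup.symplectic_det y.2).ne_zero

theorem conj_of_semiconj {x a b : ↥(Matrix.symplecticGroup (Fin m) F)}
    (h : (x : Matrix ι ι F) * (a : Matrix ι ι F) = (b : Matrix ι ι F) * (x : Matrix ι ι F)) :
    ConjClasses.mk a = ConjClasses.mk b := by
  rw [ConjClasses.mk_eq_mk_iff_isConj, isConj_iff]
  refine ⟨x, ?_⟩
  rw [mul_inv_eq_iff_eq_mul]
  exact Subtype.ext h

theorem semiconj_of_conj {a b : ↥(Matrix.symplecticGroup (Fin m) F)}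
    (h : ConjClasses.mk a = ConjClasses.mk b) :
    ∃ x : ↥(Matrix.symplecticGroup (Fin m) F),
      (x : Matrix ι ι F) * (a : Matrix ι ι F) = (b : Matrix ι ι F) * (x : Matrix ι ι F) := by
  rw [ConjClasses.mk_eq_mk_iff_isConj, isConj_iff] at h
  obtain ⟨x, hx⟩ := h
  rw [mul_inv_eq_iff_eq_mul] at hx
  exact ⟨x, congrArg Subtype.val hx⟩

end

theorem classOrb : ClassOrbStmt.{u} := by
  intro F _ h2 m M
  classical
  -- chosen data
  have hex : ∀ A : {A : Matrix (Fin m ⊕ Fin m) (Fin m ⊕ Fin m) F //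
      A.transpose = -A ∧ A.det ≠ 0 ∧ M.transpose * A * M = A},
      ∃ PQ : Matrix (Fin m ⊕ Fin m) (Fin m ⊕ Fin m) F × Matrix (Fin m ⊕ Fin m) (Fin m ⊕ Fin m) F,
        PQ.1 * PQ.2 = 1 ∧ PQ.2 * PQ.1 = 1 ∧ PQ.2ᵀ * A.1 * PQ.2 = Matrix.J (Fin m) F ∧
          PQ.1ᵀ * Matrix.J (Fin m) F * PQ.1 = A.1 := by
    intro A
    obtain ⟨P, Q, h⟩ := exists_PQ h2 A.1 A.2.1 A.2.2.1
    exact ⟨(P, Q), h⟩
  choose PQ hPQ hQP hQA hPJ using hex
  have hg : ∀ A, (PQ A).1 * M * (PQ A).2 ∈ Matrix.symplecticGroup (Fin m) F := by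
    intro A
    rw [SymplecticGroup.mem_iff', sp_of (hPJ A), A.2.2.2, hQA A]
  -- cancellation helpers
  have cQP : ∀ A (X : Matrix (Fin m ⊕ Fin m) (Fin m ⊕ Fin m) F),
      (PQ A).2 * ((PQ A).1 * X) = X := by
    intro A X
    rw [← Matrix.mul_assoc, hQP A, Matrix.one_mul]
  have cPQ : ∀ A (X : Matrix (Fin m ⊕ Fin m) (Fin m ⊕ Fin m) F),
      (PQ A).1 * ((PQ A).2 * X) = X := by
    intro A X
    rw [← Matrix.mul_assoc, hPQ A, Matrix.one_mul]
  refine ⟨fun A => ConjClasses.mk ⟨(PQ A).1 * M * (PQ A).2, hg A⟩, ?_, ?_⟩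
  · intro A A'
    constructor
    · intro h
      obtain ⟨y, hy⟩ := semiconj_of_conj h.symm
      -- hy : y * g_{A'} = g_A * y
      have hy' : (y : Matrix (Fin m ⊕ Fin m) (Fin m ⊕ Fin m) F) * ((PQ A').1 * M * (PQ A').2)
          = (PQ A).1 * M * (PQ A).2 * (y : Matrix (Fin m ⊕ Fin m) (Fin m ⊕ Fin m) F) := hy
      have hysp : (y : Matrix (Fin m ⊕ Fin m) (Fin m ⊕ Fin m) F)ᵀ * Matrix.J (Fin m) F
          * (y : Matrix (Fin m ⊕ Fin m) (Fin m ⊕ Fin m) F) = Matrix.J (Fin m) F :=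
        SymplecticGroup.mem_iff'.mp y.2
      refine ⟨(PQ A).2 * (y : Matrix (Fin m ⊕ Fin m) (Fin m ⊕ Fin m) F) * (PQ A').1, ?_, ?_, ?_⟩
      · rw [Matrix.det_mul, Matrix.det_mul]
        exact mul_ne_zero (mul_ne_zero (det_ne_zero_of_mul_eq_one' (hPQ A)) (sp_det_ne_zero y))
          (det_ne_zero_of_mul_eq_one (hPQ A'))
      · -- c M = M c
        have e1 : (PQ A).2 * (y : Matrix (Fin m ⊕ Fin m) (Fin m ⊕ Fin m) F) * (PQ A').1 * M
            = (PQ A).2 * ((y : Matrix (Fin m ⊕ Fin m) (Fin m ⊕ Fin m) F)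
                * ((PQ A').1 * M * (PQ A').2)) * (PQ A').1 := by
          simp only [Matrix.mul_assoc, hQP A', Matrix.mul_one]
        rw [e1, hy']
        simp only [Matrix.mul_assoc, cQP A]
      · -- cᵀ A c = A'
        calc ((PQ A).2 * (y : Matrix (Fin m ⊕ Fin m) (Fin m ⊕ Fin m) F) * (PQ A').1)ᵀ * A.1
              * ((PQ A).2 * (y : Matrix (Fin m ⊕ Fin m) (Fin m ⊕ Fin m) F) * (PQ A').1)
            = (PQ A').1ᵀ * ((y : Matrix (Fin m ⊕ Fin m) (Fin m ⊕ Fin m) F)ᵀ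
                * ((PQ A).2ᵀ * A.1 * (PQ A).2)
                * (y : Matrix (Fin m ⊕ Fin m) (Fin m ⊕ Fin m) F)) * (PQ A').1 := by
              simp only [Matrix.transpose_mul, Matrix.mul_assoc]
          _ = A'.1 := by rw [hQA A, hysp, hPJ A']
    · rintro ⟨c, hc, hcM, hcA⟩
      have hx : (PQ A).1 * c * (PQ A').2 ∈ Matrix.symplecticGroup (Fin m) F := by
        rw [SymplecticGroup.mem_iff', sp_of (hPJ A), hcA, hQA A']
      refine (conj_of_semiconj (x := ⟨_, hx⟩) ?_).symm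
      show (PQ A).1 * c * (PQ A').2 * ((PQ A').1 * M * (PQ A').2)
        = (PQ A).1 * M * (PQ A).2 * ((PQ A).1 * c * (PQ A').2)
      simp only [Matrix.mul_assoc, cQP A, cQP A']
      rw [← Matrix.mul_assoc c M, hcM, Matrix.mul_assoc]
  · intro C
    constructor
    · rintro ⟨A, rfl⟩
      refine ⟨⟨(PQ A).1 * M * (PQ A).2, hg A⟩, rfl, (PQ A).1, det_ne_zero_of_mul_eq_one (hPQ A), ?_⟩
      show (PQ A).1 * M = (PQ A).1 * M * (PQ A).2 * (PQ A).1
      rw [Matrix.mul_assoc, hQP A, Matrix.mul_one]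
    · rintro ⟨g, rfl, P, hP, hPM⟩
      have hgsp : (g : Matrix (Fin m ⊕ Fin m) (Fin m ⊕ Fin m) F)ᵀ * Matrix.J (Fin m) F
          * (g : Matrix (Fin m ⊕ Fin m) (Fin m ⊕ Fin m) F) = Matrix.J (Fin m) F :=
        SymplecticGroup.mem_iff'.mp g.2
      have hA1 : (Pᵀ * Matrix.J (Fin m) F * P)ᵀ = -(Pᵀ * Matrix.J (Fin m) F * P) := by
        simp only [Matrix.transpose_mul, Matrix.transpose_transpose, Matrix.J_transpose,
          Matrix.mul_neg, Matrix.neg_mul, Matrix.mul_assoc]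
      have hA2 : (Pᵀ * Matrix.J (Fin m) F * P).det ≠ 0 := by
        rw [Matrix.det_mul, Matrix.det_mul, Matrix.det_transpose]
        exact mul_ne_zero (mul_ne_zero hP det_J_ne_zero) hP
      have hA3 : Mᵀ * (Pᵀ * Matrix.J (Fin m) F * P) * M = Pᵀ * Matrix.J (Fin m) F * P := by
        calc Mᵀ * (Pᵀ * Matrix.J (Fin m) F * P) * M
            = (P * M)ᵀ * Matrix.J (Fin m) F * (P * M) := by
              simp only [Matrix.transpose_mul, Matrix.mul_assoc]
          _ = Pᵀ * ((g : Matrix (Fin m ⊕ Fin m) (Fin m ⊕ Fin m) F)ᵀ * Matrix.J (Fin m) F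
                * (g : Matrix (Fin m ⊕ Fin m) (Fin m ⊕ Fin m) F)) * P := by
              rw [hPM]
              simp only [Matrix.transpose_mul, Matrix.mul_assoc]
          _ = Pᵀ * Matrix.J (Fin m) F * P := by rw [hgsp]
      refine ⟨⟨Pᵀ * Matrix.J (Fin m) F * P, hA1, hA2, hA3⟩, ?_⟩
      set A' : {A : Matrix (Fin m ⊕ Fin m) (Fin m ⊕ Fin m) F //
          A.transpose = -A ∧ A.det ≠ 0 ∧ M.transpose * A * M = A} :=
        ⟨Pᵀ * Matrix.J (Fin m) F * P, hA1, hA2, hA3⟩ with hA'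
      have hx : P * (PQ A').2 ∈ Matrix.symplecticGroup (Fin m) F := by
        rw [SymplecticGroup.mem_iff']
        calc (P * (PQ A').2)ᵀ * Matrix.J (Fin m) F * (P * (PQ A').2)
            = (PQ A').2ᵀ * (Pᵀ * Matrix.J (Fin m) F * P) * (PQ A').2 := by
              simp only [Matrix.transpose_mul, Matrix.mul_assoc]
          _ = Matrix.J (Fin m) F := hQA A'
      refine conj_of_semiconj (x := ⟨_, hx⟩) ?_
      show P * (PQ A').2 * ((PQ A').1 * M * (PQ A').2)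
        = (g : Matrix (Fin m ⊕ Fin m) (Fin m ⊕ Fin m) F) * (P * (PQ A').2)
      simp only [Matrix.mul_assoc, cQP A']
      rw [← Matrix.mul_assoc P M, hPM, Matrix.mul_assoc]

example : Cfsg.Agent.H48.SPC.ClassOrbStmt.{u} := classOrb

end Cfsg.Agent.H75.SPC
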