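import Mathlib
import Cfsg.Agent.H58.FzBasic

/-!
# Piece S4306-S1AB: the abelian case `C_S(y) ≤ C_S(R)`, `R` abelian, `C_R(y) ≠ 1` is impossible
-/

set_option autoImplicit false
set_option linter.style.haveILetI false
set_option linter.unusedVariables false
set_option linter.unusedSectionVars false

namespace Cfsg.Agent.H75.Fz

open Cfsg.Agent.H58.Fz Cfsg.Agent.H58.FrobAct Cfsg.Agent.H58.FrobQuot Cfsg.Agent.H58.FrobWielandt
open Cfsg.Agent.H58.Ward
open scoped commutatorElement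

universe u

variable {X : Type u} [Group X]

/-- A subgroup between `K` and `R`, `|R : K| = r` prime, different from `R`, is `K`. -/
theorem eq_of_le_of_index_prime [Finite X] {K M R : Subgroup X} {r : ℕ} (hr : r.Prime)
    (hKM : K ≤ M) (hMR : M ≤ R) (hcard : Nat.card R = r * Nat.card K) (hne : M ≠ R) : M = K := by
  obtain ⟨j, hj⟩ := Subgroup.card_dvd_of_le hKM
  obtain ⟨i, hi⟩ := Subgroup.card_dvd_of_le hMR
  have hK0 : 0 < Nat.card K := Nat.card_pos
  have h1 : j * i = r := by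
    have h2 : Nat.card K * (j * i) = Nat.card K * r := by
      rw [← mul_assoc, ← hj, ← hi, hcard, mul_comm]
    exact Nat.eq_of_mul_eq_mul_left hK0 h2
  have h2 : j ∣ r := ⟨i, h1.symm⟩
  rcases (Nat.dvd_prime hr).mp h2 with h3 | h3
  · symm
    apply Subgroup.eq_of_le_of_card_ge hKM
    rw [hj, h3, mul_one]
  · exfalso
    apply hne
    apply Subgroup.eq_of_le_of_card_ge hMR
    rw [hcard, hj, h3, mul_comm]

open scoped IsMulCommutative in
/-- The trace argument: `R` abelian with `C_R(S) = 1`; if the `S`-conjugates of `ρ` by elements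
outside `T` lie in `K`, and those by elements of `T` are congruent to `ρ` modulo `K`, with `|T|`
coprime to the order of `ρ`, then `ρ ∈ K`. -/
theorem trace_arg [Finite X] (R K S T : Subgroup X) (r : ℕ)
    (hRc : ∀ a ∈ R, ∀ b ∈ R, a * b = b * a)
    (hSR : S ≤ Subgroup.normalizer (R : Set X)) (hTS : T ≤ S)
    (hD : R ⊓ Subgroup.centralizer (S : Set X) = ⊥)
    (ρ : X) (hρ : ρ ∈ R) (hρr : ρ ^ r = 1) (hcop : (Nat.card T).Coprime r)
    (h1 : ∀ σ ∈ S, σ ∉ T → σ * ρ * σ⁻¹ ∈ K)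
    (h2 : ∀ σ ∈ T, σ * ρ * σ⁻¹ * ρ⁻¹ ∈ K) : ρ ∈ K := by
  classical
  letI : Fintype ↥S := Fintype.ofFinite _
  haveI : IsMulCommutative R := ⟨⟨fun a b => Subtype.ext (hRc a a.2 b b.2)⟩⟩
  obtain ⟨φ, hφ⟩ : ∃ φ : ↥S →* MulAut ↥R, φ = conjAut R S hSR := ⟨_, rfl⟩
  have hφv : ∀ (σ : S) (v : R), ((φ σ v : R) : X) = σ * v * (σ : X)⁻¹ := by
    intro σ v; rw [hφ]; rfl
  obtain ⟨w', hw'⟩ : ∃ w' : R, (w' : X) = ρ := ⟨⟨ρ, hρ⟩, rfl⟩
  obtain ⟨Nw, hNw⟩ : ∃ Nw : R, Nw = ∏ σ : S, φ σ w' := ⟨_, rfl⟩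
  have hfix : ∀ τ : S, φ τ Nw = Nw := by
    intro τ
    rw [hNw, map_prod]
    have h3 : ∀ σ : S, φ τ (φ σ w') = φ (τ * σ) w' := fun σ => by rw [map_mul]; rfl
    simp_rw [h3]
    exact Equiv.prod_comp (Equiv.mulLeft τ) (fun σ => φ σ w')
  have hN2 : (Nw : X) ∈ R ⊓ Subgroup.centralizer (S : Set X) := by
    refine Subgroup.mem_inf.mpr ⟨Nw.2, ?_⟩
    rw [Subgroup.mem_centralizer_iff]
    intro τ hτ
    have h3 := congrArg Subtype.val (hfix ⟨τ, hτ⟩)
    rw [hφv] at h3
    have h4 : τ * (Nw : X) * τ⁻¹ = Nw := h3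
    calc τ * (Nw : X) = τ * (Nw : X) * τ⁻¹ * τ := by group
      _ = Nw * τ := by rw [h4]
  have hN : Nw = 1 := by
    have h3 : (Nw : X) ∈ (⊥ : Subgroup X) := by rw [← hD]; exact hN2
    exact Subtype.ext (Subgroup.mem_bot.mp h3)
  have hdiv : (∏ σ : S, φ σ w') / (∏ σ : S, if (σ : X) ∈ T then w' else 1) ∈ K.subgroupOf R := by
    rw [← Finset.prod_div_distrib]
    apply Subgroup.prod_mem
    intro σ _
    rw [Subgroup.mem_subgroupOf]
    by_cases hσ : (σ : X) ∈ T
    · rw [if_pos hσ, div_eq_mul_inv, Subgroup.coe_mul, Subgroup.coe_inv, hφv, hw']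
      exact h2 σ hσ
    · rw [if_neg hσ, div_one, hφv, hw']
      exact h1 σ σ.2 hσ
  have hcount : (Finset.univ.filter (fun σ : S => (σ : X) ∈ T)).card = Nat.card T := by
    rw [← Nat.card_congr (Subgroup.subgroupOfEquivOfLe hTS).toEquiv, Nat.card_eq_fintype_card]
    exact (Fintype.card_subtype (fun σ : S => (σ : X) ∈ T)).symm
  have hpow : (∏ σ : S, if (σ : X) ∈ T then w' else 1) = w' ^ Nat.card T := by
    rw [Finset.prod_ite, Finset.prod_const, Finset.prod_const_one, mul_one, hcount]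
  rw [← hNw, hN, hpow, one_div, Subgroup.inv_mem_iff, Subgroup.mem_subgroupOf, Subgroup.coe_pow,
    hw'] at hdiv
  have hcop' : (Nat.card T).Coprime (orderOf ρ) :=
    Nat.Coprime.coprime_dvd_right (orderOf_dvd_of_pow_eq_one hρr) hcop
  obtain ⟨m, hm⟩ := exists_pow_eq_self_of_coprime hcop'
  rw [← hm]
  exact K.pow_mem hdiv m

/-- **Piece S4306-S1AB**: with `C_S(y) ≤ C_S(R)` and `R` abelian, `C_R(y) = 1`. -/
theorem step1_ab [Finite X] {p q k v r s : ℕ} {V R S A : Subgroup X} {y x : X}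
    (aq : AQ X) (ex : EX X) (cyc : CYC X) (c : FCfg p q k v r s V R S A y x)
    (h : S ⊓ Subgroup.centralizer {y} ≤ Subgroup.centralizer (R : Set X))
    (hRc : ∀ a ∈ R, ∀ b ∈ R, a * b = b * a)
    (hR0 : R ⊓ Subgroup.centralizer {y} ≠ ⊥) : False := by
  obtain ⟨R₀, hR₀⟩ : ∃ R₀ : Subgroup X, R₀ = R ⊓ Subgroup.centralizer {y} := ⟨_, rfl⟩
  rw [← hR₀] at hR0
  have hR₀R : R₀ ≤ R := hR₀ ▸ inf_le_left
  have hRexp := c.R_exp_of_comm hRc
  have hD := c.D_bot_of_comm hRc
  have hCVR := c.CVR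
  have hyV : y ∈ Subgroup.normalizer (V : Set X) := c.hAV c.hyA
  have hyR : y ∈ Subgroup.normalizer (R : Set X) := c.hAR c.hyA
  have hyS : y ∈ Subgroup.normalizer (S : Set X) := c.hAS c.hyA
  have hyR₀ : y ∈ Subgroup.normalizer (R₀ : Set X) := by
    rw [hR₀]; exact c.hA_inf_cy R c.hAR c.hyA
  have hR₀V : R₀ ≤ Subgroup.normalizer (V : Set X) := hR₀R.trans c.hRV
  have hRR₀ : R ≤ Subgroup.normalizer (R₀ : Set X) :=
    abelian_le_normalizer R R R₀ hRc le_rfl hR₀R
  have hcopR₀V : (Nat.card R₀).Coprime (Nat.card V) := cop_of_le c.copRV hR₀R le_rfl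
  have hR₀solv : Group.IsSolvable R₀ :=
    solvable_of_comm R₀ (fun a ha b hb => hRc a (hR₀R ha) b (hR₀R hb))
  -- the subgroup `U = [V, R₀]`
  obtain ⟨U, hU⟩ : ∃ U : Subgroup X, U = ⁅V, R₀⁆ := ⟨_, rfl⟩
  have hUV : U ≤ V := by
    rw [hU]; exact Cfsg.Agent.H1.commutator_le_of_le_normalizer R₀ V hR₀V
  have hUc : ∀ a ∈ U, ∀ b ∈ U, a * b = b * a := fun a ha b hb => c.hVc a (hUV ha) b (hUV hb)
  have hUne : U ≠ ⊥ := by
    intro hbot
    rw [hU, Subgroup.commutator_eq_bot_iff_le_centralizer] at hbot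
    exact hR0 (c.faith R₀ (hR₀R.trans le_sup_left) (Subgroup.le_centralizer_iff.mp hbot))
  have hyU : y ∈ Subgroup.normalizer (U : Set X) := by
    rw [hU]; exact normalizer_commutator V R₀ y hyV hyR₀
  have hRU : R ≤ Subgroup.normalizer (U : Set X) := by
    intro g hg; rw [hU]; exact normalizer_commutator V R₀ g (c.hRV hg) (hRR₀ hg)
  have hCU : (V ⊓ Subgroup.centralizer (R₀ : Set X)) ⊓ U = ⊥ := by
    rw [hU]; exact centralizer_inf_commutator_eq_bot V R₀ c.hVc hR₀V hcopR₀V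
  have hVy : V ⊓ Subgroup.centralizer {y} ≤ Subgroup.centralizer (R₀ : Set X) := by
    rw [hR₀]; exact c.hVR
  have hfpf : ∀ u ∈ U, y * u = u * y → u = 1 := by
    intro u hu hyu
    have h1 : u ∈ (V ⊓ Subgroup.centralizer (R₀ : Set X)) ⊓ U := by
      refine Subgroup.mem_inf.mpr ⟨Subgroup.mem_inf.mpr
        ⟨hUV hu, hVy (Subgroup.mem_inf.mpr ⟨hUV hu, ?_⟩)⟩, hu⟩
      rw [Subgroup.mem_centralizer_iff]
      intro g hg
      rw [Set.mem_singleton_iff] at hg
      subst hg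
      exact hyu
    rw [hCU] at h1
    exact Subgroup.mem_bot.mp h1
  -- `[y, R]` centralizes `U`
  have hcopRU : (Nat.card R).Coprime (Nat.card U) := cop_of_le c.copRV le_rfl hUV
  have haq := aq R U y q c.hq c.hy hRc hUc hyR hRU hyU c.copqR hcopRU hfpf
  -- the hyperplane `K`
  have hUR : U ⊓ Subgroup.centralizer (R : Set X) = ⊥ := by
    rw [eq_bot_iff, ← hCVR]; exact inf_le_inf_right _ hUV
  obtain ⟨K, hKR, hcard, hW⟩ := ex R U r c.hr hRc hRexp hUc hRU hcopRU hUne hUR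
  -- (★)
  have star : ∀ K' : Subgroup X, K' ≤ R → Nat.card R = r * Nat.card K' →
      V ⊓ Subgroup.centralizer (K' : Set X) ≠ ⊥ →
      R₀ ≤ K' ∨ ∀ a ∈ R, y * a * y⁻¹ * a⁻¹ ∈ K' := by
    intro K' hK'R hcard' hW''
    by_cases hle : R₀ ≤ K'
    · exact Or.inl hle
    right
    obtain ⟨W, hWdef⟩ : ∃ W : Subgroup X, W = V ⊓ Subgroup.centralizer (K' : Set X) := ⟨_, rfl⟩
    rw [← hWdef] at hW''
    have hWV : W ≤ V := hWdef ▸ inf_le_left
    have hWK' : W ≤ Subgroup.centralizer (K' : Set X) := hWdef ▸ inf_le_right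
    have hsup : K' ⊔ R₀ = R := by
      by_contra hne
      have h1 := eq_of_le_of_index_prime c.hr (le_sup_left : K' ≤ K' ⊔ R₀) (sup_le hK'R hR₀R)
        hcard' hne
      apply hle
      rw [← h1]
      exact le_sup_right
    have hWR₀ : W ⊓ Subgroup.centralizer (R₀ : Set X) = ⊥ := by
      rw [eq_bot_iff, ← hCVR]
      refine le_inf (inf_le_left.trans hWV) ?_
      rw [Subgroup.le_centralizer_iff, ← hsup]
      exact sup_le (Subgroup.le_centralizer_iff.mp (inf_le_left.trans hWK'))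
        (Subgroup.le_centralizer_iff.mp inf_le_right)
    have hRK' : R ≤ Subgroup.normalizer (K' : Set X) :=
      abelian_le_normalizer R R K' hRc le_rfl hK'R
    have hR₀W : R₀ ≤ Subgroup.normalizer (W : Set X) := by
      intro g hg
      rw [hWdef]
      exact normalizer_inf_centralizer V K' g (hR₀V hg) (hRK' (hR₀R hg))
    have hcopR₀W : (Nat.card R₀).Coprime (Nat.card W) := cop_of_le c.copRV hR₀R hWV
    have h1 := Cfsg.Agent.H1.coprime_commutator_sup_centralizer R₀ W hR₀W hcopR₀W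
      (Or.inl hR₀solv)
    rw [hWR₀, sup_bot_eq] at h1
    have hWU : W ≤ U := by
      rw [← h1, hU]
      exact Subgroup.commutator_mono hWV le_rfl
    have hM : R ⊓ Subgroup.centralizer (W : Set X) = K' := by
      apply eq_of_le_of_index_prime c.hr (le_inf hK'R (Subgroup.le_centralizer_iff.mp hWK'))
        inf_le_left hcard'
      intro hM
      apply hW''
      rw [eq_bot_iff, ← hCVR]
      exact le_inf hWV (Subgroup.le_centralizer_iff.mp (inf_eq_left.mp hM))
    intro a ha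
    rw [← hM]
    refine Subgroup.mem_inf.mpr
      ⟨?_, Subgroup.centralizer_le (SetLike.coe_subset_coe.mpr hWU) (haq a ha)⟩
    exact R.mul_mem (conj_mem_of_mem_normalizer hyR ha) (R.inv_mem ha)
  -- apply (★) to `K`
  have hVK : V ⊓ Subgroup.centralizer (K : Set X) ≠ ⊥ := by
    intro hbot
    apply hW
    rw [eq_bot_iff, ← hbot]
    exact inf_le_inf_right _ hUV
  have hR₀K : ¬ R₀ ≤ K := by
    intro hle
    apply hW
    rw [eq_bot_iff, ← hCU]
    refine le_inf (le_inf (inf_le_left.trans hUV) ?_) inf_le_left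
    exact inf_le_right.trans (Subgroup.centralizer_le (SetLike.coe_subset_coe.mpr hle))
  have hyRK : ∀ a ∈ R, y * a * y⁻¹ * a⁻¹ ∈ K := by
    rcases star K hKR hcard hVK with h1 | h1
    · exact absurd h1 hR₀K
    · exact h1
  have hyK : y ∈ Subgroup.normalizer (K : Set X) := by
    apply mem_normalizer_of_conj
    intro a ha
    have e : y * a * y⁻¹ = (y * a * y⁻¹ * a⁻¹) * a := by group
    rw [e]
    exact K.mul_mem (hyRK a (hKR ha)) ha
  have hRK : R ≤ Subgroup.normalizer (K : Set X) := abelian_le_normalizer R R K hRc le_rfl hKR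
  -- the subgroup `T = N_S(K)`
  obtain ⟨T, hT⟩ : ∃ T : Subgroup X, T = S ⊓ Subgroup.normalizer (K : Set X) := ⟨_, rfl⟩
  have hTS : T ≤ S := hT ▸ inf_le_left
  have hTK : T ≤ Subgroup.normalizer (K : Set X) := hT ▸ inf_le_right
  have hyT : y ∈ Subgroup.normalizer (T : Set X) := by
    apply mem_normalizer_of_conj
    intro t ht
    rw [hT]
    refine Subgroup.mem_inf.mpr ⟨conj_mem_of_mem_normalizer hyS (hTS ht), ?_⟩
    exact Subgroup.mul_mem _ (Subgroup.mul_mem _ hyK (hTK ht)) (Subgroup.inv_mem _ hyK)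
  have hCSy : ∀ g ∈ S, y * g = g * y → g ∈ Subgroup.centralizer (R : Set X) := by
    intro g hg hyg
    apply h
    refine Subgroup.mem_inf.mpr ⟨hg, ?_⟩
    rw [Subgroup.mem_centralizer_iff]
    intro z hz
    rw [Set.mem_singleton_iff] at hz
    subst hz
    exact hyg
  have hCT : ∀ g ∈ S, y * g = g * y → g ∈ T := by
    intro g hg hyg
    rw [hT]
    refine Subgroup.mem_inf.mpr ⟨hg, mem_normalizer_of_comm K g (fun z hz => ?_)⟩
    exact ((Subgroup.mem_centralizer_iff.mp (hCSy g hg hyg)) z (hKR hz)).symm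
  have hcopyT : (Nat.card (Subgroup.zpowers y)).Coprime (Nat.card T) := by
    rw [Nat.card_zpowers, c.orderOf_y]
    exact (Nat.Coprime.coprime_dvd_left (Subgroup.card_dvd_of_le hTS) c.copqS).symm
  have hTsolv : Group.IsSolvable T := solvable_of_pgroup s c.hs T (c.hS.to_le hTS)
  have hzT : Subgroup.zpowers y ≤ Subgroup.normalizer (T : Set X) := Subgroup.zpowers_le.mpr hyT
  -- elements of `S` outside `T`
  have hout : ∀ τ ∈ S, τ ∉ T → ∀ ρ ∈ R₀, τ⁻¹ * ρ * τ ∈ K := by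
    intro τ hτ hτT ρ hρ
    obtain ⟨K', hK'⟩ : ∃ K' : Subgroup X, K' = K.map (MulAut.conj τ).toMonoidHom := ⟨_, rfl⟩
    have hmem : ∀ b, b ∈ K' ↔ τ⁻¹ * b * τ ∈ K := by
      intro b
      rw [hK', Subgroup.mem_map]
      constructor
      · rintro ⟨z, hz, rfl⟩
        have e : τ⁻¹ * ((MulAut.conj τ).toMonoidHom z) * τ = z := by
          show τ⁻¹ * (τ * z * τ⁻¹) * τ = z
          group
        rw [e]; exact hz
      · intro hb
        refine ⟨τ⁻¹ * b * τ, hb, ?_⟩
        show τ * (τ⁻¹ * b * τ) * τ⁻¹ = b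
        group
    have hτR : τ ∈ Subgroup.normalizer (R : Set X) := c.hSR hτ
    have hτV : τ ∈ Subgroup.normalizer (V : Set X) := c.hSV hτ
    have hK'R : K' ≤ R := by
      intro b hb
      have h1 := conj_mem_of_mem_normalizer hτR (hKR ((hmem b).mp hb))
      have e : τ * (τ⁻¹ * b * τ) * τ⁻¹ = b := by group
      rwa [e] at h1
    have hcard' : Nat.card R = r * Nat.card K' := by
      rw [hcard, hK', Subgroup.card_map_of_injective (MulAut.conj τ).injective]
    have hVK' : V ⊓ Subgroup.centralizer (K' : Set X) ≠ ⊥ := by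
      intro hbot
      apply hVK
      rw [eq_bot_iff]
      intro w hw
      have h1 : τ * w * τ⁻¹ ∈ V ⊓ Subgroup.centralizer (K' : Set X) := by
        refine Subgroup.mem_inf.mpr
          ⟨conj_mem_of_mem_normalizer hτV (Subgroup.mem_inf.mp hw).1, ?_⟩
        rw [Subgroup.mem_centralizer_iff]
        intro b hb
        have h2 := (Subgroup.mem_centralizer_iff.mp (Subgroup.mem_inf.mp hw).2) _
          ((hmem b).mp hb)
        calc b * (τ * w * τ⁻¹) = τ * ((τ⁻¹ * b * τ) * w) * τ⁻¹ := by group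
          _ = τ * (w * (τ⁻¹ * b * τ)) * τ⁻¹ := by rw [h2]
          _ = τ * w * τ⁻¹ * b := by group
      rw [hbot, Subgroup.mem_bot] at h1
      rw [Subgroup.mem_bot]
      have e : w = τ⁻¹ * (τ * w * τ⁻¹) * τ := by group
      rw [e, h1]
      group
    rcases star K' hK'R hcard' hVK' with h1 | h1
    · exact (hmem ρ).mp (h1 hρ)
    · exfalso
      apply hτT
      -- `K'` is `y`-invariant, so `τ⁻¹ y τ` normalizes `K`
      have h2 : τ⁻¹ * y * τ ∈ Subgroup.normalizer (K : Set X) := by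
        apply mem_normalizer_of_conj
        intro z hz
        have hb : τ * z * τ⁻¹ ∈ K' := by
          rw [hmem]
          have e : τ⁻¹ * (τ * z * τ⁻¹) * τ = z := by group
          rw [e]; exact hz
        have h3 : y * (τ * z * τ⁻¹) * y⁻¹ ∈ K' := by
          have e : y * (τ * z * τ⁻¹) * y⁻¹ =
              (y * (τ * z * τ⁻¹) * y⁻¹ * (τ * z * τ⁻¹)⁻¹) * (τ * z * τ⁻¹) := by group
          rw [e]
          exact K'.mul_mem (h1 _ (hK'R hb)) hb
        rw [hmem] at h3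
        have e : τ⁻¹ * y * τ * z * (τ⁻¹ * y * τ)⁻¹ = τ⁻¹ * (y * (τ * z * τ⁻¹) * y⁻¹) * τ := by
          group
        rw [e]; exact h3
      have h0 : τ⁻¹ * y * τ * y⁻¹ ∈ T := by
        rw [hT]
        refine Subgroup.mem_inf.mpr ⟨?_, Subgroup.mul_mem _ h2 (Subgroup.inv_mem _ hyK)⟩
        have e : τ⁻¹ * y * τ * y⁻¹ = τ⁻¹ * (y * τ * y⁻¹) := by group
        rw [e]
        exact S.mul_mem (S.inv_mem hτ) (conj_mem_of_mem_normalizer hyS hτ)
      have hx : ∀ a ∈ Subgroup.zpowers y, τ⁻¹ * a * τ * a⁻¹ ∈ T := by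
        intro a ha
        rw [← mem_powers_iff_mem_zpowers, Submonoid.mem_powers_iff] at ha
        obtain ⟨n, rfl⟩ := ha
        induction n with
        | zero => simp
        | succ n ih =>
          have hn : y ^ n ∈ Subgroup.normalizer (T : Set X) := Subgroup.pow_mem _ hyT n
          obtain ⟨b, hb⟩ : ∃ b, b = y ^ n := ⟨_, rfl⟩
          rw [pow_succ, ← hb]
          rw [← hb] at ih hn
          have e : τ⁻¹ * (b * y) * τ * (b * y)⁻¹ =
              (τ⁻¹ * b * τ * b⁻¹) * (b * (τ⁻¹ * y * τ * y⁻¹) * b⁻¹) := by group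
          rw [e]
          exact T.mul_mem ih (conj_mem_of_mem_normalizer hn h0)
      obtain ⟨d, hd, hc⟩ := Cfsg.Agent.H1.exists_mul_mem_centralizer (Subgroup.zpowers y) T hzT
        hcopyT (Or.inr hTsolv) τ hx
      rw [centralizer_zpowers, Subgroup.mem_centralizer_iff] at hc
      have h4 : τ * d ∈ T := hCT (τ * d) (S.mul_mem hτ (hTS hd)) (hc y rfl)
      have e : τ = (τ * d) * d⁻¹ := by group
      rw [e]
      exact T.mul_mem h4 (T.inv_mem hd)
  -- `T` centralizes `R / K`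
  have hTcom : T ≤ comSub R K := by
    have h1 := Cfsg.Agent.H1.coprime_commutator_sup_centralizer (Subgroup.zpowers y) T hzT
      hcopyT (Or.inr hTsolv)
    rw [← h1]
    apply sup_le
    · rw [Subgroup.commutator_le]
      intro τ hτ a ha
      have haR : a ∈ Subgroup.normalizer (R : Set X) := (Subgroup.zpowers_le.mpr hyR) ha
      have haK : a ∈ Subgroup.normalizer (K : Set X) := (Subgroup.zpowers_le.mpr hyK) ha
      have hτR : τ ∈ Subgroup.normalizer (R : Set X) := c.hSR (hTS hτ)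
      rw [commutatorElement_def]
      refine ⟨?_, fun e he => cyc R K r τ a c.hr hKR hcard hRK hτR (hTK hτ) haR haK e he⟩
      exact Subgroup.mul_mem _ (Subgroup.mul_mem _ (Subgroup.mul_mem _ hτR haR)
        (Subgroup.inv_mem _ hτR)) (Subgroup.inv_mem _ haR)
    · intro g hg
      have hgS : g ∈ S := hTS (Subgroup.mem_inf.mp hg).1
      have hgy : y * g = g * y := by
        have h2 := (Subgroup.mem_inf.mp hg).2
        rw [centralizer_zpowers, Subgroup.mem_centralizer_iff] at h2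
        exact h2 y rfl
      have hgR := Subgroup.mem_centralizer_iff.mp (hCSy g hgS hgy)
      refine ⟨c.hSR hgS, fun e he => ?_⟩
      have e1 : g * e * g⁻¹ * e⁻¹ = 1 := by
        rw [← hgR e he]; group
      rw [e1]; exact K.one_mem
  -- the trace argument
  obtain ⟨ρ₀, hρ₀, hρ₀K⟩ := SetLike.not_le_iff_exists.mp hR₀K
  have hcopT : (Nat.card T).Coprime r := by
    haveI : Fact s.Prime := ⟨c.hs⟩
    obtain ⟨n, hn⟩ := IsPGroup.iff_card.mp c.hS
    have h1 : (Nat.card S).Coprime r := by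
      rw [hn]
      exact Nat.Coprime.pow_left n ((Nat.coprime_primes c.hs c.hr).mpr (Ne.symm c.hrs))
    exact Nat.Coprime.coprime_dvd_left (Subgroup.card_dvd_of_le hTS) h1
  apply hρ₀K
  apply trace_arg R K S T r hRc c.hSR hTS hD ρ₀ (hR₀R hρ₀) (hRexp ρ₀ (hR₀R hρ₀)) hcopT
  · intro σ hσ hσT
    have h1 := hout σ⁻¹ (S.inv_mem hσ) (fun h2 => hσT (by simpa using T.inv_mem h2)) ρ₀ hρ₀
    rwa [inv_inv] at h1
  · intro σ hσ
    exact (hTcom hσ).2 ρ₀ (hR₀R hρ₀)

end Cfsg.Agent.H75.Fz
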