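import Mathlib
import Cfsg.Agent.H90.BG134Defs

/-!
# S1428-ORDCOMM (helper75, for helper90's team project S1428)
-/

set_option autoImplicit false

namespace Cfsg.Agent.H75.BG134

open Cfsg Subgroup Cfsg.Agent.H90.BG134
open scoped Pointwise

universe u

/-- S1428-ORDCOMM. -/
theorem ordComm {G : Type u} [Group G] [Finite G] (hUO : StUniqOrd G) : StOrdComm G := by
  intro H r hr hrk hdvd R hRH hR
  haveI : Fact r.Prime := ⟨hr⟩
  have hH'H : ⁅H, H⁆ ≤ H := by
    rw [Subgroup.commutator_le]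
    intro a ha b hb
    exact H.mul_mem (H.mul_mem (H.mul_mem ha hb) (H.inv_mem ha)) (H.inv_mem hb)
  -- an element of order `r` in `H'`
  obtain ⟨⟨y, hyH'⟩, hyo⟩ := exists_prime_orderOf_dvd_card' r hdvd
  have hyo' : orderOf y = r := by
    rw [← hyo, ← Subgroup.orderOf_coe]
  have hyH : y ∈ H := hH'H hyH'
  -- Sylow subgroups of `↥H`
  have hR' : IsPGroup r (R.subgroupOf H) := by
    apply IsPGroup.of_card (n := 1)
    rw [pow_one, ← hR]
    exact Nat.card_congr (subgroupOfEquivOfLe hRH).toEquiv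
  obtain ⟨P, hP⟩ := hR'.exists_le_sylow
  have hY' : IsPGroup r (zpowers (⟨y, hyH⟩ : H)) := by
    apply IsPGroup.of_card (n := 1)
    rw [pow_one, Nat.card_zpowers, ← hyo', ← Subgroup.orderOf_coe]
  obtain ⟨P2, hP2⟩ := hY'.exists_le_sylow
  obtain ⟨g, hg⟩ := MulAction.exists_smul_eq H P2 P
  -- the conjugate of `y`
  have hy2P : g * ⟨y, hyH⟩ * g⁻¹ ∈ (P : Subgroup H) := by
    have h1 : (⟨y, hyH⟩ : H) ∈ (P2 : Subgroup H) := hP2 (mem_zpowers _)
    have h2 := Subgroup.smul_mem_pointwise_smul _ (MulAut.conj g) _ h1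
    have h3 : ((g • P2 : Sylow r H) : Subgroup H) = MulAut.conj g • (P2 : Subgroup H) :=
      Sylow.pointwise_smul_def
    rw [← h3, hg] at h2
    simpa [MulAut.smul_def, MulAut.conj_apply] using h2
  set S : Subgroup G := (P : Subgroup H).map H.subtype with hS
  have hSp : IsPGroup r S := P.isPGroup'.map H.subtype
  have hSH : S ≤ H := by
    rintro _ ⟨a, -, rfl⟩
    exact a.2
  have hRS : R ≤ S := by
    intro x hx
    exact ⟨⟨x, hRH hx⟩, hP (mem_subgroupOf.2 hx), rfl⟩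
  set y2 : G := (g : G) * y * (g : G)⁻¹ with hy2
  have hy2S : y2 ∈ S := ⟨_, hy2P, rfl⟩
  have hy2H' : y2 ∈ ⁅H, H⁆ := by
    have h1 : (g : G) * y * (g : G)⁻¹ * y⁻¹ ∈ ⁅H, H⁆ :=
      Subgroup.commutator_mem_commutator g.2 hyH
    have h2 : y2 = ((g : G) * y * (g : G)⁻¹ * y⁻¹) * y := by
      rw [hy2]; group
    rw [h2]
    exact Subgroup.mul_mem _ h1 hyH'
  have hy2o : orderOf y2 = r := by
    rw [hy2, ← hyo']
    have := (MulAut.conj (g : G)).orderOf_eq y
    simpa [MulAut.conj_apply] using this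
  have hZS : zpowers y2 ≤ S := by
    rw [zpowers_le]; exact hy2S
  have hZc : Nat.card (zpowers y2) = r := by rw [Nat.card_zpowers, hy2o]
  have := hUO H r hr hrk S R (zpowers y2) hSp hSH hRS hZS hR hZc
  rw [this, zpowers_le]
  exact hy2H'

example {G : Type u} [Group G] [Finite G] (hUO : Cfsg.Agent.H90.BG134.StUniqOrd G) :
    Cfsg.Agent.H90.BG134.StOrdComm G := ordComm hUO

end Cfsg.Agent.H75.BG134

#print axioms Cfsg.Agent.H75.BG134.ordComm
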