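import Mathlib
import Cfsg.Agent.H90.BG134Defs

/-!
# S1428-UNIQORD and S1428-ORDCOMM (helper75, for helper90's team project S1428)
-/

set_option autoImplicit false

namespace Cfsg.Agent.H75.BG134

open Cfsg Subgroup Cfsg.Agent.H90.BG134

universe u

/-- Two commuting elements of order dividing `q` generate a commutative subgroup of exponent
dividing `q`. -/
theorem closure_pair_comm {G : Type u} [Group G] (x z : G) (hxz : x * z = z * x) (q : ℕ)
    (hx : x ^ q = 1) (hz : z ^ q = 1) :
    (∀ a ∈ closure ({x, z} : Set G), ∀ b ∈ closure ({x, z} : Set G), a * b = b * a) ∧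
      ∀ a ∈ closure ({x, z} : Set G), a ^ q = 1 := by
  have hk : ∀ a ∈ ({x, z} : Set G), ∀ b ∈ ({x, z} : Set G), a * b = b * a := by
    intro a ha b hb
    rcases ha with rfl | rfl <;> rcases hb with rfl | rfl
    · rfl
    · exact hxz
    · exact hxz.symm
    · rfl
  have hcomm : ∀ a ∈ closure ({x, z} : Set G), ∀ b ∈ closure ({x, z} : Set G),
      a * b = b * a := by
    intro a ha b hb
    letI := Subgroup.closureCommGroupOfComm hk
    have := mul_comm (⟨a, ha⟩ : closure ({x, z} : Set G)) ⟨b, hb⟩
    exact congrArg Subtype.val this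
  refine ⟨hcomm, ?_⟩
  intro a ha
  induction ha using Subgroup.closure_induction with
  | mem y hy =>
    rcases hy with rfl | rfl
    · exact hx
    · exact hz
  | one => exact one_pow q
  | mul a b ha hb iha ihb =>
    have hab : Commute a b := hcomm a ha b hb
    rw [hab.mul_pow, iha, ihb, one_mul]
  | inv a ha iha => rw [inv_pow, iha, inv_one]

/-- Key step: in a subgroup `H` of `q`-rank at most one, a subgroup `X` of order `q` inside a
`q`-group `S ≤ H` is generated by any central element of order `q` of `S`. -/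
theorem eq_zpowers_of_central {G : Type u} [Group G] [Finite G] (H : Subgroup G) (q : ℕ)
    (hq : q.Prime) (hrk : PRankLE q 1 H) (S X : Subgroup G) (hSH : S ≤ H) (hXS : X ≤ S)
    (hX : Nat.card X = q) (z : G) (hzS : z ∈ S) (hzc : ∀ s ∈ S, s * z = z * s)
    (hz : orderOf z = q) : X = zpowers z := by
  haveI : Fact q.Prime := ⟨hq⟩
  -- a generator of `X`
  haveI : IsCyclic X := isCyclic_of_prime_card hX
  obtain ⟨⟨x, hxX⟩, hxgen⟩ := IsCyclic.exists_generator (α := X)
  have hxq : x ^ q = 1 := by
    have h1 : (⟨x, hxX⟩ : X) ^ Nat.card X = 1 := pow_card_eq_one'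
    rw [hX] at h1
    exact congrArg Subtype.val h1
  have hzq : z ^ q = 1 := by rw [← hz]; exact pow_orderOf_eq_one z
  have hxz : x * z = z * x := hzc x (hXS hxX)
  obtain ⟨hcomm, hexp⟩ := closure_pair_comm x z hxz q hxq hzq
  set A : Subgroup G := closure ({x, z} : Set G) with hA
  have hAH : A ≤ H := by
    rw [hA, closure_le]
    rintro y (rfl | rfl)
    · exact hSH (hXS hxX)
    · exact hSH hzS
  -- transfer to `↥H`
  have hcard : Nat.card A ≤ q := by
    have h1 := hrk (A.subgroupOf H)
      (IsMulCommutative.of_setLike_mul_comm (fun a ha b hb => by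
        apply Subtype.ext
        exact hcomm a.1 (mem_subgroupOf.1 ha) b.1 (mem_subgroupOf.1 hb)))
      (fun a ha => by
        apply Subtype.ext
        rw [SubgroupClass.coe_pow]
        exact hexp a.1 (mem_subgroupOf.1 ha))
    rw [pow_one] at h1
    rwa [Nat.card_congr (subgroupOfEquivOfLe hAH).toEquiv] at h1
  have hXA : X ≤ A := by
    intro y hy
    obtain ⟨k, hk⟩ := Subgroup.mem_zpowers_iff.1 (hxgen ⟨y, hy⟩)
    have : y = x ^ k := by
      have := congrArg Subtype.val hk
      simpa using this.symm
    rw [this]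
    exact zpow_mem (subset_closure (by simp)) k
  have hZA : zpowers z ≤ A := by
    rw [zpowers_le]
    exact subset_closure (by simp)
  have hZc : Nat.card (zpowers z) = q := by rw [Nat.card_zpowers, hz]
  have h1 : X = A := eq_of_le_of_card_ge hXA (by rw [hX]; exact hcard)
  have h2 : zpowers z = A := eq_of_le_of_card_ge hZA (by rw [hZc]; exact hcard)
  rw [h1, h2]

/-- S1428-UNIQORD. -/
theorem uniqOrd {G : Type u} [Group G] [Finite G] : StUniqOrd G := by
  intro H q hq hrk S X Y hS hSH hXS hYS hX hY
  haveI : Fact q.Prime := ⟨hq⟩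
  -- `S` is nontrivial
  haveI : Nontrivial S := by
    have : 1 < Nat.card S := by
      have := Subgroup.card_le_of_le hXS
      rw [hX] at this
      exact lt_of_lt_of_le hq.one_lt this
    exact Finite.one_lt_card_iff_nontrivial.1 this
  haveI := hS.center_nontrivial
  -- an element of order `q` in the centre of `S`
  have hcq : q ∣ Nat.card (center S) := by
    obtain ⟨n, hn⟩ := (hS.to_subgroup (center S)).exists_card_eq
    have hn0 : n ≠ 0 := by
      rintro rfl
      rw [pow_zero] at hn
      have := Finite.one_lt_card_iff_nontrivial.2 ‹Nontrivial (center S)›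
      omega
    rw [hn]
    exact dvd_pow_self q hn0
  obtain ⟨⟨⟨z, hzS⟩, hzc⟩, hzo⟩ := exists_prime_orderOf_dvd_card' q hcq
  have hzo' : orderOf z = q := by
    rw [← hzo]
    rw [← Subgroup.orderOf_coe, ← Subgroup.orderOf_coe]
  have hzc' : ∀ s ∈ S, s * z = z * s := by
    intro s hs
    have := Subgroup.mem_center_iff.1 hzc ⟨s, hs⟩
    exact congrArg Subtype.val this
  rw [eq_zpowers_of_central H q hq hrk S X hSH hXS hX z hzS hzc' hzo',
    eq_zpowers_of_central H q hq hrk S Y hSH hYS hY z hzS hzc' hzo']

example {G : Type u} [Group G] [Finite G] : Cfsg.Agent.H90.BG134.StUniqOrd G := uniqOrd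

end Cfsg.Agent.H75.BG134

#print axioms Cfsg.Agent.H75.BG134.uniqOrd
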