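import Mathlib
import Cfsg.Prelude
import Cfsg.Agent.H2.BrDefs

/-!
# S4501 piece DEG3CENT (helper75 for helper2)
-/

set_option autoImplicit false

namespace Cfsg.Agent.H75.Br

open Cfsg

universe u

section Idem

variable {V : Type*} [AddCommGroup V] [Module ℂ V] [FiniteDimensional ℂ V]

theorem idem_trace (E : Module.End ℂ V) (hE : E * E = E) :
    LinearMap.trace ℂ V E = (Module.finrank ℂ (LinearMap.range E) : ℂ) :=
  ((LinearMap.isProj_range_iff_isIdempotentElem E).mpr hE).trace

theorem idem_rank_zero (E : Module.End ℂ V)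
    (h0 : Module.finrank ℂ (LinearMap.range E) = 0) : E = 0 := by
  have : LinearMap.range E = ⊥ := Submodule.finrank_eq_zero.mp h0
  exact LinearMap.range_eq_bot.mp this

theorem idem_rank_one (E : Module.End ℂ V) (hE : E * E = E)
    (h1 : Module.finrank ℂ (LinearMap.range E) = 1) (M : Module.End ℂ V)
    (hM : M * E = E * M) : ∃ c : ℂ, M * E = c • E := by
  obtain ⟨⟨v, hv⟩, hv0, hspan⟩ := finrank_eq_one_iff'.mp h1
  have hEv : E v = v := by
    obtain ⟨y, rfl⟩ := hv
    have := congrArg (fun f => f y) hE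
    simpa using this
  have hMv : ∃ c : ℂ, M v = c • v := by
    have hmem : M v ∈ LinearMap.range E := by
      refine ⟨M v, ?_⟩
      have := congrArg (fun f => f v) hM
      simp only [Module.End.mul_apply] at this
      rw [← this, hEv]
    obtain ⟨c, hc⟩ := hspan ⟨M v, hmem⟩
    exact ⟨c, by simpa using (congrArg Subtype.val hc).symm⟩
  obtain ⟨c, hc⟩ := hMv
  refine ⟨c, LinearMap.ext fun x => ?_⟩
  obtain ⟨d, hd⟩ := hspan ⟨E x, LinearMap.mem_range_self E x⟩
  have hd' : E x = d • v := by simpa using (congrArg Subtype.val hd).symm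
  simp only [Module.End.mul_apply, LinearMap.smul_apply]
  rw [hd', map_smul, hc, smul_comm]

theorem key_fix (E B C C' : Module.End ℂ V) (hE : E * E = E)
    (h1 : Module.finrank ℂ (LinearMap.range E) = 1)
    (hB : B * E = E * B) (hC : C * E = E * C) (hC' : C' * E = E * C')
    (hCC' : C' * C = 1) (hBB : B * B = 1) (hBC : B * C = C' * B)
    {m : ℕ} (hm : Odd m) (hCm : C ^ m = 1) : C * E = E := by
  obtain ⟨l, hl⟩ := idem_rank_one E hE h1 C hC
  obtain ⟨l', hl'⟩ := idem_rank_one E hE h1 C' hC'
  obtain ⟨β, hβ⟩ := idem_rank_one E hE h1 B hB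
  have hE0 : E ≠ 0 := by
    rintro rfl
    rw [LinearMap.range_zero, finrank_bot] at h1
    exact zero_ne_one h1
  have inj := smul_left_injective ℂ hE0
  have e1 : (l * l') • E = (1 : ℂ) • E := by
    calc (l * l') • E = C' * (C * E) := by rw [hl, mul_smul_comm, hl', smul_smul]
      _ = (1 : ℂ) • E := by rw [← mul_assoc, hCC', one_mul, one_smul]
  have hll' : l * l' = 1 := inj e1
  have e2 : (β * β) • E = (1 : ℂ) • E := by
    calc (β * β) • E = B * (B * E) := by rw [hβ, mul_smul_comm, hβ, smul_smul]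
      _ = (1 : ℂ) • E := by rw [← mul_assoc, hBB, one_mul, one_smul]
  have hββ : β * β = 1 := inj e2
  have hβ0 : β ≠ 0 := by
    rintro rfl
    simp at hββ
  have e3 : (l * β) • E = (β * l') • E := by
    calc (l * β) • E = B * (C * E) := by rw [hl, mul_smul_comm, hβ, smul_smul]
      _ = C' * (B * E) := by rw [← mul_assoc, hBC, mul_assoc]
      _ = (β * l') • E := by rw [hβ, mul_smul_comm, hl', smul_smul]
  have hlβ : l * β = β * l' := inj e3
  have hl_eq : l = l' := by
    have : β * l = β * l' := by rw [← hlβ, mul_comm]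
    exact mul_left_cancel₀ hβ0 this
  have hl2 : l * l = 1 := by
    rw [← hl_eq] at hll'
    exact hll'
  have hpow : ∀ n : ℕ, C ^ n * E = (l ^ n) • E := by
    intro n
    induction n with
    | zero => simp
    | succ n ih => rw [pow_succ, mul_assoc, hl, mul_smul_comm, ih, smul_smul, pow_succ, mul_comm]
  have hlm : l ^ m = 1 := by
    have := hpow m
    rw [hCm, one_mul] at this
    exact (inj (show (1 : ℂ) • E = (l ^ m) • E by rw [one_smul, ← this])).symm
  have hl1 : l = 1 := by
    obtain ⟨j, rfl⟩ := hm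
    rw [pow_succ, pow_mul, pow_two, hl2, one_pow, one_mul] at hlm
    exact hlm
  rw [hl, hl1, one_smul]

end Idem

theorem deg3Cent : Cfsg.Agent.H2.Br.StmtDeg3Cent.{u} := by
  intro G _ _ ζ hdeg hfaith J t k hJ ht hJt hζJ hk1 hkodd hkJ htk g hgk
  obtain ⟨n, ρ, hirr, hχ⟩ := ζ.2
  have hval : ∀ x : G, (ζ : G → ℂ) x = LinearMap.trace ℂ (Fin n → ℂ) (ρ x) := by
    intro x
    rw [← hχ]
    rfl
  have h1 : (ζ : G → ℂ) 1 = (n : ℂ) := by
    rw [hval, map_one, LinearMap.trace_one, Module.finrank_fin_fun]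
  have hn : n = 3 := by
    unfold charDegree at hdeg
    rw [h1] at hdeg
    simpa using hdeg
  subst hn
  have hinj : ∀ x : G, ρ x = 1 → x = 1 := by
    intro x hx
    apply hfaith
    rw [hval, hval, hx, map_one ρ]
  have hinj2 : ∀ x y : G, ρ x = ρ y → x = y := by
    intro x y h
    have h' : ρ (x * y⁻¹) = 1 := by
      rw [map_mul, h, ← map_mul, mul_inv_cancel, map_one]
    exact mul_inv_eq_one.mp (hinj _ h')
  apply hinj2
  rw [map_mul, map_mul]
  have hAA : ρ J * ρ J = 1 := by
    rw [← map_mul, ← pow_two, ← hJ, pow_orderOf_eq_one, map_one]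
  have hBB : ρ t * ρ t = 1 := by rw [← map_mul, ht, map_one]
  have hBA : ρ t * ρ J = ρ J * ρ t := by rw [← map_mul, ← map_mul, hJt]
  have hCA : ρ k * ρ J = ρ J * ρ k := by rw [← map_mul, ← map_mul, hkJ]
  have hC'A : ρ k⁻¹ * ρ J = ρ J * ρ k⁻¹ := by
    have : k⁻¹ * J = J * k⁻¹ := by
      rw [inv_mul_eq_iff_eq_mul, ← mul_assoc, hkJ, mul_assoc, mul_inv_cancel, mul_one]
    rw [← map_mul, ← map_mul, this]
  have hCC' : ρ k⁻¹ * ρ k = 1 := by rw [← map_mul, inv_mul_cancel, map_one]
  have hC'C : ρ k * ρ k⁻¹ = 1 := by rw [← map_mul, mul_inv_cancel, map_one]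
  have hBC : ρ t * ρ k = ρ k⁻¹ * ρ t := by
    have : t * k = k⁻¹ * t := by
      rw [← htk]
      group
    rw [← map_mul, ← map_mul, this]
  have hDC : ρ g * ρ k = ρ k * ρ g := by rw [← map_mul, ← map_mul, hgk]
  have hCm : ρ k ^ (orderOf k) = 1 := by rw [← map_pow, pow_orderOf_eq_one, map_one]
  have hC'm : ρ k⁻¹ ^ (orderOf k) = 1 := by
    rw [← map_pow, inv_pow, pow_orderOf_eq_one, inv_one, map_one]
  have htrA : LinearMap.trace ℂ _ (ρ J) = -1 := by rw [← hval, hζJ]
  generalize ρ J = A at hAA hBA hCA hC'A htrA ⊢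
  generalize ρ t = B at hBB hBA hBC
  generalize ρ g = D at hDC ⊢
  have hk1' : ρ k ≠ 1 := fun h => hk1 (hinj k h)
  generalize ρ k⁻¹ = C' at hC'A hCC' hC'C hBC hC'm
  generalize ρ k = C at hCA hCC' hC'C hBC hDC hCm hk1'
  generalize orderOf k = m at hkodd hCm hC'm
  clear hinj hinj2 hval hχ hirr h1 hfaith hdeg hζJ hJ ht hJt hkJ htk hgk hk1
  -- the idempotent `e`
  set e : Module.End ℂ (Fin 3 → ℂ) := (1 / 2 : ℂ) • (1 + A) with he
  have hee : e * e = e := by
    have h2 : (1 + A) * (1 + A) = (2 : ℂ) • (1 + A) := by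
      rw [add_mul, mul_add, mul_add, hAA, two_smul]
      simp only [mul_one, one_mul]
      abel
    rw [he, smul_mul_smul_comm, h2, smul_smul]
    congr 1
    norm_num
  have htre : LinearMap.trace ℂ _ e = 1 := by
    rw [he, map_smul, map_add, LinearMap.trace_one, Module.finrank_fin_fun, htrA]
    norm_num
  have hAe : A = (2 : ℂ) • e - 1 := by
    rw [he, smul_smul]
    norm_num
  have hcomm_e : ∀ X : Module.End ℂ (Fin 3 → ℂ), X * A = A * X → X * e = e * X := by
    intro X hX
    rw [he, mul_smul_comm, smul_mul_assoc, mul_add, add_mul, mul_one, one_mul, hX]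
  have hre : Module.finrank ℂ (LinearMap.range e) = 1 := by
    have := idem_trace e hee
    rw [htre] at this
    exact_mod_cast this.symm
  have hCe : C * e = e :=
    key_fix e B C C' hee hre (hcomm_e B hBA) (hcomm_e C hCA) (hcomm_e C' hC'A) hCC' hBB hBC
      hkodd hCm
  have hm0 : (m : ℂ) ≠ 0 := by
    have : 0 < m := hkodd.pos
    exact_mod_cast this.ne'
  -- the averaging operators
  set S : Module.End ℂ (Fin 3 → ℂ) := ∑ i ∈ Finset.range m, C ^ i with hS
  set S' : Module.End ℂ (Fin 3 → ℂ) := ∑ i ∈ Finset.range m, C' ^ i with hS'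
  have hCS : C * S = S := by
    have := mul_geom_sum C m
    rw [hCm, sub_self, sub_mul, one_mul, sub_eq_zero] at this
    exact this
  have hSC : S * C = S := by
    have := geom_sum_mul C m
    rw [hCm, sub_self, mul_sub, mul_one, sub_eq_zero] at this
    exact this
  have hC'S' : C' * S' = S' := by
    have := mul_geom_sum C' m
    rw [hC'm, sub_self, sub_mul, one_mul, sub_eq_zero] at this
    exact this
  have hSC' : S * C' = S := by
    calc S * C' = S * C * C' := by rw [hSC]
      _ = S := by rw [mul_assoc, hC'C, mul_one]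
  have hCS' : C * S' = S' := by
    calc C * S' = C * (C' * S') := by rw [hC'S']
      _ = S' := by rw [← mul_assoc, hC'C, one_mul]
  have hSS' : S * S' = (m : ℂ) • S := by
    have hpow : ∀ i : ℕ, S * C' ^ i = S := by
      intro i
      induction i with
      | zero => simp
      | succ i ih => rw [pow_succ, ← mul_assoc, ih, hSC']
    rw [hS', Finset.mul_sum, Finset.sum_congr rfl (fun i _ => hpow i), Finset.sum_const,
      Finset.card_range, Nat.cast_smul_eq_nsmul]
  have hSS'2 : S * S' = (m : ℂ) • S' := by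
    have hpow : ∀ i : ℕ, C ^ i * S' = S' := by
      intro i
      induction i with
      | zero => simp
      | succ i ih => rw [pow_succ, mul_assoc, hCS', ih]
    rw [hS, Finset.sum_mul, Finset.sum_congr rfl (fun i _ => hpow i), Finset.sum_const,
      Finset.card_range, Nat.cast_smul_eq_nsmul]
  have hSeq : S = S' := by
    have : (m : ℂ) • S = (m : ℂ) • S' := by rw [← hSS', hSS'2]
    exact smul_right_injective _ hm0 this
  have hSS : S * S = (m : ℂ) • S := by
    have := hSS'
    rw [← hSeq] at this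
    exact this
  have hBS : B * S = S * B := by
    have hpow : ∀ i : ℕ, B * C ^ i = C' ^ i * B := by
      intro i
      induction i with
      | zero => simp
      | succ i ih => rw [pow_succ, ← mul_assoc, ih, mul_assoc, hBC, ← mul_assoc, ← pow_succ]
    have h1 : B * S = S' * B := by
      rw [hS, hS', Finset.mul_sum, Finset.sum_mul]
      exact Finset.sum_congr rfl (fun i _ => hpow i)
    rw [h1, hSeq]
  have hcomm_S : ∀ X : Module.End ℂ (Fin 3 → ℂ), X * C = C * X → X * S = S * X := by
    intro X hX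
    rw [hS, Finset.mul_sum, Finset.sum_mul]
    refine Finset.sum_congr rfl (fun i _ => ?_)
    exact (Commute.pow_right (show Commute X C from hX) i).eq
  have hSe : S * e = (m : ℂ) • e := by
    have hpow : ∀ i : ℕ, C ^ i * e = e := by
      intro i
      induction i with
      | zero => simp
      | succ i ih => rw [pow_succ, mul_assoc, hCe, ih]
    rw [hS, Finset.sum_mul, Finset.sum_congr rfl (fun i _ => hpow i), Finset.sum_const,
      Finset.card_range, Nat.cast_smul_eq_nsmul]
  -- the projection `P`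
  set P : Module.End ℂ (Fin 3 → ℂ) := (m : ℂ)⁻¹ • S with hP
  have hPP : P * P = P := by
    rw [hP, smul_mul_smul_comm, hSS, smul_smul]
    congr 1
    field_simp
  have hCP : C * P = P := by rw [hP, mul_smul_comm, hCS]
  have hPe : P * e = e := by
    rw [hP, smul_mul_assoc, hSe, smul_smul, inv_mul_cancel₀ hm0, one_smul]
  have hcomm_P : ∀ X : Module.End ℂ (Fin 3 → ℂ), X * S = S * X → X * P = P * X := by
    intro X hX
    rw [hP, mul_smul_comm, smul_mul_assoc, hX]
  have heP : e * P = e := by
    rw [hcomm_P e (hcomm_S e (hcomm_e C hCA).symm), hPe]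
  have hDP : D * P = P * D := hcomm_P D (hcomm_S D hDC)
  have hBP : B * P = P * B := hcomm_P B hBS
  have hCPc : C * P = P * C := by rw [hCP, hP, smul_mul_assoc, hSC]
  have hC'Pc : C' * P = P * C' := by
    have h1 : C' * P = P := by
      calc C' * P = C' * (C * P) := by rw [hCP]
        _ = P := by rw [← mul_assoc, hCC', one_mul]
    have h2 : P * C' = P := by rw [hP, smul_mul_assoc, hSC']
    rw [h1, h2]
  -- `Q = P - e` and `Q' = 1 - P`
  have hQQ : (P - e) * (P - e) = P - e := by
    rw [sub_mul, mul_sub, mul_sub, hPP, hPe, heP, hee]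
    abel
  have hQ'Q' : (1 - P) * (1 - P) = 1 - P := by
    rw [sub_mul, mul_sub, mul_sub, hPP]
    simp
  have htr : (Module.finrank ℂ (LinearMap.range (P - e)) : ℂ)
      + (Module.finrank ℂ (LinearMap.range (1 - P)) : ℂ) = 2 := by
    rw [← idem_trace _ hQQ, ← idem_trace _ hQ'Q', map_sub, map_sub, htre, LinearMap.trace_one,
      Module.finrank_fin_fun]
    push_cast
    ring
  have htr' : Module.finrank ℂ (LinearMap.range (P - e))
      + Module.finrank ℂ (LinearMap.range (1 - P)) = 2 := by
    exact_mod_cast htr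
  have hcases : Module.finrank ℂ (LinearMap.range (P - e)) = 0 ∨
      Module.finrank ℂ (LinearMap.range (1 - P)) = 0 ∨
      Module.finrank ℂ (LinearMap.range (1 - P)) = 1 := by omega
  rcases hcases with h0 | h0 | h1
  · have hPeq : P = e := sub_eq_zero.mp (idem_rank_zero _ h0)
    have hDe : D * e = e * D := by
      rw [← hPeq]
      exact hDP
    rw [hAe, mul_sub, sub_mul, mul_smul_comm, smul_mul_assoc, hDe, mul_one, one_mul]
  · exfalso
    have hP1 : P = 1 := (sub_eq_zero.mp (idem_rank_zero _ h0)).symm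
    apply hk1'
    calc C = C * P := by rw [hP1, mul_one]
      _ = 1 := by rw [hCP, hP1]
  · exfalso
    have hcQ : ∀ X : Module.End ℂ (Fin 3 → ℂ), X * P = P * X → X * (1 - P) = (1 - P) * X := by
      intro X hX
      rw [mul_sub, sub_mul, hX, mul_one, one_mul]
    have := key_fix (1 - P) B C C' hQ'Q' h1 (hcQ B hBP) (hcQ C hCPc) (hcQ C' hC'Pc) hCC' hBB hBC
      hkodd hCm
    rw [mul_sub, hCP, mul_one] at this
    apply hk1'
    exact sub_left_injective this

end Cfsg.Agent.H75.Br
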