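import Mathlib
import Cfsg.Prelude
import Cfsg.Agent.H2.BrDefs
import Cfsg.Agent.H4.IrrCount
import Cfsg.Agent.H4.PaQb
import Cfsg.Agent.H75.BrDeg3Cent

/-!
# S4501 piece EXC3 (helper75 for helper2)
-/

set_option autoImplicit false

namespace Cfsg.Agent.H75.Br

open Cfsg

open scoped ComplexConjugate

universe u

/-- the value of an irreducible character at a real element of order dividing 3 is an integer
congruent to the degree mod 3. -/
theorem char_int_of_order3 {G : Type u} [Group G] (χ : IrrCharacter G) (z : G) (hz : z ^ 3 = 1)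
    (hreal : ∃ g : G, g * z * g⁻¹ = z⁻¹) :
    ∃ c : ℤ, (χ : G → ℂ) z = (c : ℂ) ∧ (3 : ℤ) ∣ (charDegree (χ : G → ℂ) : ℤ) - c := by
  obtain ⟨n, ρ, hirr, hχ⟩ := χ.2
  have hval : ∀ x : G, (χ : G → ℂ) x = LinearMap.trace ℂ (Fin n → ℂ) (ρ x) := by
    intro x
    rw [← hχ]
    rfl
  have h1 : (χ : G → ℂ) 1 = (n : ℂ) := by
    rw [hval, map_one, LinearMap.trace_one, Module.finrank_fin_fun]
  have hdeg : charDegree (χ : G → ℂ) = n := by
    unfold charDegree
    rw [h1]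
    simp
  obtain ⟨ω, hω⟩ : ∃ ω : ℂ, ω ^ 2 + ω + 1 = 0 := by
    have h := (Complex.isPrimitiveRoot_exp 3 (by norm_num)).geom_sum_eq_zero (by norm_num)
    refine ⟨Complex.exp (2 * ↑Real.pi * Complex.I / ↑(3 : ℕ)), ?_⟩
    rw [Finset.sum_range_succ, Finset.sum_range_succ, Finset.sum_range_one] at h
    linear_combination h
  have hω3 : ω ^ 3 = 1 := by linear_combination (ω - 1) * hω
  have hz2 : z * z = z⁻¹ := by
    rw [eq_inv_iff_mul_eq_one, ← pow_two, ← pow_succ]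
    exact hz
  have hMM : ρ z * ρ z = ρ z⁻¹ := by rw [← map_mul, hz2]
  have hMM2 : ρ z * ρ z⁻¹ = 1 := by rw [← map_mul, mul_inv_cancel, map_one]
  have hM2M : ρ z⁻¹ * ρ z = 1 := by rw [← map_mul, inv_mul_cancel, map_one]
  have hM2M2 : ρ z⁻¹ * ρ z⁻¹ = ρ z := by
    rw [← map_mul]
    congr 1
    rw [← hz2]
    calc z * z * (z * z) = z ^ 3 * z := by
          simp only [pow_succ, pow_zero, one_mul, mul_assoc]
      _ = z := by rw [hz, one_mul]
  have hinvval : (χ : G → ℂ) z⁻¹ = (χ : G → ℂ) z := by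
    obtain ⟨g, hg⟩ := hreal
    rw [← hg]
    exact Cfsg.Agent.H4.irr_isClassFunction χ z g
  have htrM : LinearMap.trace ℂ (Fin n → ℂ) (ρ z) = (χ : G → ℂ) z := (hval z).symm
  have htrM2 : LinearMap.trace ℂ (Fin n → ℂ) (ρ z⁻¹) = (χ : G → ℂ) z := by
    rw [← hval, hinvval]
  generalize ρ z = M at hMM hMM2 hM2M hM2M2 htrM
  generalize ρ z⁻¹ = M2 at hMM hMM2 hM2M hM2M2 htrM2
  have hEE : ((1 / 3 : ℂ) • (1 + ω ^ 2 • M + ω • M2)) * ((1 / 3 : ℂ) • (1 + ω ^ 2 • M + ω • M2))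
      = (1 / 3 : ℂ) • (1 + ω ^ 2 • M + ω • M2) := by
    simp only [add_mul, mul_add, smul_mul_assoc, mul_smul_comm, one_mul, mul_one, hMM, hMM2, hM2M,
      hM2M2, smul_add, smul_smul]
    match_scalars
    · linear_combination (2 / 9 : ℂ) * hω3
    · ring
    · linear_combination (ω / 9) * hω3
  have htr := idem_trace _ hEE
  rw [map_smul, map_add, map_add, map_smul, map_smul, LinearMap.trace_one, Module.finrank_fin_fun,
    htrM, htrM2] at htr
  set a := Module.finrank ℂ (LinearMap.range ((1 / 3 : ℂ) • (1 + ω ^ 2 • M + ω • M2))) with ha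
  have hval_z : (χ : G → ℂ) z = (((n : ℤ) - 3 * (a : ℤ) : ℤ) : ℂ) := by
    push_cast
    simp only [smul_eq_mul] at htr
    linear_combination (-3 : ℂ) * htr + ((χ : G → ℂ) z) * hω
  refine ⟨(n : ℤ) - 3 * (a : ℤ), hval_z, ?_⟩
  rw [hdeg]
  exact ⟨a, by ring⟩

theorem sum_three {ι : Type*} [Fintype ι] [DecidableEq ι] (F : ι → ℂ) (i₀ a b : ι)
    (ha : a ≠ i₀) (hb : b ≠ i₀) (hab : a ≠ b)
    (hF : ∀ i, i ≠ i₀ → i ≠ a → i ≠ b → F i = 0) : ∑ i, F i = F i₀ + F a + F b := by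
  have h1 : a ∈ (Finset.univ : Finset ι).erase i₀ := Finset.mem_erase.mpr ⟨ha, Finset.mem_univ _⟩
  have h2 : b ∈ ((Finset.univ : Finset ι).erase i₀).erase a :=
    Finset.mem_erase.mpr ⟨hab.symm, Finset.mem_erase.mpr ⟨hb, Finset.mem_univ _⟩⟩
  rw [← Finset.add_sum_erase _ _ (Finset.mem_univ i₀), ← Finset.add_sum_erase _ _ h1,
    ← Finset.add_sum_erase _ _ h2]
  have h0 : ∑ x ∈ (((Finset.univ : Finset ι).erase i₀).erase a).erase b, F x = 0 := by
    apply Finset.sum_eq_zero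
    intro i hi
    simp only [Finset.mem_erase, Finset.mem_univ, and_true] at hi
    exact hF i hi.2.2 hi.2.1 hi.1
  rw [h0]
  ring

theorem comb_three {ι : Type*} [Fintype ι] [DecidableEq ι] (c : ι → ℤ) (i₀ : ι) (h0 : c i₀ = 1)
    (hsum : ∑ i, c i ^ 2 = 3) :
    ∃ a b, a ≠ i₀ ∧ b ≠ i₀ ∧ a ≠ b ∧ (c a = 1 ∨ c a = -1) ∧ (c b = 1 ∨ c b = -1) ∧
      ∀ i, i ≠ i₀ → i ≠ a → i ≠ b → c i = 0 := by
  have hs1 : ∑ i ∈ (Finset.univ : Finset ι).erase i₀, c i ^ 2 = 2 := by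
    have := Finset.add_sum_erase (Finset.univ : Finset ι) (fun i => c i ^ 2) (Finset.mem_univ i₀)
    simp only [h0] at this
    linarith
  have hex1 : ∃ a ∈ (Finset.univ : Finset ι).erase i₀, c a ≠ 0 := by
    by_contra hno
    push Not at hno
    rw [Finset.sum_eq_zero (fun i hi => by rw [hno i hi]; norm_num)] at hs1
    norm_num at hs1
  obtain ⟨a, ha, hca⟩ := hex1
  have hs2 : c a ^ 2 + ∑ i ∈ ((Finset.univ : Finset ι).erase i₀).erase a, c i ^ 2 = 2 := by
    rw [Finset.add_sum_erase _ (fun i => c i ^ 2) ha, hs1]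
  have hnn2 : 0 ≤ ∑ i ∈ ((Finset.univ : Finset ι).erase i₀).erase a, c i ^ 2 :=
    Finset.sum_nonneg (fun i _ => sq_nonneg _)
  have hca' : c a = 1 ∨ c a = -1 := by
    have h1 : c a ^ 2 ≤ 2 := by linarith
    have h2 : -1 ≤ c a := by nlinarith
    have h3 : c a ≤ 1 := by nlinarith
    omega
  have hca2 : c a ^ 2 = 1 := by
    rcases hca' with h | h <;> rw [h] <;> norm_num
  have hs3 : ∑ i ∈ ((Finset.univ : Finset ι).erase i₀).erase a, c i ^ 2 = 1 := by linarith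
  have hex2 : ∃ b ∈ ((Finset.univ : Finset ι).erase i₀).erase a, c b ≠ 0 := by
    by_contra hno
    push Not at hno
    rw [Finset.sum_eq_zero (fun i hi => by rw [hno i hi]; norm_num)] at hs3
    norm_num at hs3
  obtain ⟨b, hb, hcb⟩ := hex2
  have hs4 : c b ^ 2 + ∑ i ∈ (((Finset.univ : Finset ι).erase i₀).erase a).erase b, c i ^ 2 = 1 := by
    rw [Finset.add_sum_erase _ (fun i => c i ^ 2) hb, hs3]
  have hnn4 : 0 ≤ ∑ i ∈ (((Finset.univ : Finset ι).erase i₀).erase a).erase b, c i ^ 2 :=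
    Finset.sum_nonneg (fun i _ => sq_nonneg _)
  have hcb' : c b = 1 ∨ c b = -1 := by
    have h1 : c b ^ 2 ≤ 1 := by linarith
    have h2 : -1 ≤ c b := by nlinarith
    have h3 : c b ≤ 1 := by nlinarith
    omega
  have hcb2 : c b ^ 2 = 1 := by
    rcases hcb' with h | h <;> rw [h] <;> norm_num
  have hs5 : ∑ i ∈ (((Finset.univ : Finset ι).erase i₀).erase a).erase b, c i ^ 2 = 0 := by
    linarith
  have hzero := (Finset.sum_eq_zero_iff_of_nonneg (fun i _ => sq_nonneg (c i))).mp hs5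
  simp only [Finset.mem_erase, Finset.mem_univ, and_true] at ha hb
  refine ⟨a, b, ha, hb.2, hb.1.symm, hca', hcb', ?_⟩
  intro i hi0 hia hib
  have := hzero i (by simp only [Finset.mem_erase, Finset.mem_univ, and_true]; exact ⟨hib, hia, hi0⟩)
  exact pow_eq_zero_iff (two_ne_zero) |>.mp this

theorem exc3 : Cfsg.Agent.H2.Br.StmtExc3.{u} := by
  intro G _ _ z hz hcent hreal
  classical
  have := Fintype.ofFinite G
  let _ := Cfsg.Agent.H4.fintypeIrr G
  have hz3 : z ^ 3 = 1 := by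
    rw [← hz]
    exact pow_orderOf_eq_one z
  have hint : ∀ χ : IrrCharacter G, ∃ c : ℤ, (χ : G → ℂ) z = (c : ℂ) ∧
      (3 : ℤ) ∣ (charDegree (χ : G → ℂ) : ℤ) - c := fun χ => char_int_of_order3 χ z hz3 hreal
  choose c hc hc3 using hint
  have hcol := Cfsg.Agent.H4.column_orthogonality (G := G) z z
  rw [Cfsg.Agent.H4.finsum_irr_eq_sum] at hcol
  have hcard : Nat.card {x : G // x * z * x⁻¹ = z} = 3 := by
    have : Nat.card {x : G // x * z * x⁻¹ = z} = Nat.card (Subgroup.zpowers z) := by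
      apply Nat.card_congr
      refine Equiv.subtypeEquivRight (fun x => ?_)
      constructor
      · intro h
        apply hcent
        calc x * z = x * z * x⁻¹ * x := by group
          _ = z * x := by rw [h]
      · intro h
        obtain ⟨k, rfl⟩ := Subgroup.mem_zpowers_iff.mp h
        group
    rw [this, Nat.card_zpowers, hz]
  rw [hcard] at hcol
  have hsum : ∑ χ : IrrCharacter G, c χ ^ 2 = 3 := by
    have : ((∑ χ : IrrCharacter G, c χ ^ 2 : ℤ) : ℂ) = 3 := by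
      push_cast
      rw [show (3 : ℂ) = ((3 : ℕ) : ℂ) by norm_num, ← hcol]
      refine Finset.sum_congr rfl (fun χ _ => ?_)
      rw [hc χ, map_intCast, pow_two]
    exact_mod_cast this
  have h0 : c (Cfsg.Agent.H4.trivialIrr G) = 1 := by
    have := hc (Cfsg.Agent.H4.trivialIrr G)
    have h1 : ((Cfsg.Agent.H4.trivialIrr G : IrrCharacter G) : G → ℂ) z = 1 := rfl
    rw [h1] at this
    exact_mod_cast this.symm
  obtain ⟨χa, χb, ha, hb, hab, hca, hcb, hrest⟩ := comb_three c (Cfsg.Agent.H4.trivialIrr G) h0 hsum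
  have hnontriv : ∀ χ : IrrCharacter G, χ ≠ Cfsg.Agent.H4.trivialIrr G →
      (χ : G → ℂ) ≠ (fun _ => 1) := by
    intro χ hχ h
    exact hχ (Subtype.ext h)
  have htriv : ∀ χ : IrrCharacter G, (χ : G → ℂ) ≠ (fun _ => 1) →
      χ ≠ Cfsg.Agent.H4.trivialIrr G := by
    rintro χ hχ rfl
    exact hχ rfl
  refine ⟨χa, χb, c χa, c χb, hnontriv χa ha, hnontriv χb hb, hab, hca, hcb, hc χa, hc χb,
    hc3 χa, hc3 χb, ?_, ?_⟩
  · intro χ hχ1 hχa hχb
    rw [hc χ, hrest χ (htriv χ hχ1) hχa hχb]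
    simp
  · intro g hg
    have hcol2 := Cfsg.Agent.H4.column_orthogonality (G := G) g z
    rw [Cfsg.Agent.H4.finsum_irr_eq_sum] at hcol2
    have hempty : IsEmpty {x : G // x * g * x⁻¹ = z} :=
      ⟨fun ⟨x, hx⟩ => hg (isConj_iff.mpr ⟨x, hx⟩)⟩
    rw [Nat.card_of_isEmpty, Nat.cast_zero] at hcol2
    rw [sum_three (fun χ : IrrCharacter G => (χ : G → ℂ) g * conj ((χ : G → ℂ) z))
      (Cfsg.Agent.H4.trivialIrr G) χa χb ha hb hab ?_] at hcol2
    · simp only [hc, map_intCast] at hcol2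
      rw [h0] at hcol2
      have h1 : ((Cfsg.Agent.H4.trivialIrr G : IrrCharacter G) : G → ℂ) g = 1 := rfl
      rw [h1] at hcol2
      push_cast at hcol2
      linear_combination hcol2
    · intro χ h1 h2 h3
      show (χ : G → ℂ) g * conj ((χ : G → ℂ) z) = 0
      rw [hc χ, hrest χ h1 h2 h3]
      simp

end Cfsg.Agent.H75.Br
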