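import Mathlib
import Cfsg.Prelude.Def_GeometricClasses

/-!
# Piece S5958-CNT: if `r` divides the number of unordered `a`-decompositions of `F^n` into `t`
parts, then the order of `q` modulo `r` is at most `n`.
-/

set_option autoImplicit false
set_option linter.style.haveILetI false

namespace Cfsg.Agent.H75.Dec

open Cfsg

section

variable {F : Type*} [Field F] {n t a : ℕ}

theorem isMDecomposition_injective {D : Fin t → Submodule F (Fin n → F)}
    (hD : Geo.IsMDecomposition a D) : Function.Injective D := by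
  apply hD.indep.injective
  intro i hi
  have h0 := hD.finrank_eq i
  rw [hi, finrank_bot] at h0
  have h1 := hD.pos
  omega

theorem isMDecomposition_comp {D : Fin t → Submodule F (Fin n → F)}
    (hD : Geo.IsMDecomposition a D) (σ : Equiv.Perm (Fin t)) :
    Geo.IsMDecomposition a (D ∘ σ) :=
  { two_le := hD.two_le
    pos := hD.pos
    finrank_eq := fun i => hD.finrank_eq (σ i)
    indep := hD.indep.comp σ.injective
    iSup_eq_top := by
      rw [← hD.iSup_eq_top]
      exact Equiv.iSup_comp (g := D) σ }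

theorem isMDecomposition_map {D : Fin t → Submodule F (Fin n → F)}
    (hD : Geo.IsMDecomposition a D) (g : (Fin n → F) ≃ₗ[F] (Fin n → F)) :
    Geo.IsMDecomposition a (fun j => (D j).map (g : (Fin n → F) →ₗ[F] (Fin n → F))) :=
  { two_le := hD.two_le
    pos := hD.pos
    finrank_eq := fun i => by
      rw [LinearEquiv.finrank_map_eq]; exact hD.finrank_eq i
    indep := hD.indep.map_orderIso (Submodule.orderIsoMapComap g)
    iSup_eq_top := by
      rw [← Submodule.map_iSup, hD.iSup_eq_top, Submodule.map_top, LinearEquiv.range] }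

/-- the action of the symmetric group on ordered decompositions. -/
noncomputable instance permAction : MulAction (Equiv.Perm (Fin t))
    {D : Fin t → Submodule F (Fin n → F) // Geo.IsMDecomposition a D} where
  smul σ D := ⟨D.1 ∘ σ.symm, isMDecomposition_comp D.2 σ.symm⟩
  one_smul D := Subtype.ext (by funext i; rfl)
  mul_smul σ τ D := Subtype.ext (by funext i; rfl)

/-- the action of the linear automorphisms on ordered decompositions. -/
noncomputable instance glAction : MulAction ((Fin n → F) ≃ₗ[F] (Fin n → F))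
    {D : Fin t → Submodule F (Fin n → F) // Geo.IsMDecomposition a D} where
  smul g D := ⟨fun j => (D.1 j).map (g : (Fin n → F) →ₗ[F] (Fin n → F)),
    isMDecomposition_map D.2 g⟩
  one_smul D := Subtype.ext (by
    funext j
    exact Submodule.map_id _)
  mul_smul g h D := Subtype.ext (by
    funext j
    exact Submodule.map_comp _ _ _)

theorem exists_map_eq {D D' : Fin t → Submodule F (Fin n → F)}
    (hD : Geo.IsMDecomposition a D) (hD' : Geo.IsMDecomposition a D') :
    ∃ g : (Fin n → F) ≃ₗ[F] (Fin n → F),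
      ∀ j, (D j).map (g : (Fin n → F) →ₗ[F] (Fin n → F)) = D' j := by
  classical
  have hI := DirectSum.isInternal_submodule_of_iSupIndep_of_iSup_eq_top hD.indep hD.iSup_eq_top
  have hI' :=
    DirectSum.isInternal_submodule_of_iSupIndep_of_iSup_eq_top hD'.indep hD'.iSup_eq_top
  let v : ∀ j, Module.Basis (Fin a) F (D j) :=
    fun j => Module.finBasisOfFinrankEq F (D j) (hD.finrank_eq j)
  let v' : ∀ j, Module.Basis (Fin a) F (D' j) :=
    fun j => Module.finBasisOfFinrankEq F (D' j) (hD'.finrank_eq j)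
  let b := hI.collectedBasis v
  let b' := hI'.collectedBasis v'
  let g := b.equiv b' (Equiv.refl _)
  refine ⟨g, fun j => ?_⟩
  have hspan : ∀ (E : Fin t → Submodule F (Fin n → F)) (w : ∀ j, Module.Basis (Fin a) F (E j))
      (j : Fin t), E j = Submodule.span F (Set.range (fun k => ((w j k : E j) : Fin n → F))) := by
    intro E w j
    have h1 := (w j).span_eq
    have h2 := congrArg (Submodule.map (E j).subtype) h1
    rw [Submodule.map_span, Submodule.map_subtype_top, ← Set.range_comp] at h2
    exact h2.symm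
  have hg : ∀ k : Fin a, g ((v j k : D j) : Fin n → F) = ((v' j k : D' j) : Fin n → F) := by
    intro k
    have h1 : b ⟨j, k⟩ = ((v j k : D j) : Fin n → F) := by
      rw [DirectSum.IsInternal.collectedBasis_coe]
    have h2 : b' ⟨j, k⟩ = ((v' j k : D' j) : Fin n → F) := by
      rw [DirectSum.IsInternal.collectedBasis_coe]
    rw [← h1, ← h2]
    exact Module.Basis.equiv_apply b ⟨j, k⟩ b' (Equiv.refl _)
  rw [hspan D v j, Submodule.map_span, ← Set.range_comp, hspan D' v' j]
  congr 2
  funext k
  exact hg k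

end

section Count

variable {F : Type*} [Field F] {n t a : ℕ}

theorem factorial_dvd_card :
    t.factorial ∣
      Nat.card {D : Fin t → Submodule F (Fin n → F) // Geo.IsMDecomposition a D} := by
  have hfree : ∀ D : {D : Fin t → Submodule F (Fin n → F) // Geo.IsMDecomposition a D},
      MulAction.stabilizer (Equiv.Perm (Fin t)) D = ⊥ := by
    intro D
    rw [eq_bot_iff]
    intro σ hσ
    rw [Subgroup.mem_bot]
    have h1 : D.1 ∘ σ.symm = D.1 := congrArg Subtype.val (MulAction.mem_stabilizer_iff.mp hσ)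
    have hinj := isMDecomposition_injective D.2
    ext i
    have h2 := congrFun h1 (σ i)
    simp only [Function.comp_apply, Equiv.symm_apply_apply] at h2
    have h3 := hinj h2
    rw [← h3]; rfl
  have e := MulAction.selfEquivOrbitsQuotientProd hfree
  have h := Nat.card_congr e
  rw [Nat.card_prod, Nat.card_perm, Nat.card_eq_fintype_card (α := Fin t), Fintype.card_fin] at h
  exact Dvd.intro_left _ h.symm

theorem card_dvd_card_GL
    (hex : ∃ D : Fin t → Submodule F (Fin n → F), Geo.IsMDecomposition a D) :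
    Nat.card {D : Fin t → Submodule F (Fin n → F) // Geo.IsMDecomposition a D} ∣
      Nat.card (GL (Fin n) F) := by
  obtain ⟨D₀, hD₀⟩ := hex
  have horb : MulAction.orbit ((Fin n → F) ≃ₗ[F] (Fin n → F))
      (⟨D₀, hD₀⟩ : {D : Fin t → Submodule F (Fin n → F) // Geo.IsMDecomposition a D}) =
      Set.univ := by
    ext D
    simp only [Set.mem_univ, iff_true]
    obtain ⟨g, hg⟩ := exists_map_eq hD₀ D.2
    exact ⟨g, Subtype.ext (funext hg)⟩
  have hc : Nat.card ((Fin n → F) ≃ₗ[F] (Fin n → F)) = Nat.card (GL (Fin n) F) :=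
    (Nat.card_congr ((Matrix.GeneralLinearGroup.toLin.trans
      (LinearMap.GeneralLinearGroup.generalLinearEquiv F (Fin n → F))).toEquiv)).symm
  rw [← hc]
  have h := MulAction.index_stabilizer ((Fin n → F) ≃ₗ[F] (Fin n → F))
    (⟨D₀, hD₀⟩ : {D : Fin t → Submodule F (Fin n → F) // Geo.IsMDecomposition a D})
  rw [horb, Set.ncard_univ] at h
  rw [← h]
  exact Subgroup.index_dvd_card _

end Count

theorem order_le_of_dvd_card {F : Type*} [Field F] [Fintype F] (n a t : ℕ) (r : ℕ)
    (hr : r.Prime) (hrF : (r : F) ≠ 0)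
    (hex : ∃ D : Fin t → Submodule F (Fin n → F), Cfsg.Geo.IsMDecomposition a D)
    (hΩ : r ∣ Nat.card {D : Fin t → Submodule F (Fin n → F) // Cfsg.Geo.IsMDecomposition a D}
      / Nat.factorial t) :
    orderOf (Fintype.card F : ZMod r) ≤ n := by
  haveI : Fact r.Prime := ⟨hr⟩
  have h1 : r ∣ Nat.card {D : Fin t → Submodule F (Fin n → F) // Cfsg.Geo.IsMDecomposition a D} :=
    hΩ.trans (Nat.div_dvd_of_dvd factorial_dvd_card)
  have h2 : r ∣ Nat.card (GL (Fin n) F) := h1.trans (card_dvd_card_GL hex)
  rw [Matrix.card_GL_field] at h2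
  obtain ⟨i, -, hi⟩ := (Nat.Prime.prime hr).exists_mem_finset_dvd h2
  -- r does not divide q
  have hq : ¬ r ∣ Fintype.card F := by
    intro hdvd
    obtain ⟨p, hpchar⟩ := CharP.exists F
    haveI := hpchar
    obtain ⟨k, hp, hk⟩ := FiniteField.card F p
    rw [hk] at hdvd
    have hrp : r = p := (Nat.prime_dvd_prime_iff_eq hr hp).mp (hr.dvd_of_dvd_pow hdvd)
    apply hrF
    rw [hrp]
    exact CharP.cast_eq_zero F p
  have hle : Fintype.card F ^ (i : ℕ) ≤ Fintype.card F ^ n :=
    Nat.pow_le_pow_right Fintype.card_pos i.2.le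
  have hpow : ((Fintype.card F : ℕ) : ZMod r) ^ (n - (i : ℕ)) = 1 := by
    have h3 : ((Fintype.card F ^ n - Fintype.card F ^ (i : ℕ) : ℕ) : ZMod r) = 0 :=
      (ZMod.natCast_eq_zero_iff _ _).mpr hi
    rw [Nat.cast_sub hle, sub_eq_zero] at h3
    push_cast at h3
    have h4 : ((Fintype.card F : ℕ) : ZMod r) ≠ 0 := by
      intro h0
      exact hq ((ZMod.natCast_eq_zero_iff _ _).mp h0)
    have h5 : ((Fintype.card F : ℕ) : ZMod r) ^ n =
        ((Fintype.card F : ℕ) : ZMod r) ^ (n - (i : ℕ)) * ((Fintype.card F : ℕ) : ZMod r) ^ (i : ℕ) := by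
      rw [← pow_add, Nat.sub_add_cancel i.2.le]
    rw [h5] at h3
    have h6 : ((Fintype.card F : ℕ) : ZMod r) ^ (i : ℕ) ≠ 0 := pow_ne_zero _ h4
    exact mul_right_cancel₀ h6 (by rw [h3, one_mul])
  have hdvd := orderOf_dvd_of_pow_eq_one hpow
  have hpos : 0 < n - (i : ℕ) := Nat.sub_pos_of_lt i.2
  exact (Nat.le_of_dvd hpos hdvd).trans (Nat.sub_le _ _)

end Cfsg.Agent.H75.Dec
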