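import Mathlib
import Cfsg.Agent.H84.DihDefs
import Cfsg.Agent.H24.DihBASIC
import Cfsg.Agent.H71.DihFUS

/-!
# Piece S4482-CENT, part CARD: orders of the centralizers of `σ ^ l`, `τ`, `σ τ` in `C(J)`.
-/

set_option autoImplicit false
set_option linter.style.haveILetI false
set_option linter.unusedSectionVars false

namespace Cfsg.Agent.H75.Dih

open Cfsg.Agent.H84.Dih

universe u

variable {G : Type u} [Group G] [Finite G] {n : ℕ} {P : Sylow 2 G} {σ τ : G} {X : Subgroup G}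

theorem centralizer_pair (a b : G) :
    Subgroup.centralizer ({a, b} : Set G) =
      Subgroup.centralizer ({a} : Set G) ⊓ Subgroup.centralizer ({b} : Set G) := by
  ext g
  simp [Subgroup.mem_centralizer_iff]

theorem sigma_sq_ne (h : Hyp n P σ τ) : σ * σ ≠ 1 := by
  intro h1
  have h2 : orderOf σ ∣ 2 := orderOf_dvd_of_pow_eq_one (by rw [pow_two]; exact h1)
  rw [h.hσo] at h2
  have h3 := Nat.le_of_dvd (by norm_num) h2
  have h4 := Cfsg.Agent.H24.Dih.two_pow_eq h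
  have hn := h.hn
  have h5 : 2 ^ 1 ≤ 2 ^ (n - 2) := Nat.pow_le_pow_right (by norm_num) (by omega)
  omega

theorem tau_not_commute (h : Hyp n P σ τ) : τ * σ ≠ σ * τ := by
  intro h1
  have h2 := h.hrel
  rw [h1, mul_inv_cancel_right] at h2
  apply sigma_sq_ne h
  nth_rewrite 1 [h2]
  exact inv_mul_cancel σ

theorem tau_ne_one (h : Hyp n P σ τ) : τ ≠ 1 := by
  rintro rfl
  have := h.hτo
  rw [orderOf_one] at this
  omega

theorem J_ne_tau (h : Hyp n P σ τ) : σ ^ (2 ^ (n - 2)) ≠ τ := by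
  intro h1
  apply tau_not_commute h
  rw [← h1]
  exact ((Commute.refl σ).pow_left _).eq

theorem J_comm_tau (h : Hyp n P σ τ) :
    σ ^ (2 ^ (n - 2)) * τ = τ * σ ^ (2 ^ (n - 2)) :=
  (Subgroup.mem_centralizer_singleton_iff.mp (Cfsg.Agent.H24.Dih.P_le h h.hτ)).symm

theorem hyp_στ (h : Hyp n P σ τ) : Hyp n P σ (σ * τ) where
  hn := h.hn
  hσ := h.hσ
  hτ := mul_mem h.hσ h.hτ
  hσo := h.hσo
  hτo := by
    haveI : Fact (Nat.Prime 2) := ⟨Nat.prime_two⟩
    apply orderOf_eq_prime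
    · have h1 : τ * σ = σ⁻¹ * τ := by
        have := h.hrel
        rw [← this]; group
      have h2 := Cfsg.Agent.H24.Dih.tau_sq h
      calc (σ * τ) ^ 2 = σ * (τ * σ) * τ := by rw [pow_two]; group
        _ = τ * τ := by rw [h1]; group
        _ = 1 := h2
    · intro h1
      apply tau_not_commute h
      have h2 : τ = σ⁻¹ := by
        rw [eq_inv_iff_mul_eq_one, ← h1]
        have h3 := Cfsg.Agent.H24.Dih.tau_sq h
        calc τ * σ = τ * (σ * τ) * τ⁻¹ := by group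
          _ = τ * 1 * τ⁻¹ := by rw [h1]
          _ = σ * τ := by rw [h1]; group
      rw [h2]; group
  hrel := by
    have h1 : σ * τ * σ * (σ * τ)⁻¹ = σ * (τ * σ * τ⁻¹) * σ⁻¹ := by group
    rw [h1, h.hrel]; group
  hgen := by
    rw [← h.hgen]
    apply le_antisymm
    · rw [Subgroup.closure_le]
      rintro x (rfl | rfl)
      · exact Subgroup.subset_closure (by simp)
      · exact mul_mem (Subgroup.subset_closure (by simp)) (Subgroup.subset_closure (by simp))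
    · rw [Subgroup.closure_le]
      rintro x (rfl | rfl)
      · exact Subgroup.subset_closure (by simp)
      · have h1 : x = σ⁻¹ * (σ * x) := by group
        rw [SetLike.mem_coe, h1]
        exact mul_mem (inv_mem (Subgroup.subset_closure (by simp)))
          (Subgroup.subset_closure (by simp))

/-- the centralizer of `p ∈ P` in `C(J) = X P` factorizes. -/
theorem card_inf_cent (h : Hyp n P σ τ) (hX : Core n P σ X) (p : G)
    (hp : p ∈ (P : Subgroup G)) :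
    Nat.card ↥(Subgroup.centralizer ({σ ^ (2 ^ (n - 2))} : Set G) ⊓
        Subgroup.centralizer ({p} : Set G)) =
      Nat.card ↥(X ⊓ Subgroup.centralizer ({p} : Set G)) *
        Nat.card ↥((P : Subgroup G) ⊓ Subgroup.centralizer ({p} : Set G)) := by
  rw [← Nat.card_prod]
  symm
  apply Nat.card_congr
  refine Equiv.ofBijective (fun q => ⟨q.1.1 * q.2.1,
    ⟨mul_mem (hX.le q.1.2.1) (Cfsg.Agent.H24.Dih.P_le h q.2.2.1), mul_mem q.1.2.2 q.2.2.2⟩⟩)
    ⟨?_, ?_⟩
  · rintro ⟨⟨x, hx⟩, ⟨q, hq⟩⟩ ⟨⟨x', hx'⟩, ⟨q', hq'⟩⟩ heq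
    have heq' : x * q = x' * q' := congrArg Subtype.val heq
    have h1 : x'⁻¹ * x = q' * q⁻¹ := by
      rw [inv_mul_eq_iff_eq_mul, ← mul_assoc, ← heq', mul_inv_cancel_right]
    have h2 : x'⁻¹ * x = 1 :=
      Cfsg.Agent.H71.DihC.X_inf_P hX _ (mul_mem (inv_mem hx'.1) hx.1)
        (h1 ▸ mul_mem hq'.1 (inv_mem hq.1))
    have hxx : x = x' := by
      rw [inv_mul_eq_one] at h2; exact h2.symm
    subst hxx
    have hqq : q = q' := mul_left_cancel heq'
    subst hqq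
    rfl
  · rintro ⟨g, hgJ, hgp⟩
    obtain ⟨x, hx, q, hq, rfl⟩ := hX.mul g hgJ
    have hgp' : (x * q) * p = p * (x * q) := Subgroup.mem_centralizer_singleton_iff.mp hgp
    have hq' : q * p * q⁻¹ ∈ (P : Subgroup G) := mul_mem (mul_mem hq hp) (inv_mem hq)
    have hxq : x * (q * p * q⁻¹) * x⁻¹ = p := by
      calc x * (q * p * q⁻¹) * x⁻¹ = (x * q * p) * (x * q)⁻¹ := by group
        _ = p * (x * q) * (x * q)⁻¹ := by rw [hgp']
        _ = p := by group
    have hmemX : p * (q * p * q⁻¹)⁻¹ ∈ X := by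
      have h1 : (q * p * q⁻¹) * x⁻¹ * (q * p * q⁻¹)⁻¹ ∈ X :=
        hX.norm _ (Cfsg.Agent.H24.Dih.P_le h hq') _ (inv_mem hx)
      have h2 : p * (q * p * q⁻¹)⁻¹ = x * ((q * p * q⁻¹) * x⁻¹ * (q * p * q⁻¹)⁻¹) := by
        calc p * (q * p * q⁻¹)⁻¹ = (x * (q * p * q⁻¹) * x⁻¹) * (q * p * q⁻¹)⁻¹ := by rw [hxq]
          _ = x * ((q * p * q⁻¹) * x⁻¹ * (q * p * q⁻¹)⁻¹) := by group
      rw [h2]
      exact mul_mem hx h1
    have hmemP : p * (q * p * q⁻¹)⁻¹ ∈ (P : Subgroup G) := mul_mem hp (inv_mem hq')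
    have heq : p = q * p * q⁻¹ :=
      mul_inv_eq_one.mp (Cfsg.Agent.H71.DihC.X_inf_P hX _ hmemX hmemP)
    have hqc : q ∈ Subgroup.centralizer ({p} : Set G) := by
      rw [Subgroup.mem_centralizer_singleton_iff]
      calc q * p = (q * p * q⁻¹) * q := by group
        _ = p * q := by rw [← heq]
    have hxc : x ∈ Subgroup.centralizer ({p} : Set G) := by
      rw [← heq] at hxq
      rw [Subgroup.mem_centralizer_singleton_iff]
      calc x * p = (x * p * x⁻¹) * x := by group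
        _ = p * x := by rw [hxq]
    exact ⟨(⟨x, hx, hxc⟩, ⟨q, hq, hqc⟩), rfl⟩

/-- a power of `σ` commuting with `τ` is `1` or `J`. -/
theorem pow_comm_tau (h : Hyp n P σ τ) (i : ℕ) (hi : i < 2 ^ (n - 1))
    (hc : σ ^ i * τ = τ * σ ^ i) : i = 0 ∨ i = 2 ^ (n - 2) := by
  have h2 : τ * σ ^ i * τ⁻¹ = (σ ^ i)⁻¹ := by rw [← conj_pow, h.hrel, inv_pow]
  rw [← hc, mul_inv_cancel_right] at h2
  have h3 : σ ^ (i + i) = 1 := by
    rw [pow_add]
    nth_rewrite 1 [h2]
    exact inv_mul_cancel _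
  have h4 : 2 ^ (n - 1) ∣ i + i := by
    rw [← h.hσo]; exact orderOf_dvd_of_pow_eq_one h3
  have h5 := Cfsg.Agent.H24.Dih.two_pow_eq h
  obtain ⟨k, hk⟩ := h4
  rcases k with _ | _ | k
  · left; rw [mul_zero] at hk; omega
  · right; rw [zero_add, mul_one] at hk; omega
  · exfalso
    have h6 : 2 ^ (n - 1) * 2 ≤ 2 ^ (n - 1) * (k + 1 + 1) := Nat.mul_le_mul_left _ (by omega)
    omega

theorem P_inf_cent_pow (h : Hyp n P σ τ) (l : ℕ) (hl : 0 < l) (hlm : l < 2 ^ (n - 1))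
    (hne : l ≠ 2 ^ (n - 2)) :
    (P : Subgroup G) ⊓ Subgroup.centralizer ({σ ^ l} : Set G) = Subgroup.zpowers σ := by
  ext g
  rw [Subgroup.mem_inf, Subgroup.mem_centralizer_singleton_iff]
  constructor
  · rintro ⟨hgP, hgc⟩
    obtain ⟨i, -, rfl | rfl⟩ := Cfsg.Agent.H24.Dih.P_elts h g hgP
    · exact Subgroup.npow_mem_zpowers σ i
    · exfalso
      have h1 : σ ^ l * τ = τ * σ ^ l := by
        have h0 : σ ^ i * (τ * σ ^ l) = σ ^ i * (σ ^ l * τ) := by
          rw [← mul_assoc, hgc, ← mul_assoc, ← mul_assoc, ← pow_add, ← pow_add, add_comm]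
        exact (mul_left_cancel h0).symm
      rcases pow_comm_tau h l hlm h1 with h2 | h2
      · omega
      · exact hne h2
  · rintro ⟨k, rfl⟩
    exact ⟨zpow_mem h.hσ k, (((Commute.refl σ).zpow_left k).pow_right l).eq⟩

theorem P_inf_cent_τ (h : Hyp n P σ τ) :
    (((P : Subgroup G) ⊓ Subgroup.centralizer ({τ} : Set G) : Subgroup G) : Set G) =
      {1, σ ^ (2 ^ (n - 2)), τ, σ ^ (2 ^ (n - 2)) * τ} := by
  ext g
  simp only [SetLike.mem_coe, Subgroup.mem_inf, Subgroup.mem_centralizer_singleton_iff,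
    Set.mem_insert_iff, Set.mem_singleton_iff]
  constructor
  · rintro ⟨hgP, hgc⟩
    obtain ⟨i, hi, rfl | rfl⟩ := Cfsg.Agent.H24.Dih.P_elts h g hgP
    · rcases pow_comm_tau h i hi hgc with rfl | rfl
      · left; exact pow_zero σ
      · right; left; rfl
    · have h1 : σ ^ i * τ = τ * σ ^ i := mul_right_cancel (by rw [hgc, mul_assoc])
      rcases pow_comm_tau h i hi h1 with rfl | rfl
      · right; right; left; rw [pow_zero, one_mul]
      · right; right; right; rfl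
  · rintro (rfl | rfl | rfl | rfl)
    · exact ⟨one_mem _, by rw [one_mul, mul_one]⟩
    · exact ⟨pow_mem h.hσ _, J_comm_tau h⟩
    · exact ⟨h.hτ, rfl⟩
    · exact ⟨mul_mem (pow_mem h.hσ _) h.hτ, by rw [← mul_assoc, ← J_comm_tau h]⟩

theorem card_P_inf_cent_τ (h : Hyp n P σ τ) :
    Nat.card ↥((P : Subgroup G) ⊓ Subgroup.centralizer ({τ} : Set G)) = 4 := by
  have h1 : Nat.card ↥((P : Subgroup G) ⊓ Subgroup.centralizer ({τ} : Set G)) =
      Set.ncard (((P : Subgroup G) ⊓ Subgroup.centralizer ({τ} : Set G) : Subgroup G) : Set G) :=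
    Nat.card_coe_set_eq _
  rw [h1, P_inf_cent_τ h]
  have hJ1 := Cfsg.Agent.H24.Dih.J_ne_one h
  have hτ1 := tau_ne_one h
  have hJτ := J_ne_tau h
  have hJτ1 : σ ^ (2 ^ (n - 2)) * τ ≠ 1 := by
    intro h2
    apply hJτ
    have h3 := Cfsg.Agent.H24.Dih.tau_sq h
    calc σ ^ (2 ^ (n - 2)) = σ ^ (2 ^ (n - 2)) * τ * τ⁻¹ := by group
      _ = τ⁻¹ := by rw [h2, one_mul]
      _ = τ := Cfsg.Agent.H24.Dih.tau_inv h
  rw [Set.ncard_insert_of_notMem, Set.ncard_insert_of_notMem, Set.ncard_pair]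
  · intro h2
    apply hJ1
    have h3 : 1 * τ = σ ^ (2 ^ (n - 2)) * τ := by rw [one_mul]; exact h2
    exact (mul_right_cancel h3).symm
  · simp only [Set.mem_insert_iff, Set.mem_singleton_iff, not_or]
    refine ⟨hJτ, ?_⟩
    intro h2
    apply hτ1
    have h3 : σ ^ (2 ^ (n - 2)) * 1 = σ ^ (2 ^ (n - 2)) * τ := by rw [mul_one]; exact h2
    exact (mul_left_cancel h3).symm
  · simp only [Set.mem_insert_iff, Set.mem_singleton_iff, not_or]
    exact ⟨hJ1.symm, hτ1.symm, hJτ1.symm⟩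

theorem card_cent (h : Hyp n P σ τ) (hX : Core n P σ X) (l : ℕ) (hl : 0 < l)
    (hlm : l < 2 ^ (n - 1)) (hne : l ≠ 2 ^ (n - 2)) :
    Nat.card (Subgroup.centralizer ({σ ^ l} : Set G)) =
      Nat.card ↥(X ⊓ Subgroup.centralizer ({σ ^ l} : Set G)) * 2 ^ (n - 1) := by
  have h1 := card_inf_cent h hX (σ ^ l) (pow_mem h.hσ l)
  have h2 : Subgroup.centralizer ({σ ^ (2 ^ (n - 2))} : Set G) ⊓
      Subgroup.centralizer ({σ ^ l} : Set G) = Subgroup.centralizer ({σ ^ l} : Set G) :=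
    inf_eq_right.mpr (Cfsg.Agent.H71.DihC.cent_le h l hl hlm)
  rw [h2] at h1
  rw [h1, P_inf_cent_pow h l hl hlm hne, Nat.card_zpowers, h.hσo]

theorem card_cent_τ (h : Hyp n P σ τ) (hX : Core n P σ X) :
    Nat.card (Subgroup.centralizer ({σ ^ (2 ^ (n - 2)), τ} : Set G)) =
      4 * Nat.card ↥(X ⊓ Subgroup.centralizer ({τ} : Set G)) := by
  have h1 := card_inf_cent h hX τ h.hτ
  rw [centralizer_pair, h1, card_P_inf_cent_τ h, mul_comm]

theorem card_cent_στ (h : Hyp n P σ τ) (hX : Core n P σ X) :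
    Nat.card (Subgroup.centralizer ({σ ^ (2 ^ (n - 2)), σ * τ} : Set G)) =
      4 * Nat.card ↥(X ⊓ Subgroup.centralizer ({σ * τ} : Set G)) :=
  card_cent_τ (hyp_στ h) hX

end Cfsg.Agent.H75.Dih
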