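import Mathlib
import Cfsg.Prelude.Def_Blocks
import Cfsg.Agent.H81.Counting

/-!
# Piece S4482-PAIR: summing the section indicator over pairs of conjugates (class sums).
-/

set_option autoImplicit false
set_option linter.style.haveILetI false

namespace Cfsg.Agent.H75.Dih

open Cfsg

universe u

variable {G : Type u} [Group G] [Finite G]

theorem pair_count (B : Set (IrrCharacter G)) (π J : G) (K : Subgroup G)
    (hTI : ∀ g : G, (∑ᶠ χ ∈ B, (χ : G → ℂ) g * (χ : G → ℂ) π⁻¹) * (Nat.card K : ℂ) =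
      (Nat.card {w : G // ∃ ρ ∈ K, w⁻¹ * g * w = π * ρ} : ℂ)) :
    (Nat.card K : ℂ) * (Nat.card G : ℂ) *
        ∑ᶠ χ ∈ B, (χ : G → ℂ) J ^ 2 * (χ : G → ℂ) π⁻¹ / (χ : G → ℂ) 1 =
      (Nat.card {q : G × G // ∃ ρ ∈ K, q.1 * J * q.1⁻¹ * (q.2 * J * q.2⁻¹) = π * ρ} : ℂ) := by
  classical
  haveI : Fintype G := Fintype.ofFinite G
  haveI : Finite (IrrCharacter G) := Cfsg.Agent.H80.irr_finite G
  have hG : (Nat.card G : ℂ) ≠ 0 := by exact_mod_cast Nat.card_pos.ne'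
  set T : Finset (IrrCharacter G) := (Set.toFinite B).toFinset with hT
  have hfs : ∀ f : IrrCharacter G → ℂ, ∑ᶠ χ ∈ B, f χ = ∑ χ ∈ T, f χ :=
    fun f => finsum_mem_eq_finite_toFinset_sum f (Set.toFinite B)
  rw [hfs]
  -- counts as sums of indicators
  have hR : ∀ g : G, (Nat.card {w : G // ∃ ρ ∈ K, w⁻¹ * g * w = π * ρ} : ℂ) =
      ∑ w : G, if (∃ ρ ∈ K, w⁻¹ * g * w = π * ρ) then (1 : ℂ) else 0 := by
    intro g
    rw [Nat.card_eq_fintype_card, Fintype.card_subtype, Finset.card_filter]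
    push_cast
    rfl
  have hN : (Nat.card {q : G × G //
      ∃ ρ ∈ K, q.1 * J * q.1⁻¹ * (q.2 * J * q.2⁻¹) = π * ρ} : ℂ) =
      ∑ q : G × G,
        if (∃ ρ ∈ K, q.1 * J * q.1⁻¹ * (q.2 * J * q.2⁻¹) = π * ρ) then (1 : ℂ) else 0 := by
    rw [Nat.card_eq_fintype_card, Fintype.card_subtype, Finset.card_filter]
    push_cast
    rfl
  -- sum hTI over pairs
  have hsum : ∑ q : G × G, (∑ χ ∈ T, (χ : G → ℂ) (q.1 * J * q.1⁻¹ * (q.2 * J * q.2⁻¹)) *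
        (χ : G → ℂ) π⁻¹) * (Nat.card K : ℂ) =
      ∑ q : G × G, ∑ w : G,
        if (∃ ρ ∈ K, w⁻¹ * (q.1 * J * q.1⁻¹ * (q.2 * J * q.2⁻¹)) * w = π * ρ)
          then (1 : ℂ) else 0 := by
    apply Finset.sum_congr rfl
    intro q _
    rw [← hfs, hTI, hR]
  -- left side
  have hL : ∑ q : G × G, (∑ χ ∈ T, (χ : G → ℂ) (q.1 * J * q.1⁻¹ * (q.2 * J * q.2⁻¹)) *
        (χ : G → ℂ) π⁻¹) * (Nat.card K : ℂ) =
      (Nat.card G : ℂ) * ((Nat.card K : ℂ) * (Nat.card G : ℂ) *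
        ∑ χ ∈ T, (χ : G → ℂ) J ^ 2 * (χ : G → ℂ) π⁻¹ / (χ : G → ℂ) 1) := by
    rw [← Finset.sum_mul, Finset.sum_comm]
    have h1 : ∀ χ : IrrCharacter G,
        ∑ q : G × G, (χ : G → ℂ) (q.1 * J * q.1⁻¹ * (q.2 * J * q.2⁻¹)) * (χ : G → ℂ) π⁻¹ =
        (Nat.card G : ℂ) * (Nat.card G : ℂ) *
          ((χ : G → ℂ) J ^ 2 * (χ : G → ℂ) π⁻¹ / (χ : G → ℂ) 1) := by
      intro χ
      rw [← Finset.sum_mul, Fintype.sum_prod_type, Finset.sum_comm]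
      have h2 : ∀ y : G, ∑ x : G, (χ : G → ℂ) (x * J * x⁻¹ * (y * J * y⁻¹)) =
          (Nat.card G : ℂ) * (χ : G → ℂ) J * (χ : G → ℂ) J / (χ : G → ℂ) 1 := by
        intro y
        rw [Cfsg.Agent.H81.irr_sum_conj_mul, Cfsg.Agent.H81.irr_conj]
      rw [Finset.sum_congr rfl (fun y _ => h2 y), Finset.sum_const, Finset.card_univ,
        nsmul_eq_mul, ← Nat.card_eq_fintype_card]
      ring
    rw [Finset.sum_congr rfl (fun χ _ => h1 χ), ← Finset.mul_sum]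
    ring
  -- right side
  have hRR : ∑ q : G × G, ∑ w : G,
        (if (∃ ρ ∈ K, w⁻¹ * (q.1 * J * q.1⁻¹ * (q.2 * J * q.2⁻¹)) * w = π * ρ)
          then (1 : ℂ) else 0) =
      (Nat.card G : ℂ) * ∑ q : G × G,
        if (∃ ρ ∈ K, q.1 * J * q.1⁻¹ * (q.2 * J * q.2⁻¹) = π * ρ) then (1 : ℂ) else 0 := by
    rw [Finset.sum_comm]
    have h3 : ∀ w : G, ∑ q : G × G,
        (if (∃ ρ ∈ K, w⁻¹ * (q.1 * J * q.1⁻¹ * (q.2 * J * q.2⁻¹)) * w = π * ρ)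
          then (1 : ℂ) else 0) =
        ∑ q : G × G,
          if (∃ ρ ∈ K, q.1 * J * q.1⁻¹ * (q.2 * J * q.2⁻¹) = π * ρ) then (1 : ℂ) else 0 := by
      intro w
      apply Fintype.sum_equiv ((Equiv.mulLeft w⁻¹).prodCongr (Equiv.mulLeft w⁻¹))
      intro q
      have hq : w⁻¹ * (q.1 * J * q.1⁻¹ * (q.2 * J * q.2⁻¹)) * w =
          (w⁻¹ * q.1) * J * (w⁻¹ * q.1)⁻¹ * ((w⁻¹ * q.2) * J * (w⁻¹ * q.2)⁻¹) := by group
      simp only [Equiv.prodCongr_apply, Prod.map_fst, Prod.map_snd, Equiv.coe_mulLeft]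
      rw [hq]
    rw [Finset.sum_congr rfl (fun w _ => h3 w), Finset.sum_const, Finset.card_univ,
      nsmul_eq_mul, ← Nat.card_eq_fintype_card]
  rw [hN]
  have hfin := hL.symm.trans (hsum.trans hRR)
  exact mul_left_cancel₀ hG hfin

end Cfsg.Agent.H75.Dih
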