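import Mathlib

/-!
# Piece S4482-QCONV: pairs of conjugating elements versus pairs of conjugates.
-/

set_option autoImplicit false
set_option linter.style.haveILetI false

namespace Cfsg.Agent.H75.Dih

universe u

variable {G : Type u} [Group G] [Finite G]

omit [Finite G] in
theorem conj_mul_centralizer {J a c u : G} (ha : a * J * a⁻¹ = u)
    (hc : c ∈ Subgroup.centralizer ({J} : Set G)) : (a * c) * J * (a * c)⁻¹ = u := by
  have h1 : c * J = J * c := Subgroup.mem_centralizer_singleton_iff.mp hc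
  have h2 : c * J * c⁻¹ = J := by rw [h1, mul_inv_cancel_right]
  rw [← ha]
  calc (a * c) * J * (a * c)⁻¹ = a * (c * J * c⁻¹) * a⁻¹ := by group
    _ = a * J * a⁻¹ := by rw [h2]

omit [Finite G] in
theorem inv_mul_mem_centralizer {J a x : G} (ha : a * J * a⁻¹ = x * J * x⁻¹) :
    a⁻¹ * x ∈ Subgroup.centralizer ({J} : Set G) := by
  rw [Subgroup.mem_centralizer_singleton_iff]
  have h1 : J = a⁻¹ * (x * J * x⁻¹) * a := by rw [← ha]; group
  calc a⁻¹ * x * J = a⁻¹ * (x * J * x⁻¹) * a * (a⁻¹ * x) := by group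
    _ = J * (a⁻¹ * x) := by rw [← h1]

omit [Finite G] in
theorem card_conj_pairs (J : G) (R : G → G → Prop) :
    Nat.card {q : G × G // R (q.1 * J * q.1⁻¹) (q.2 * J * q.2⁻¹)} =
      Nat.card (Subgroup.centralizer ({J} : Set G)) ^ 2 *
        Nat.card {q : G × G // IsConj J q.1 ∧ IsConj J q.2 ∧ R q.1 q.2} := by
  classical
  have hrep : ∀ u : G, ∃ a : G, IsConj J u → a * J * a⁻¹ = u := by
    intro u
    by_cases hu : IsConj J u
    · obtain ⟨a, ha⟩ := isConj_iff.mp hu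
      exact ⟨a, fun _ => ha⟩
    · exact ⟨1, fun h => absurd h hu⟩
  choose rep hrep using hrep
  have hcj : ∀ x : G, IsConj J (x * J * x⁻¹) := fun x => isConj_iff.mpr ⟨x, rfl⟩
  have hmem : ∀ x : G, (rep (x * J * x⁻¹))⁻¹ * x ∈ Subgroup.centralizer ({J} : Set G) :=
    fun x => inv_mul_mem_centralizer (hrep _ (hcj x))
  let e : {q : G × G // R (q.1 * J * q.1⁻¹) (q.2 * J * q.2⁻¹)} ≃
      (Subgroup.centralizer ({J} : Set G) × Subgroup.centralizer ({J} : Set G)) ×
        {q : G × G // IsConj J q.1 ∧ IsConj J q.2 ∧ R q.1 q.2} :=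
    { toFun := fun q =>
        ((⟨(rep (q.1.1 * J * q.1.1⁻¹))⁻¹ * q.1.1, hmem _⟩,
          ⟨(rep (q.1.2 * J * q.1.2⁻¹))⁻¹ * q.1.2, hmem _⟩),
        ⟨(q.1.1 * J * q.1.1⁻¹, q.1.2 * J * q.1.2⁻¹), hcj _, hcj _, q.2⟩)
      invFun := fun p => ⟨(rep p.2.1.1 * p.1.1, rep p.2.1.2 * p.1.2), by
        have h1 := conj_mul_centralizer (hrep _ p.2.2.1) p.1.1.2
        have h2 := conj_mul_centralizer (hrep _ p.2.2.2.1) p.1.2.2
        show R ((rep p.2.1.1 * p.1.1) * J * (rep p.2.1.1 * p.1.1)⁻¹)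
          ((rep p.2.1.2 * p.1.2) * J * (rep p.2.1.2 * p.1.2)⁻¹)
        rw [h1, h2]
        exact p.2.2.2.2⟩
      left_inv := by
        rintro ⟨⟨x, y⟩, hq⟩
        apply Subtype.ext
        simp only [mul_inv_cancel_left]
      right_inv := by
        rintro ⟨⟨⟨c, hc⟩, ⟨d, hd⟩⟩, ⟨⟨u, v⟩, hu, hv, hR⟩⟩
        have h1 := conj_mul_centralizer (hrep _ hu) hc
        have h2 := conj_mul_centralizer (hrep _ hv) hd
        simp only [h1, h2, inv_mul_cancel_left] }
  rw [Nat.card_congr e, Nat.card_prod, Nat.card_prod, sq]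

end Cfsg.Agent.H75.Dih
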