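import Mathlib
import Cfsg.Prelude.Def_Solvable
import Cfsg.Agent.H75.Frobenius

set_option autoImplicit false
set_option linter.style.haveILetI false

namespace Cfsg.Agent.H75

/-- A group `H` mapping into a ring `R`, finitely generated as an abelian group, so that
modulo `ℓ` each `ψ h - 1` (`h ≠ 1`) is a non-zero-divisor, is a Frobenius complement. -/
theorem frobenius_of_ring_quotient {R : Type*} [Ring R] [Module.Finite ℤ R] {H : Type*} [Group H]
    [Finite H] [Nontrivial H] (ψ : H →* R) (ℓ : ℕ) (hℓ : ℓ ≠ 0)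
    (hN : ¬ ∃ a : R, a * (ℓ : R) = 1)
    (hF : ∀ h : H, h ≠ 1 → ∀ x y : R, (ψ h - 1) * x = y * (ℓ : R) → ∃ z : R, z * (ℓ : R) = x) :
    ∃ (L : Type) (_ : Group L) (_ : Finite L) (C : Subgroup L),
      Cfsg.IsFrobeniusComplement C ∧ Nonempty (H ≃* C) := by
  let I : Ideal R := Ideal.span {(ℓ : R)}
  letI : DistribMulAction H (R ⧸ I) := DistribMulAction.compHom (R ⧸ I) ψ
  have hsmul : ∀ (h : H) (x : R),
      h • (Submodule.Quotient.mk x : R ⧸ I) = Submodule.Quotient.mk (ψ h * x) := fun h x => rfl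
  haveI : Module.Finite ℤ (R ⧸ I) :=
    Module.Finite.of_surjective (I.mkQ.toAddMonoidHom.toIntLinearMap) (Submodule.mkQ_surjective I)
  haveI : Finite (R ⧸ I) := by
    apply Module.finite_of_fg_torsion
    intro v
    refine ⟨⟨(ℓ : ℤ), mem_nonZeroDivisors_of_ne_zero (by exact_mod_cast hℓ)⟩, ?_⟩
    obtain ⟨x, rfl⟩ := Submodule.Quotient.mk_surjective I v
    change ((ℓ : ℤ)) • (Submodule.Quotient.mk x : R ⧸ I) = 0
    have h1 : ((ℓ : ℤ)) • (Submodule.Quotient.mk x : R ⧸ I)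
        = Submodule.Quotient.mk ((ℓ : ℤ) • x) := (map_zsmul I.mkQ.toAddMonoidHom (ℓ : ℤ) x).symm
    rw [h1, Submodule.Quotient.mk_eq_zero, Ideal.mem_span_singleton']
    refine ⟨x, ?_⟩
    rw [zsmul_eq_mul, Int.cast_natCast, (Nat.cast_commute ℓ x).eq]
  haveI : Nontrivial (R ⧸ I) := by
    refine ⟨⟨Submodule.Quotient.mk 1, 0, ?_⟩⟩
    rw [Ne, Submodule.Quotient.mk_eq_zero, Ideal.mem_span_singleton']
    exact hN
  obtain ⟨L, hL, hLf, C, hC, ⟨e⟩, -⟩ := frobenius_of_fpf_distrib (V := R ⧸ I) (H := H) (by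
    intro h hh v hv
    obtain ⟨x, rfl⟩ := Submodule.Quotient.mk_surjective I v
    rw [hsmul, Submodule.Quotient.eq, Ideal.mem_span_singleton'] at hv
    obtain ⟨y, hy⟩ := hv
    obtain ⟨z, hz⟩ := hF h hh x y (by rw [hy]; noncomm_ring)
    rw [Submodule.Quotient.mk_eq_zero, Ideal.mem_span_singleton']
    exact ⟨z, hz⟩)
  exact ⟨L, hL, hLf, C, hC, ⟨e⟩⟩

/-- a nontrivial finite subgroup of the units of a division ring is a Frobenius complement -/
theorem frobenius_of_division_ring {D : Type*} [DivisionRing D] (H : Subgroup Dˣ) [Finite H]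
    [Nontrivial H] :
    ∃ (L : Type) (_ : Group L) (_ : Finite L) (C : Subgroup L),
      Cfsg.IsFrobeniusComplement C ∧ Nonempty (H ≃* C) := by
  classical
  let φ : H →* D := (Units.coeHom D).comp H.subtype
  let f : MonoidAlgebra ℤ H →ₐ[ℤ] D := MonoidAlgebra.lift ℤ D H φ
  let 𝓡 : Subalgebra ℤ D := f.range
  haveI : Module.Finite ℤ 𝓡 :=
    Module.Finite.of_surjective f.rangeRestrict.toLinearMap f.rangeRestrict_surjective
  have hφmem : ∀ h : H, φ h ∈ 𝓡 := fun h => ⟨MonoidAlgebra.of ℤ H h, by simp [f]⟩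
  let ψ : H →* 𝓡 :=
    { toFun := fun h => ⟨φ h, hφmem h⟩
      map_one' := by apply Subtype.ext; simp
      map_mul' := by intro a b; apply Subtype.ext; simp }
  have hψ : ∀ h : H, ((ψ h : 𝓡) : D) = ((h : Dˣ) : D) := fun h => rfl
  have hψne : ∀ h : H, h ≠ 1 → ψ h - 1 ≠ 0 := by
    intro h hh h0
    apply hh
    have h1 : ((ψ h : 𝓡) : D) = 1 := by
      have := congrArg (Subtype.val : 𝓡 → D) (sub_eq_zero.mp h0)
      simpa using this
    rw [hψ] at h1
    exact Subtype.ext (Units.ext h1)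
  obtain ⟨p, hp⟩ := CharP.exists D
  rcases CharP.char_is_prime_or_zero D p with hpp | rfl
  · have hp0 : ((p : ℕ) : 𝓡) = 0 := by
      apply Subtype.ext
      simp [CharP.cast_eq_zero D p]
    apply frobenius_of_ring_quotient ψ p hpp.ne_zero
    · rintro ⟨a, ha⟩
      rw [hp0, mul_zero] at ha
      exact zero_ne_one ha
    · intro h hh x y hxy
      rw [hp0, mul_zero] at hxy
      have hx : x = 0 := (mul_eq_zero.mp hxy).resolve_left (hψne h hh)
      exact ⟨0, by rw [hx, zero_mul]⟩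
  · haveI : CharZero D := CharP.charP_to_charZero D
    obtain ⟨ℓ, hℓ1, hℓ⟩ := Nat.exists_infinite_primes (Nat.card H + 1)
    apply frobenius_of_ring_quotient ψ ℓ hℓ.ne_zero
    · rintro ⟨a, ha⟩
      have hfg : (⊤ : Submodule ℤ 𝓡).FG := Module.Finite.fg_top
      have hin : (⊤ : Submodule ℤ 𝓡) ≤ (Ideal.span {(ℓ : ℤ)}) • (⊤ : Submodule ℤ 𝓡) := by
        intro x _
        have hx : x = (ℓ : ℤ) • (x * a) := by
          rw [zsmul_eq_mul, Int.cast_natCast, (Nat.cast_commute ℓ (x * a)).eq, mul_assoc, ha,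
            mul_one]
        rw [hx]
        exact Submodule.smul_mem_smul (Ideal.mem_span_singleton_self _) Submodule.mem_top
      obtain ⟨r, hr1, hr2⟩ :=
        Submodule.exists_sub_one_mem_and_smul_eq_zero_of_fg_of_le_smul _ _ hfg hin
      have h1 := hr2 1 Submodule.mem_top
      have hr0 : r = 0 := by
        have h2 : ((r • (1 : 𝓡) : 𝓡) : D) = 0 := by rw [h1]; rfl
        simpa using h2
      rw [hr0, zero_sub, Ideal.mem_span_singleton] at hr1
      have h3 : (ℓ : ℤ) ∣ 1 := by simpa using hr1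
      have h4 : ℓ ∣ 1 := by exact_mod_cast h3
      exact hℓ.one_lt.ne' (Nat.dvd_one.mp h4)
    · intro h hh x y hxy
      set u : 𝓡 := ψ h with hu
      set n : ℕ := orderOf h with hn
      have hn0 : 0 < n := orderOf_pos h
      have hun : u ^ n = 1 := by
        rw [hu, ← map_pow, hn, pow_orderOf_eq_one, map_one]
      have hcop : IsCoprime (n : ℤ) (ℓ : ℤ) := by
        rw [Nat.isCoprime_iff_coprime]
        apply Nat.Coprime.symm
        rw [Nat.Prime.coprime_iff_not_dvd hℓ]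
        intro hdvd
        have h1 := Nat.le_of_dvd hn0 hdvd
        have h2 : n ≤ Nat.card H := Nat.le_of_dvd Nat.card_pos (orderOf_dvd_natCard h)
        omega
      have hS : (∑ i ∈ Finset.range n, u ^ i) = 0 := by
        have h1 : (∑ i ∈ Finset.range n, u ^ i) * (u - 1) = 0 := by
          rw [geom_sum_mul, hun, sub_self]
        exact (mul_eq_zero.mp h1).resolve_right (hψne h hh)
      have hc : (∑ i ∈ Finset.range n, ∑ j ∈ Finset.range i, u ^ j) * (u - 1) = -(n : 𝓡) := by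
        rw [Finset.sum_mul]
        simp only [geom_sum_mul]
        rw [Finset.sum_sub_distrib, hS, Finset.sum_const, Finset.card_range, nsmul_eq_mul,
          mul_one, zero_sub]
      obtain ⟨a, b, hab⟩ := hcop
      set c : 𝓡 := ∑ i ∈ Finset.range n, ∑ j ∈ Finset.range i, u ^ j with hcdef
      have hnx : (n : 𝓡) * x = (-c * y) * (ℓ : 𝓡) := by
        have h1 : (n : 𝓡) = -(c * (u - 1)) := by rw [hc, neg_neg]
        rw [h1, neg_mul, mul_assoc, hxy, neg_mul, neg_mul, mul_assoc]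
      refine ⟨(a : 𝓡) * (-c * y) + (b : 𝓡) * x, ?_⟩
      have h5 : ((a * n + b * ℓ : ℤ) : 𝓡) = 1 := by rw [hab]; simp
      push_cast at h5
      calc ((a : 𝓡) * (-c * y) + (b : 𝓡) * x) * (ℓ : 𝓡)
          = (a : 𝓡) * ((-c * y) * (ℓ : 𝓡)) + (b : 𝓡) * (x * (ℓ : 𝓡)) := by
            rw [add_mul, mul_assoc (a : 𝓡), mul_assoc (b : 𝓡)]
        _ = (a : 𝓡) * ((n : 𝓡) * x) + (b : 𝓡) * ((ℓ : 𝓡) * x) := by
            rw [hnx, (Nat.cast_commute ℓ x).eq]
        _ = ((a : 𝓡) * (n : 𝓡) + (b : 𝓡) * (ℓ : 𝓡)) * x := by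
            rw [add_mul, mul_assoc (a : 𝓡), mul_assoc (b : 𝓡)]
        _ = x := by rw [h5, one_mul]

end Cfsg.Agent.H75
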