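import Mathlib
import Cfsg.Agent.H75.ESDefs
import Cfsg.Agent.H77.FxConj1
import Cfsg.Agent.H51.FxConj2
import Cfsg.Agent.H18.FxTransv

/-!
# S6002: the assembly (helper75)
-/

set_option autoImplicit false

namespace Cfsg.Agent.H75.ES

open Matrix

universe u

section aux

variable {F : Type u} [Field F]

theorem sympForm_smul_smul (z : F) (u v : I4 → F) :
    Cfsg.sympForm 2 F (z • u) (z • v) = z * z * Cfsg.sympForm 2 F u v := by
  unfold Cfsg.sympForm
  rw [Matrix.mulVec_smul, smul_dotProduct, dotProduct_smul, smul_eq_mul, smul_eq_mul, mul_assoc]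

/-- A scalar matrix in `Sp` has square one. -/
theorem scalar_sq (x : G4 F) (hx : x ∈ Cfsg.spGL 2 F) (z : F) (hz : (x : M4 F) = z • 1) :
    z * z = 1 := by
  have h := (Cfsg.Agent.H42.mem_spGL_iff' x).1 hx
    (Pi.single (Sum.inr ⟨0, by norm_num⟩) 1) (Pi.single (Sum.inl ⟨0, by norm_num⟩) 1)
  rw [hz, Matrix.smul_mulVec, Matrix.smul_mulVec, Matrix.one_mulVec, Matrix.one_mulVec,
    sympForm_smul_smul, Cfsg.Agent.H42.symp_e0_f0 (by norm_num : 1 ≤ 2), mul_one] at h
  exact h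

theorem sq_one_cases (z : F) (h : z * z = 1) : z = 1 ∨ z = -1 := by
  have : (z - 1) * (z + 1) = 0 := by linear_combination h
  rcases mul_eq_zero.1 this with h1 | h1
  · left; linear_combination h1
  · right; linear_combination h1

/-- A unit is not its own negative. -/
theorem unit_ne_neg (h2 : (2 : F) ≠ 0) (a : G4 F) : a ≠ -a := by
  intro h
  have h1 : (a : M4 F) = -(a : M4 F) := by
    have := congrArg Units.val h
    rwa [Units.val_neg] at this
  have h3 : (2 : F) • (a : M4 F) = 0 := by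
    rw [two_smul]
    nth_rewrite 1 [h1]
    exact neg_add_cancel _
  have h4 : (a : M4 F) = 0 := by
    rcases smul_eq_zero.1 h3 with h5 | h5
    · exact absurd h5 h2
    · exact h5
  have h5 : (a : M4 F) * ((a⁻¹ : G4 F) : M4 F) = 1 := by
    rw [← Units.val_mul, mul_inv_cancel, Units.val_one]
  rw [h4, zero_mul] at h5
  exact zero_ne_one h5

/-- Conjugation does not change the rank of `y - 1`. -/
theorem finrank_conj (x g : G4 F) :
    Module.finrank F ↥(LinearMap.range (Matrix.toLin' ((g⁻¹ * x * g : G4 F) : M4 F) - 1)) =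
      Module.finrank F ↥(LinearMap.range (Matrix.toLin' (x : M4 F) - 1)) := by
  have hgi : Matrix.toLin' ((g⁻¹ : G4 F) : M4 F) ∘ₗ Matrix.toLin' (g : M4 F) = LinearMap.id := by
    rw [← Matrix.toLin'_mul, ← Units.val_mul, inv_mul_cancel, Units.val_one, Matrix.toLin'_one]
  have hig : Matrix.toLin' (g : M4 F) ∘ₗ Matrix.toLin' ((g⁻¹ : G4 F) : M4 F) = LinearMap.id := by
    rw [← Matrix.toLin'_mul, ← Units.val_mul, mul_inv_cancel, Units.val_one, Matrix.toLin'_one]
  let e : (I4 → F) ≃ₗ[F] (I4 → F) :=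
    LinearEquiv.ofLinear (Matrix.toLin' ((g⁻¹ : G4 F) : M4 F)) (Matrix.toLin' (g : M4 F)) hgi hig
  have hsurj : LinearMap.range (Matrix.toLin' (g : M4 F)) = ⊤ := by
    rw [LinearMap.range_eq_top]
    intro v
    exact ⟨Matrix.toLin' ((g⁻¹ : G4 F) : M4 F) v, by
      rw [← LinearMap.comp_apply, hig, LinearMap.id_apply]⟩
  have hcomp : Matrix.toLin' ((g⁻¹ * x * g : G4 F) : M4 F) - 1 =
      (e : (I4 → F) →ₗ[F] (I4 → F)) ∘ₗ ((Matrix.toLin' (x : M4 F) - 1) ∘ₗ
        Matrix.toLin' (g : M4 F)) := by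
    have he : (e : (I4 → F) →ₗ[F] (I4 → F)) = Matrix.toLin' ((g⁻¹ : G4 F) : M4 F) := rfl
    rw [he, LinearMap.sub_comp, LinearMap.comp_sub, Units.val_mul, Units.val_mul,
      Matrix.toLin'_mul, Matrix.toLin'_mul, LinearMap.comp_assoc]
    congr 1
    rw [Module.End.one_eq_id, LinearMap.id_comp, hgi]
  rw [hcomp, LinearMap.range_comp, LinearMap.range_comp_of_range_eq_top _ hsurj]
  exact LinearEquiv.finrank_map_eq e _

/-- If `y h y⁻¹ = -h` then `y` has no odd power equal to one. -/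
theorem no_invert (h2 : (2 : F) ≠ 0) (y h : G4 F) (hy : y * h * y⁻¹ = -h) (n : ℕ) (hn : Odd n) :
    y ^ n ≠ 1 := by
  have key : ∀ m : ℕ, y ^ m * h * (y ^ m)⁻¹ = (-1) ^ m * h := by
    intro m
    induction m with
    | zero => simp
    | succ m ih =>
      have : y ^ (m + 1) * h * (y ^ (m + 1))⁻¹ = y * (y ^ m * h * (y ^ m)⁻¹) * y⁻¹ := by
        rw [pow_succ']
        group
      rw [this, ih]
      have h3 : y * ((-1) ^ m * h) * y⁻¹ = (-1) ^ m * (y * h * y⁻¹) := by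
        rcases neg_one_pow_eq_or (G4 F) m with h4 | h4
        · rw [h4, one_mul, one_mul]
        · rw [h4]
          simp only [neg_mul, one_mul, mul_neg]
      rw [h3, hy, pow_succ]
      simp
  intro h1
  have := key n
  rw [h1, one_mul, inv_one, mul_one, hn.neg_one_pow, neg_one_mul] at this
  exact unit_ne_neg h2 h this

theorem trace_conj (x g : G4 F) :
    Matrix.trace ((g⁻¹ * x * g : G4 F) : M4 F) = Matrix.trace (x : M4 F) := by
  rw [Units.val_mul, Units.val_mul, Matrix.trace_mul_cycle, ← Units.val_mul, mul_inv_cancel,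
    Units.val_one, Matrix.one_mul]

theorem inv_conj (x g : G4 F) : (g⁻¹ * x * g)⁻¹ = g⁻¹ * x⁻¹ * g := by group

theorem pow_conj (x g : G4 F) (n : ℕ) : (g⁻¹ * x * g) ^ n = g⁻¹ * x ^ n * g := by
  have h : g⁻¹ * x * g = g⁻¹ * x * g⁻¹⁻¹ := by rw [inv_inv]
  rw [h, conj_pow, inv_inv]

theorem scalar_conj (x g : G4 F) (hns : ∀ z : F, (x : M4 F) ≠ z • 1) :
    ∀ z : F, ((g⁻¹ * x * g : G4 F) : M4 F) ≠ z • 1 := by
  intro z hz
  apply hns z
  have h5 : x = g * (g⁻¹ * x * g) * g⁻¹ := by group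
  rw [h5, Units.val_mul, Units.val_mul, hz, Matrix.mul_smul, Matrix.mul_one, Matrix.smul_mul,
    ← Units.val_mul, mul_inv_cancel, Units.val_one]

end aux

section zmod5

theorem zmod5_cases (p : ℕ) : (p : ZMod 5) = 0 ∨ (p : ZMod 5) = 1 ∨ (p : ZMod 5) = 2 ∨
    (p : ZMod 5) = 3 ∨ (p : ZMod 5) = 4 := by
  generalize (p : ZMod 5) = a
  revert a
  decide

theorem mod5_of_order4 (p : ℕ) (h : orderOf (p : ZMod 5) = 4) : p % 5 = 2 ∨ p % 5 = 3 := by
  have h4 : (p : ZMod 5) ^ 4 = 1 := by rw [← h]; exact pow_orderOf_eq_one _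
  have h2 : (p : ZMod 5) ^ 2 ≠ 1 := by
    intro h2
    have := orderOf_dvd_of_pow_eq_one h2
    rw [h] at this
    omega
  have hc : (p : ZMod 5) = ((p % 5 : ℕ) : ZMod 5) := by
    rw [ZMod.natCast_mod]
  have hlt : p % 5 < 5 := Nat.mod_lt _ (by norm_num)
  rw [hc] at h4 h2
  interval_cases (p % 5)
  · exact absurd h4 (by decide)
  · exact absurd (by decide) h2
  · left; rfl
  · right; rfl
  · exact absurd (by decide) h2

theorem order4_of_mod5 (p : ℕ) (h : p % 5 = 2 ∨ p % 5 = 3) : orderOf (p : ZMod 5) = 4 := by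
  have hc : (p : ZMod 5) = ((p % 5 : ℕ) : ZMod 5) := by
    rw [ZMod.natCast_mod]
  rw [hc]
  apply orderOf_eq_of_pow_and_pow_div_prime (by norm_num)
  · rcases h with h | h <;> rw [h] <;> decide
  · intro q hq hq4
    have hq2 : q = 2 := by
      have : q ∣ 2 ^ 2 := by norm_num; exact hq4
      exact (Nat.prime_dvd_prime_iff_eq hq Nat.prime_two).1 (hq.dvd_of_dvd_pow this)
    subst hq2
    rcases h with h | h <;> rw [h] <;> decide

end zmod5

section main

variable {F : Type u} [Field F] [Fintype F]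

omit [Fintype F] in
/-- Basic facts on the five involutions. -/
theorem five_facts (h2 : (2 : F) ≠ 0) (R : Subgroup (G4 F)) (t : Fin 5 → G4 F) (ht : IsFive R t) :
    (∀ z : F, ((t 0 : G4 F) : M4 F) ≠ z • 1) ∧ (t 0 * t 1) * (t 0 * t 1) = -1 := by
  have h01 := ht.anti 0 1 (by decide)
  constructor
  · intro z hz
    have hc : t 0 * t 1 = t 1 * t 0 := by
      apply Units.ext
      rw [Units.val_mul, Units.val_mul, hz, Matrix.smul_mul, Matrix.mul_smul, Matrix.one_mul,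
        Matrix.mul_one]
    rw [hc] at h01
    exact unit_ne_neg h2 _ h01
  · have : t 0 * t 1 * (t 0 * t 1) = t 0 * (t 1 * t 0) * t 1 := by group
    rw [this]
    have h10 : t 1 * t 0 = -(t 0 * t 1) := by rw [h01, neg_neg]
    rw [h10, mul_neg, neg_mul, mul_assoc, mul_assoc, ht.sq 1, mul_one, ht.sq 0]

/-- The direction `⇐`, case `r = 2`. -/
theorem two_of (h2 : (2 : F) ≠ 0) (R : Subgroup (G4 F)) (hRf : R ≤ Cfsg.spGL 2 F)
    (t : Fin 5 → G4 F) (ht : IsFive R t) (x : G4 F) (hx : x ∈ Cfsg.spGL 2 F) (z : F)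
    (hz : ((x ^ 2 : G4 F) : M4 F) = z • 1) (hns : ∀ z : F, (x : M4 F) ≠ z • 1) :
    ∃ g ∈ Cfsg.spGL 2 F, g⁻¹ * x * g ∈ Cfsg.Geo.subgroupNormalizer R := by
  obtain ⟨ht0, ht01⟩ := five_facts h2 R t ht
  have hxx : (x : M4 F) * (x : M4 F) = z • 1 := by
    rw [← hz, pow_two, Units.val_mul]
  have hzz : z * z = 1 := scalar_sq (x ^ 2) (Subgroup.pow_mem _ hx 2) z hz
  rcases sq_one_cases z hzz with rfl | rfl
  · rw [one_smul] at hxx
    have ht0sq : ((t 0 : G4 F) : M4 F) * ((t 0 : G4 F) : M4 F) = 1 := by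
      rw [← Units.val_mul, ht.sq 0, Units.val_one]
    obtain ⟨g, hg, hgx⟩ := Cfsg.Agent.H77.Fx.conj1 F h2 x (t 0) hx (hRf (ht.mem 0)) hxx ht0sq
      hns ht0
    refine ⟨g, hg, ?_⟩
    rw [hgx]
    exact Subgroup.le_normalizer (ht.mem 0)
  · rw [neg_smul, one_smul] at hxx
    have hmem : t 0 * t 1 ∈ R := Subgroup.mul_mem _ (ht.mem 0) (ht.mem 1)
    have hsq : ((t 0 * t 1 : G4 F) : M4 F) * ((t 0 * t 1 : G4 F) : M4 F) = -1 := by
      rw [← Units.val_mul, ht01, Units.val_neg, Units.val_one]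
    obtain ⟨g, hg, hgx⟩ := Cfsg.Agent.H51.Fx.conj2 F 2 h2 x (t 0 * t 1) hx (hRf hmem) hxx hsq
    refine ⟨g, hg, ?_⟩
    rw [hgx]
    exact Subgroup.le_normalizer hmem

/-- The direction `⇐`, case `r = 5`. -/
theorem five_of (hOrd5 : StOrd5.{u}) (hSyl5 : StSyl5.{u}) (h2 : (2 : F) ≠ 0) {p : ℕ}
    [Fact p.Prime] (hF : Fintype.card F = p) (hp5 : p % 5 = 2 ∨ p % 5 = 3)
    (R : Subgroup (G4 F)) (hES : IsES R) (hRf : R ≤ Cfsg.spGL 2 F)
    (t : Fin 5 → G4 F) (ht : IsFive R t) (x : G4 F) (hx : x ∈ Cfsg.spGL 2 F) (z : F)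
    (hz : ((x ^ 5 : G4 F) : M4 F) = z • 1) (hns : ∀ z : F, (x : M4 F) ≠ z • 1) :
    ∃ g ∈ Cfsg.spGL 2 F, g⁻¹ * x * g ∈ Cfsg.Geo.subgroupNormalizer R := by
  obtain ⟨y5, hy5S, hy5N, hy5o⟩ := hOrd5 F R h2 hES hRf t ht
  have : Fact (Nat.Prime 5) := ⟨by norm_num⟩
  have hzz : z * z = 1 := scalar_sq (x ^ 5) (Subgroup.pow_mem _ hx 5) z hz
  have hneg1 : (-1 : G4 F) ∈ Cfsg.spGL 2 F := hRf hES.neg_mem
  have hx1 : x ≠ 1 := by
    rintro rfl
    exact hns 1 (by rw [Units.val_one, one_smul])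
  have hxm1 : x ≠ -1 := by
    rintro rfl
    exact hns (-1) (by rw [Units.val_neg, Units.val_one, neg_smul, one_smul])
  rcases sq_one_cases z hzz with rfl | rfl
  · have hx5 : x ^ 5 = 1 := by
      apply Units.ext
      rw [hz, one_smul, Units.val_one]
    have ho : orderOf x = 5 := orderOf_eq_prime hx5 hx1
    obtain ⟨g, hg, k, hgk⟩ := hSyl5 F p hF hp5 (Cfsg.spGL 2 F) x hx y5 hy5S ho hy5o
    refine ⟨g, hg, ?_⟩
    rw [hgk]
    exact Subgroup.pow_mem _ hy5N k
  · have hx5 : (-x) ^ 5 = 1 := by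
      rw [Odd.neg_pow (by decide)]
      apply Units.ext
      rw [Units.val_neg, hz, neg_smul, one_smul, neg_neg, Units.val_one]
    have hnx1 : -x ≠ 1 := by
      intro h
      apply hxm1
      rw [← h, neg_neg]
    have ho : orderOf (-x) = 5 := orderOf_eq_prime hx5 hnx1
    have hnx : -x ∈ Cfsg.spGL 2 F := by
      have : -x = -1 * x := by rw [neg_one_mul]
      rw [this]
      exact Subgroup.mul_mem _ hneg1 hx
    obtain ⟨g, hg, k, hgk⟩ := hSyl5 F p hF hp5 (Cfsg.spGL 2 F) (-x) hnx y5 hy5S ho hy5o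
    refine ⟨g, hg, ?_⟩
    have h3 : g⁻¹ * x * g = -1 * y5 ^ k := by
      rw [← hgk]
      simp
    rw [h3]
    exact Subgroup.mul_mem _ (Subgroup.le_normalizer hES.neg_mem) (Subgroup.pow_mem _ hy5N k)

omit [Fintype F] in
/-- An element of odd prime order conjugate into the normaliser: the trace identity. -/
theorem trace_count (hTR : StTR.{u}) (hFix : StFix.{u}) (h2 : (2 : F) ≠ 0)
    (R : Subgroup (G4 F)) (hES : IsES R) (hcnt : Cnt12 R)
    (hRi : Cfsg.Geo.ActsAbsolutelyIrreducibly (Cfsg.Geo.matrixSet R))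
    (x g : G4 F) (r : ℕ) (hr : r.Prime) (hr2 : r ≠ 2) (hxr : x ^ r = 1)
    (hns : ∀ z : F, (x : M4 F) ≠ z • 1)
    (hgN : g⁻¹ * x * g ∈ Cfsg.Geo.subgroupNormalizer R) :
    (r = 3 ∧ 2 * (Matrix.trace (x : M4 F) * Matrix.trace ((x⁻¹ : G4 F) : M4 F)) = 8) ∨
    (r = 5 ∧ 2 * (Matrix.trace (x : M4 F) * Matrix.trace ((x⁻¹ : G4 F) : M4 F)) = 2) := by
  obtain ⟨y, hy⟩ : ∃ y : G4 F, y = g⁻¹ * x * g := ⟨_, rfl⟩
  rw [← hy] at hgN
  have hyr : y ^ r = 1 := by rw [hy, pow_conj, hxr, mul_one, inv_mul_cancel]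
  have hyns : ∀ z : F, (y : M4 F) ≠ z • 1 := by rw [hy]; exact scalar_conj x g hns
  have hnc : ¬ ∀ h ∈ R, y * h = h * y := by
    intro hc
    obtain ⟨c, hc'⟩ := hRi.2 (y : M4 F) (by
      rintro s ⟨h, hh, rfl⟩
      have := congrArg Units.val (hc h hh)
      rwa [Units.val_mul, Units.val_mul] at this)
    exact hyns c hc'
  have hodd : Odd r := hr.odd_of_ne_two hr2
  have hinv : ∀ h ∈ R, y * h * y⁻¹ ≠ -h := by
    intro h _ hh
    exact no_invert h2 y h hh r hodd hyr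
  have htr := hTR F R h2 hES hRi y hgN hinv
  have htx : Matrix.trace (y : M4 F) = Matrix.trace (x : M4 F) := by rw [hy, trace_conj]
  have htx' : Matrix.trace ((y⁻¹ : G4 F) : M4 F) = Matrix.trace ((x⁻¹ : G4 F) : M4 F) := by
    rw [hy, inv_conj, trace_conj]
  rw [htx, htx'] at htr
  rcases hFix F R h2 hES hcnt y hgN r hr hr2 hyr hnc with ⟨h3, hc⟩ | ⟨h5, hc⟩
  · left
    refine ⟨h3, ?_⟩
    rw [htr, hc]
    norm_num
  · right
    refine ⟨h5, ?_⟩
    rw [htr, hc]
    norm_num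

omit [Fintype F] in
theorem scalar_pow_one (x : G4 F) (hx : x ∈ Cfsg.spGL 2 F) (n : ℕ) (hn : Odd n) (hxn : x ^ n = 1)
    (z : F) (hz : (x : M4 F) = z • 1) : z = 1 := by
  have hzz := scalar_sq x hx z hz
  have hzn : z ^ n = 1 := by
    have h := congrArg Units.val hxn
    rw [Units.val_pow_eq_pow_val, hz, smul_pow, one_pow, Units.val_one] at h
    have h' := congrFun (congrFun h (Sum.inl 0)) (Sum.inl 0)
    simpa using h'
  obtain ⟨k, rfl⟩ := hn
  rw [pow_succ, pow_mul, pow_two, hzz, one_pow, one_mul] at hzn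
  exact hzn

omit [Fintype F] in
theorem card_I4 : ((Fintype.card I4 : ℕ) : F) = 4 := by
  simp [I4]

/-- S6002 from the pieces. -/
theorem main_of (hMat : StMat.{u}) (hCnt : StCnt.{u}) (hFive : StFive.{u}) (hGen : StGen.{u})
    (hTV : StTV.{u}) (hTR : StTR.{u}) (hFix : StFix.{u}) (hOrd5 : StOrd5.{u})
    (hX3 : StX3.{u}) (hX5 : StX5.{u}) (hTau : StTau.{u}) (hSyl5 : StSyl5.{u})
    {p : ℕ} [Fact p.Prime] [CharP F p] (hF : Fintype.card F = p) (hodd : Odd p)
    (R : Subgroup (G4 F)) (hRs : Cfsg.Geo.IsSymplecticTypeGroup 2 R)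
    (hRi : Cfsg.Geo.ActsAbsolutelyIrreducibly (Cfsg.Geo.matrixSet R))
    (hRf : R ≤ Cfsg.spGL 2 F) (hR5 : Nat.card R = 2 ^ 5) (hRZ : Nat.card (Subgroup.center R) = 2)
    (hRm : Cfsg.Geo.IsOfMinusType 2 R) (r : ℕ) [Fact r.Prime]
    (hΩ : r ∣ (Cfsg.Geo.subgroupNormalizer R).relIndex (Cfsg.spGL 2 F)) :
    (∀ x ∈ Cfsg.spGL 2 F, (∃ z : F, ((x ^ r : G4 F) : M4 F) = z • (1 : M4 F)) →
      (∀ z : F, (x : M4 F) ≠ z • (1 : M4 F)) →
      ∃ g ∈ Cfsg.spGL 2 F, g⁻¹ * x * g ∈ Cfsg.Geo.subgroupNormalizer R) ↔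
      (r = 2 ∨ (r = 5 ∧ orderOf (p : ZMod 5) = 4)) := by
  classical
  have hpp : p.Prime := Fact.out
  have hrp : r.Prime := Fact.out
  have h2 : (2 : F) ≠ 0 := by
    intro h
    have h' : ((2 : ℕ) : F) = 0 := by exact_mod_cast h
    rw [CharP.cast_eq_zero_iff F p] at h'
    have h3 := Nat.le_of_dvd (by norm_num) h'
    have h4 := hpp.two_le
    have hp2 : p = 2 := by omega
    rw [hp2] at hodd
    exact absurd hodd (by decide)
  have hES := hMat F R hRs hRi hR5 hRZ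
  have hcnt := hCnt F R h2 hES hRf
  obtain ⟨t, ht⟩ := hFive F R h2 hES hcnt hRm
  have hgen := hGen F R h2 hES t ht
  constructor
  · intro hall
    by_contra hcon
    push Not at hcon
    obtain ⟨hr2, hr5⟩ := hcon
    by_cases hrp' : r = p
    · obtain ⟨x, hxS, hxp, hxns, hxrk⟩ := Cfsg.Agent.H18.Fx.transv F p 2 (by norm_num)
      obtain ⟨g, hg, hgN⟩ := hall x hxS ⟨1, by rw [hrp', hxp, Units.val_one, one_smul]⟩ hxns
      exact hTV F R h2 hES hRi t ht hgen _ hgN (by rw [finrank_conj]; exact hxrk)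
    · have hdvd : r ∣ Nat.card ↥(Cfsg.spGL 2 F) := hΩ.trans (Subgroup.relIndex_dvd_card _ _)
      obtain ⟨x₀, hx₀⟩ := exists_prime_orderOf_dvd_card' r hdvd
      obtain ⟨x, hx⟩ : ∃ x : G4 F, x = (x₀ : G4 F) := ⟨_, rfl⟩
      have hxS : x ∈ Cfsg.spGL 2 F := by rw [hx]; exact x₀.2
      have hxr : x ^ r = 1 := by
        rw [hx, ← Subgroup.coe_pow, ← hx₀, pow_orderOf_eq_one, Subgroup.coe_one]
      have hxns : ∀ z : F, (x : M4 F) ≠ z • 1 := by
        intro z hz
        have hzz := scalar_sq x hxS z hz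
        have hx2 : x ^ 2 = 1 := by
          apply Units.ext
          rw [pow_two, Units.val_mul, hz, Matrix.smul_mul, Matrix.one_mul, smul_smul, hzz,
            one_smul, Units.val_one]
        have hx02 : x₀ ^ 2 = 1 := by
          apply Subtype.ext
          rw [Subgroup.coe_pow, ← hx, hx2, Subgroup.coe_one]
        have h5 := orderOf_dvd_of_pow_eq_one hx02
        rw [hx₀] at h5
        exact hr2 ((Nat.prime_dvd_prime_iff_eq hrp Nat.prime_two).1 h5)
      obtain ⟨g, hg, hgN⟩ := hall x hxS ⟨1, by rw [hxr, Units.val_one, one_smul]⟩ hxns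
      have hrF : ((r : ℕ) : F) ≠ 0 := by
        intro h
        rw [CharP.cast_eq_zero_iff F p] at h
        exact hrp' ((Nat.prime_dvd_prime_iff_eq hpp hrp).1 h).symm
      rcases trace_count hTR hFix h2 R hES hcnt hRi x g r hrp hr2 hxr hxns hgN with
        ⟨h3, -⟩ | ⟨h5, -⟩
      · subst h3
        obtain ⟨x3, hx3S, hx3c, htr, htr'⟩ := hX3 F
        have h3F : (3 : F) ≠ 0 := by exact_mod_cast hrF
        have hx3ns : ∀ z : F, (x3 : M4 F) ≠ z • 1 := by
          intro z hz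
          have hz1 := scalar_pow_one x3 hx3S 3 (by decide) hx3c z hz
          rw [hz, hz1, one_smul, Matrix.trace_one, card_I4] at htr
          apply h3F
          linear_combination htr
        obtain ⟨g3, hg3, hg3N⟩ :=
          hall x3 hx3S ⟨1, by rw [hx3c, Units.val_one, one_smul]⟩ hx3ns
        rcases trace_count hTR hFix h2 R hES hcnt hRi x3 g3 3 hrp hr2 hx3c hx3ns hg3N with
          ⟨-, h8⟩ | ⟨h35, -⟩
        · rw [htr, htr'] at h8
          apply h3F
          have h6 : (2 : F) * 3 = 0 := by linear_combination -h8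
          rcases mul_eq_zero.1 h6 with h | h
          · exact absurd h h2
          · exact h
        · omega
      · subst h5
        have h5F : (5 : F) ≠ 0 := by exact_mod_cast hrF
        have hp5 : p % 5 = 1 ∨ p % 5 = 4 := by
          have hlt : p % 5 < 5 := Nat.mod_lt _ (by norm_num)
          have h0 : p % 5 ≠ 0 := by
            intro h0
            have : 5 ∣ p := Nat.dvd_of_mod_eq_zero h0
            exact hrp' ((Nat.prime_dvd_prime_iff_eq hrp hpp).1 this)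
          have h23 : ¬ (p % 5 = 2 ∨ p % 5 = 3) := fun h => hr5 rfl (order4_of_mod5 p h)
          omega
        obtain ⟨τ, hτ⟩ := hTau F p hF hp5
        obtain ⟨x5, hx5S, hx5c, htr, htr'⟩ := hX5 F τ hτ
        have hx5ns : ∀ z : F, (x5 : M4 F) ≠ z • 1 := by
          intro z hz
          have hz1 := scalar_pow_one x5 hx5S 5 (by decide) hx5c z hz
          rw [hz, hz1, one_smul, Matrix.trace_one, card_I4] at htr
          apply h5F
          have hτ2 : τ = 2 := by linear_combination -htr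
          rw [hτ2] at hτ
          linear_combination hτ
        obtain ⟨g5, hg5, hg5N⟩ :=
          hall x5 hx5S ⟨1, by rw [hx5c, Units.val_one, one_smul]⟩ hx5ns
        rcases trace_count hTR hFix h2 R hES hcnt hRi x5 g5 5 hrp hr2 hx5c hx5ns hg5N with
          ⟨h53, -⟩ | ⟨-, h8⟩
        · omega
        · rw [htr, htr'] at h8
          have h1 : (2 + τ) * (2 + τ) = 1 := by
            have h9 : (2 : F) * ((2 + τ) * (2 + τ) - 1) = 0 := by linear_combination h8
            rcases mul_eq_zero.1 h9 with h | h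
            · exact absurd h h2
            · linear_combination h
          apply h5F
          linear_combination (3 * τ - 1) * h1 - (3 * τ + 8) * hτ
  · rintro (rfl | ⟨rfl, ho⟩)
    · intro x hx ⟨z, hz⟩ hns
      exact two_of h2 R hRf t ht x hx z hz hns
    · intro x hx ⟨z, hz⟩ hns
      exact five_of hOrd5 hSyl5 h2 hF (mod5_of_order4 p ho) R hES hRf t ht x hx z hz hns

end main

end Cfsg.Agent.H75.ES
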