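import Mathlib
import Cfsg.Agent.H99.EmDefs
import Cfsg.Agent.H86.Ev2Fin
/-!
EM-JND (helper99's S5990 team project): if `-1` is not a square and `T` is an isometry with
`T * T = -1`, an invariant nondegenerate subspace is of plus type iff its dimension is divisible
by `4`, and there are invariant nondegenerate subspaces of every even dimension.
-/
set_option autoImplicit false

namespace Cfsg.Agent.H75.Em

open Matrix Module Cfsg.Agent.H45 Cfsg.Agent.H42.Spd Cfsg.Agent.H42.Ti Cfsg.Agent.H14.Ot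
  Cfsg.Agent.H95.Oh Cfsg.Agent.H86.Ev2

universe u v

section Abstract

variable {F : Type u} [Field F] {V : Type v} [AddCommGroup V] [Module F V]

/-- `t` pairwise orthogonal planes `⟨v j, T (v j)⟩` (`v j` nonsingular) span an invariant
nondegenerate subspace of dimension `2 t`, of plus type iff `t` is even (`-1` a nonsquare). -/
theorem planes_span [Fintype F] [FiniteDimensional F V] (B : V →ₗ[F] V →ₗ[F] F)
    (T : Module.End F V) (h2 : (2 : F) ≠ 0) (hns : ¬ IsSquare (-1 : F))
    (hsym : ∀ x y, B x y = B y x) (hiso : ∀ x y, B (T x) (T y) = B x y) (hTT : T * T = -1)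
    (t : ℕ) (v : Fin t → V) (hv : ∀ j, B (v j) (v j) ≠ 0)
    (hvo : ∀ j k, j ≠ k → B (v j) (v k) = 0 ∧ B (v j) (T (v k)) = 0) :
    (⨆ j, Submodule.span F {v j, T (v j)}) ∈ T.invtSubmodule ∧
      (⨆ j, Submodule.span F {v j, T (v j)}) ⊓ perp B (⨆ j, Submodule.span F {v j, T (v j)}) = ⊥ ∧
      finrank F ↥(⨆ j, Submodule.span F {v j, T (v j)}) = 2 * t ∧
      (Plus B (⨆ j, Submodule.span F {v j, T (v j)}) ↔ Even t) := by
  have hTTv : ∀ x, T (T x) = -x := by
    intro x
    have := congrArg (fun f : Module.End F V => f x) hTT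
    simpa using this
  have hself : ∀ x, B x (T x) = 0 := fun x =>
    Cfsg.Agent.H79.Ev2.self_T_zero B T h2 hsym hiso hTTv x
  let g : Fin 2 → Fin t → V := ![v, fun j => T (v j)]
  let w : Fin (2 * t) → V := fun a => g (finProdFinEquiv.symm a).1 (finProdFinEquiv.symm a).2
  have hg0 : ∀ j, g 0 j = v j := fun j => rfl
  have hg1 : ∀ j, g 1 j = T (v j) := fun j => rfl
  have hwe : ∀ i j, w (finProdFinEquiv (i, j)) = g i j := by
    intro i j
    show g (finProdFinEquiv.symm (finProdFinEquiv (i, j))).1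
      (finProdFinEquiv.symm (finProdFinEquiv (i, j))).2 = g i j
    rw [Equiv.symm_apply_apply]
  have hgo : ∀ i i' : Fin 2, ∀ j j' : Fin t, (i, j) ≠ (i', j') → B (g i j) (g i' j') = 0 := by
    rw [Fin.forall_fin_two]
    refine ⟨?_, ?_⟩ <;> rw [Fin.forall_fin_two] <;> refine ⟨?_, ?_⟩ <;> intro j j' hne
    · rw [hg0, hg0]
      exact (hvo j j' (fun h => hne (by rw [h]))).1
    · rw [hg0, hg1]
      by_cases h : j = j'
      · rw [h]; exact hself _
      · exact (hvo j j' h).2
    · rw [hg1, hg0, hsym]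
      by_cases h : j' = j
      · rw [h]; exact hself _
      · exact (hvo j' j h).2
    · rw [hg1, hg1, hiso]
      exact (hvo j j' (fun h => hne (by rw [h]))).1
  have hgn : ∀ i : Fin 2, ∀ j : Fin t, B (g i j) (g i j) ≠ 0 := by
    rw [Fin.forall_fin_two]
    refine ⟨fun j => ?_, fun j => ?_⟩
    · rw [hg0]; exact hv j
    · rw [hg1, hiso]; exact hv j
  have hwo : ∀ a b, a ≠ b → B (w a) (w b) = 0 := by
    intro a b hab
    apply hgo
    intro h
    apply hab
    apply finProdFinEquiv.symm.injective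
    exact h
  have hwn : ∀ a, B (w a) (w a) ≠ 0 := fun a => hgn _ _
  obtain ⟨-, hfr, hnd⟩ := fin_spanNd.{u, v} F V B hsym (2 * t) w ⟨hwo, hwn⟩
  have hdisc := fin_disc.{u, v} F V B h2 hsym t w hwo hwn
  have hprod : ∏ a, B (w a) (w a) = (∏ j, B (v j) (v j)) * ∏ j, B (v j) (v j) := by
    rw [← Equiv.prod_comp finProdFinEquiv (fun a => B (w a) (w a)), Fintype.prod_prod_type,
      Fin.prod_univ_two]
    congr 1
    · exact Finset.prod_congr rfl fun j _ => by rw [hwe, hg0]
    · exact Finset.prod_congr rfl fun j _ => by rw [hwe, hg1, hiso]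
  have hspan : (⨆ j, Submodule.span F {v j, T (v j)}) = Submodule.span F (Set.range w) := by
    apply le_antisymm
    · apply iSup_le
      intro j
      rw [Submodule.span_le]
      rintro y (rfl | hy)
      · rw [← hg0, ← hwe]
        exact Submodule.subset_span ⟨_, rfl⟩
      · rw [Set.mem_singleton_iff] at hy
        rw [hy, ← hg1, ← hwe]
        exact Submodule.subset_span ⟨_, rfl⟩
    · rw [Submodule.span_le]
      rintro _ ⟨a, rfl⟩
      obtain ⟨⟨i, j⟩, rfl⟩ := finProdFinEquiv.surjective a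
      rw [hwe]
      apply Submodule.mem_iSup_of_mem j
      revert i
      rw [Fin.forall_fin_two]
      refine ⟨?_, ?_⟩
      · rw [hg0]
        exact Submodule.subset_span (Set.mem_insert _ _)
      · rw [hg1]
        exact Submodule.subset_span (Set.mem_insert_of_mem _ rfl)
  rw [hspan]
  refine ⟨?_, hnd, hfr, ?_⟩
  · rw [Module.End.mem_invtSubmodule, ← Submodule.map_le_iff_le_comap, Submodule.map_span_le]
    rintro _ ⟨a, rfl⟩
    obtain ⟨⟨i, j⟩, rfl⟩ := finProdFinEquiv.surjective a
    rw [hwe]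
    revert i
    rw [Fin.forall_fin_two]
    refine ⟨?_, ?_⟩
    · rw [hg0, ← hg1, ← hwe]
      exact Submodule.subset_span ⟨_, rfl⟩
    · rw [hg1, hTTv, ← hg0, ← hwe]
      exact Submodule.neg_mem _ (Submodule.subset_span ⟨_, rfl⟩)
  · rw [hdisc, hprod]
    have hP : (∏ j, B (v j) (v j)) ≠ 0 := Finset.prod_ne_zero_iff.mpr fun j _ => hv j
    constructor
    · intro hsq
      by_contra hodd
      rw [Nat.not_even_iff_odd] at hodd
      rw [hodd.neg_one_pow] at hsq
      obtain ⟨s, hs⟩ := hsq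
      apply hns
      refine ⟨s / ∏ j, B (v j) (v j), ?_⟩
      field_simp
      linear_combination hs
    · intro he
      rw [he.neg_one_pow, one_mul]
      exact ⟨_, rfl⟩

end Abstract

/-- EM-JND. -/
theorem jNd : Cfsg.Agent.H99.Em.StJNd.{u, v} := by
  intro F _ _ V _ _ _ B T h2 hns hsym hnd hiso hTT
  have hTTv : ∀ x, T (T x) = -x := by
    intro x
    have := congrArg (fun f : Module.End F V => f x) hTT
    simpa using this
  have hplanes := Cfsg.Agent.H79.Ev2.planes_aux B T h2 hsym hiso hTTv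
  constructor
  · intro W hW hWnd
    have hWT : ∀ w ∈ W, T w ∈ W := fun w hw => (Module.End.mem_invtSubmodule T).mp hW hw
    have hWnd' : ∀ w ∈ W, (∀ u ∈ W, B w u = 0) → w = 0 := by
      intro w hw h
      have h1 : w ∈ W ⊓ perp B W := by
        refine Submodule.mem_inf.mpr ⟨hw, ?_⟩
        rw [mem_perp]
        intro u hu
        rw [hsym]
        exact h u hu
      rw [hWnd, Submodule.mem_bot] at h1
      exact h1
    obtain ⟨n, v, hn, -, hv, hvo, hsup⟩ := hplanes (finrank F W) W rfl hWT hWnd'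
    obtain ⟨-, -, -, hpl⟩ := planes_span B T h2 hns hsym hiso hTT n v hv hvo
    rw [hsup] at hpl
    rw [hpl, hn, Nat.even_iff]
    omega
  · intro m hm hmV
    have hTop : ∀ w ∈ (⊤ : Submodule F V), (∀ u ∈ (⊤ : Submodule F V), B w u = 0) → w = 0 :=
      fun w _ h => hnd w (fun y => h y Submodule.mem_top)
    obtain ⟨n, v, hn, -, hv, hvo, -⟩ :=
      hplanes (finrank F (⊤ : Submodule F V)) ⊤ rfl (fun w _ => Submodule.mem_top) hTop
    rw [finrank_top] at hn
    obtain ⟨t, ht⟩ := hm
    have hle : t ≤ n := by omega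
    obtain ⟨h1, h2', h3, -⟩ := planes_span B T h2 hns hsym hiso hTT t
      (fun j => v (Fin.castLE hle j)) (fun j => hv _)
      (fun j k hjk => hvo _ _ (fun h => hjk (Fin.castLE_injective hle h)))
    exact ⟨_, h1, h2', by rw [h3, ht]; ring⟩

example : Cfsg.Agent.H99.Em.StJNd.{u, v} := jNd

end Cfsg.Agent.H75.Em
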