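import Mathlib
import Cfsg.Agent.H99.EmDefs
import Cfsg.Agent.H86.Ev2Fin
import Cfsg.Agent.H18.OhInv
import Cfsg.Agent.H75.EmJNd
/-!
EM-TWOODD (helper99's S5990 team project): the case `r = 2`, `p` odd, for the nondegenerate
minus-type `m`-spaces of the standard minus space.
-/
set_option autoImplicit false

namespace Cfsg.Agent.H75.Em

open Matrix Module Cfsg.Agent.H45 Cfsg.Agent.H42.Spd Cfsg.Agent.H42.Ti Cfsg.Agent.H14.Ot
  Cfsg.Agent.H95.Oh Cfsg.Agent.H86.Ev2

universe u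

/-- EM-TWOODD. -/
theorem twoOdd (hJ : Cfsg.Agent.H99.Em.StJNd.{u, u}) : Cfsg.Agent.H99.Em.StTwoOdd.{u} := by
  intro F _ _ k m a b h2 hab hk hme hm2 hmk
  have hodd : Odd (Fintype.card F) := by
    rw [Nat.odd_iff]
    apply FiniteField.odd_card_of_char_ne_two
    intro h
    apply h2
    have := (ringChar.spec F 2).mpr (by rw [h])
    exact_mod_cast this
  obtain ⟨B, hB, hNP⟩ := brM_bridge fin_brM F k a b h2 hab
  have : Nonempty ((Fin k ⊕ Fin k) ⊕ Fin 2) := ⟨Sum.inr 0⟩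
  obtain ⟨v₀, hv₀⟩ := hB.exists_nonsing
  have hfin := finrank_minus F k
  have hm1 := isSquare_neg_one_iff_mod4 hodd
  have h2sq := isSquare_two_iff_mod8 hodd
  have hq2 := Nat.odd_iff.mp hodd
  have hcard := card_minus_half k
  have hplus : ∀ W : Submodule F ((Fin k ⊕ Fin k) ⊕ Fin 2 → F),
      Cfsg.Geo.IsPlusTypeOn (Cfsg.quadFormMinus k F a b) W ↔ Plus B W := by
    intro W
    constructor
    · rintro ⟨U, hUW, hU, hdim⟩
      exact ⟨U, hUW, (hB.ti_iff h2 U).mpr hU, hdim⟩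
    · rintro ⟨U, hUW, hU, hdim⟩
      exact ⟨U, hUW, (hB.ti_iff h2 U).mp hU, hdim⟩
  constructor
  · -- (⇒)
    intro hall
    by_contra hcon
    rw [not_or, not_or] at hcon
    obtain ⟨hd1, hq7, hm4⟩ := hcon
    have hq7' : Fintype.card F % 8 = 7 := not_not.mp hq7
    have hns : ¬ IsSquare (-1 : F) := by rw [hm1]; omega
    have hne : Even k := by
      rcases Nat.even_or_odd k with h | h
      · exact h
      · exact absurd h.add_one hd1
    obtain ⟨x, hx, hxx⟩ := fin_exJMinus F k a b h2 hab hne hns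
    have hxΩ : x ∈ Cfsg.Geo.omegaGL (Cfsg.quadFormMinus k F a b) := by
      have := fin_jSpin F _ (Cfsg.Agent.H49.QMin k F a b) h2 hB.polar_nd x hx hxx
      apply this.mpr
      rw [isSquare_two_pow_iff h2]
      right
      rw [h2sq]; right; exact hq7'
    obtain ⟨W, ⟨hWm, hWnd, hWminus⟩, hWinv⟩ :=
      hall x hxΩ (J_sq_scalar x hxx) (nonscalar_of_J hns x hxx)
    have hinv := (map_le_iff_invt _ _).mp hWinv
    apply hWminus
    rw [hplus]
    have hTiso := (hB.iso x).mp hx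
    rw [(hJ F _ B _ h2 hns hB.symm hB.nd hTiso (toLin_J x hxx)).1 W hinv ((hB.ndW W).mp hWnd),
      hWm]
    obtain ⟨j, hj⟩ := hme
    omega
  · -- (⇐)
    intro hR x hxΩ hz hns
    have hx := omega_isom _ hxΩ
    have hTiso : ∀ u v, B (Matrix.toLin' (x : Matrix ((Fin k ⊕ Fin k) ⊕ Fin 2)
        ((Fin k ⊕ Fin k) ⊕ Fin 2) F) u) (Matrix.toLin' (x : Matrix ((Fin k ⊕ Fin k) ⊕ Fin 2)
        ((Fin k ⊕ Fin k) ⊕ Fin 2) F) v) = B u v :=
      (hB.iso x).mp hx
    rcases sq_cases (Cfsg.Agent.H49.QMin k F a b) v₀ hv₀ x hx hz with ⟨hx2, hTT⟩ | ⟨hxx, hTT⟩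
    · obtain ⟨W, hWinv, hWnd, hWm, hWpl⟩ :=
        Cfsg.Agent.H18.Oh.inv fin_ortho fin_disc fin_subDisc F _ B _ h2 hB.symm hB.nd hTiso hTT
          m False hme hm2 (by rw [hfin]; omega)
      refine ⟨W, ⟨hWm, (hB.ndW W).mpr hWnd, ?_⟩, (map_le_iff_invt _ _).mpr hWinv⟩
      rw [hplus]
      exact fun h => hWpl.mp h
    · obtain ⟨hne, hns'⟩ := fin_noMinus F k a b h2 hab x hx hxx
      have hno : ¬ Even (k + 1) := by
        rw [Nat.even_add_one]; exact not_not.mpr hne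
      have hsq2 : IsSquare (2 : F) := by
        have := (fin_jSpin F _ (Cfsg.Agent.H49.QMin k F a b) h2 hB.polar_nd x hx hxx).mp hxΩ
        rw [hcard, isSquare_two_pow_iff h2] at this
        rcases this with h | h
        · exact absurd h hno
        · exact h
      have hq7 : Fintype.card F % 8 = 7 := by
        rw [h2sq] at hsq2
        rw [hm1] at hns'
        omega
      have hm4 : m % 4 = 2 := by
        rcases hR with h | h | h
        · exact absurd h hno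
        · exact absurd hq7 h
        · exact h
      obtain ⟨hJa, hJb⟩ := hJ F _ B _ h2 hns' hB.symm hB.nd hTiso hTT
      obtain ⟨W, hWinv, hWnd, hWm⟩ := hJb m hme (by rw [hfin]; omega)
      refine ⟨W, ⟨hWm, (hB.ndW W).mpr hWnd, ?_⟩, (map_le_iff_invt _ _).mpr hWinv⟩
      rw [hplus, hJa W hWinv hWnd, hWm]
      omega

example (hJ : Cfsg.Agent.H99.Em.StJNd.{u, u}) : Cfsg.Agent.H99.Em.StTwoOdd.{u} := twoOdd hJ

/-- EM-TWOODD, closed (with `jNd` plugged in). -/
theorem twoOdd_fin : Cfsg.Agent.H99.Em.StTwoOdd.{u} := twoOdd jNd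

end Cfsg.Agent.H75.Em
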