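import Mathlib
import Cfsg.Agent.H86.Ev2Fin
import Cfsg.Agent.H18.OhInv
import Cfsg.Agent.H42.EqDefs
/-!
EQ-R2 (helper42's S5988 team project): the `r = 2` line of the criterion for elliptic
`m`-spaces of the plus space `quadFormPlus d F`, `q` odd.

* `plus_of_sq` / `plus_of_nsq`: for an isometry `T` with `T * T = -1`, an invariant nondegenerate
  subspace is of plus type if `-1` is a square, resp. if `-1` is a nonsquare and its dimension
  is divisible by `4`.
* `ex_minus_abs`: an odd number `t` of pairwise orthogonal planes `⟨v, T v⟩` span an invariant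
  nondegenerate subspace of dimension `2 t` which is not of plus type (`-1` a nonsquare).
* `r2 : Cfsg.Agent.H42.Eq.StR2` (closed).
-/
set_option autoImplicit false

namespace Cfsg.Agent.H75.Eq

open Matrix Module Cfsg.Agent.H45 Cfsg.Agent.H42.Spd Cfsg.Agent.H42.Ti Cfsg.Agent.H14.Ot
  Cfsg.Agent.H95.Oh Cfsg.Agent.H86.Ev2

universe u v

section Restrict

variable {F : Type u} [Field F] {V : Type v} [AddCommGroup V] [Module F V]

/-- Restriction of the form and the isometry to an invariant nondegenerate subspace. -/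
theorem r2_res (B : V →ₗ[F] V →ₗ[F] F) (T : Module.End F V)
    (hsym : ∀ x y, B x y = B y x) (hiso : ∀ x y, B (T x) (T y) = B x y) (hTT : T * T = -1)
    (K : Submodule F V) (hK : K ∈ T.invtSubmodule) (hnd : K ⊓ perp B K = ⊥) :
    ∃ (BK : K →ₗ[F] K →ₗ[F] F) (TK : Module.End F K), (∀ x y : K, BK x y = B x y) ∧
      (∀ x y, BK x y = BK y x) ∧ (∀ x, (∀ y, BK x y = 0) → x = 0) ∧
      (∀ x y, BK (TK x) (TK y) = BK x y) ∧ TK * TK = -1 := by
  have hKT : ∀ x ∈ K, T x ∈ K := fun x hx => (Module.End.mem_invtSubmodule T).mp hK hx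
  refine ⟨B.domRestrict₁₂ K K, T.restrict hKT, fun x y => rfl, ?_, ?_, ?_, ?_⟩
  · intro x y
    exact hsym x y
  · intro x hx
    have h1 : (x : V) ∈ K ⊓ perp B K := by
      refine Submodule.mem_inf.mpr ⟨x.2, ?_⟩
      rw [mem_perp]
      intro u hu
      rw [hsym]
      exact hx ⟨u, hu⟩
    rw [hnd, Submodule.mem_bot] at h1
    exact Subtype.ext h1
  · intro x y
    exact hiso x y
  · apply LinearMap.ext
    intro x
    apply Subtype.ext
    have h := congrArg (fun f : Module.End F V => f (x : V)) hTT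
    simp only [Module.End.mul_apply, LinearMap.neg_apply, Module.End.one_apply] at h
    simp only [Module.End.mul_apply, LinearMap.neg_apply, Module.End.one_apply,
      LinearMap.coe_restrict_apply, Submodule.coe_neg]
    exact h

/-- A totally isotropic subspace of half the dimension for the restricted form gives the plus
type. -/
theorem r2_plus_of_res [FiniteDimensional F V] (B : V →ₗ[F] V →ₗ[F] F) (K : Submodule F V)
    (BK : K →ₗ[F] K →ₗ[F] F) (hBK : ∀ x y : K, BK x y = B x y) (W : Submodule F K)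
    (hTI : TI BK W) (hW : 2 * finrank F W = finrank F K) : Plus B K := by
  refine ⟨W.map K.subtype, Submodule.map_subtype_le K W, ?_, ?_⟩
  · intro a ha b hb
    obtain ⟨a', ha', rfl⟩ := Submodule.mem_map.mp ha
    obtain ⟨b', hb', rfl⟩ := Submodule.mem_map.mp hb
    have := hTI a' ha' b' hb'
    rw [hBK] at this
    exact this
  · rw [Submodule.finrank_map_subtype_eq, hW]

/-- (ii): `-1` a square: every invariant nondegenerate subspace of even dimension is of plus
type. -/
theorem plus_of_sq [FiniteDimensional F V] (B : V →ₗ[F] V →ₗ[F] F) (T : Module.End F V)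
    (h2 : (2 : F) ≠ 0) (hsq : IsSquare (-1 : F)) (hsym : ∀ x y, B x y = B y x)
    (hiso : ∀ x y, B (T x) (T y) = B x y) (hTT : T * T = -1)
    (K : Submodule F V) (hK : K ∈ T.invtSubmodule) (hnd : K ⊓ perp B K = ⊥)
    (hev : Even (finrank F K)) : Plus B K := by
  obtain ⟨BK, TK, hBK, hs, hn, hi, hTK⟩ := r2_res B T hsym hiso hTT K hK hnd
  obtain ⟨j, hj⟩ := hev
  obtain ⟨W, -, hTI, hW⟩ :=
    (fin_jEig.{u, v} F K BK TK h2 hsq hs hn hi hTK).2 j (by omega)
  exact r2_plus_of_res B K BK hBK W hTI (by omega)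

/-- (iii a): `-1` a nonsquare: every invariant nondegenerate subspace of dimension divisible by
`4` is of plus type. -/
theorem plus_of_nsq [Fintype F] [FiniteDimensional F V] (B : V →ₗ[F] V →ₗ[F] F)
    (T : Module.End F V) (h2 : (2 : F) ≠ 0) (hns : ¬ IsSquare (-1 : F))
    (hsym : ∀ x y, B x y = B y x) (hiso : ∀ x y, B (T x) (T y) = B x y) (hTT : T * T = -1)
    (K : Submodule F V) (hK : K ∈ T.invtSubmodule) (hnd : K ⊓ perp B K = ⊥)
    (h4 : finrank F K % 4 = 0) : Plus B K := by
  obtain ⟨BK, TK, hBK, hs, hn, hi, hTK⟩ := r2_res B T hsym hiso hTT K hK hnd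
  obtain ⟨W, -, hTI, hW⟩ :=
    fin_jTs.{u, v} F K BK TK h2 hns hs hn hi hTK (finrank F K / 4) (by omega)
  exact r2_plus_of_res B K BK hBK W hTI (by omega)

/-- (iii b): `-1` a nonsquare: an odd number `t` of pairwise orthogonal planes `⟨v j, T (v j)⟩`
spans an invariant nondegenerate subspace of dimension `2 t` which is not of plus type. -/
theorem ex_minus_abs [Fintype F] [FiniteDimensional F V] (B : V →ₗ[F] V →ₗ[F] F)
    (T : Module.End F V) (h2 : (2 : F) ≠ 0) (hns : ¬ IsSquare (-1 : F))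
    (hsym : ∀ x y, B x y = B y x) (hiso : ∀ x y, B (T x) (T y) = B x y) (hTT : T * T = -1)
    (t : ℕ) (ht : Odd t) (v : Fin t → V) (hv : ∀ j, B (v j) (v j) ≠ 0)
    (hvo : ∀ j k, j ≠ k → B (v j) (v k) = 0 ∧ B (v j) (T (v k)) = 0) :
    ∃ W : Submodule F V, W ∈ T.invtSubmodule ∧ W ⊓ perp B W = ⊥ ∧ finrank F W = 2 * t ∧
      ¬ Plus B W := by
  have hTTv : ∀ x, T (T x) = -x := by
    intro x
    have := congrArg (fun f : Module.End F V => f x) hTT
    simpa using this
  have hself : ∀ x, B x (T x) = 0 := fun x =>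
    Cfsg.Agent.H79.Ev2.self_T_zero B T h2 hsym hiso hTTv x
  -- the family
  let g : Fin 2 → Fin t → V := ![v, fun j => T (v j)]
  let w : Fin (2 * t) → V := fun a => g (finProdFinEquiv.symm a).1 (finProdFinEquiv.symm a).2
  have hg0 : ∀ j, g 0 j = v j := fun j => rfl
  have hg1 : ∀ j, g 1 j = T (v j) := fun j => rfl
  have hwe : ∀ i j, w (finProdFinEquiv (i, j)) = g i j := by
    intro i j
    show g (finProdFinEquiv.symm (finProdFinEquiv (i, j))).1
      (finProdFinEquiv.symm (finProdFinEquiv (i, j))).2 = g i j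
    rw [Equiv.symm_apply_apply]
  have hgo : ∀ i i' : Fin 2, ∀ j j' : Fin t, (i, j) ≠ (i', j') → B (g i j) (g i' j') = 0 := by
    rw [Fin.forall_fin_two]
    refine ⟨?_, ?_⟩ <;> rw [Fin.forall_fin_two] <;> refine ⟨?_, ?_⟩ <;> intro j j' hne
    · rw [hg0, hg0]
      exact (hvo j j' (fun h => hne (by rw [h]))).1
    · rw [hg0, hg1]
      by_cases h : j = j'
      · rw [h]; exact hself _
      · exact (hvo j j' h).2
    · rw [hg1, hg0, hsym]
      by_cases h : j' = j
      · rw [h]; exact hself _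
      · exact (hvo j' j h).2
    · rw [hg1, hg1, hiso]
      exact (hvo j j' (fun h => hne (by rw [h]))).1
  have hgn : ∀ i : Fin 2, ∀ j : Fin t, B (g i j) (g i j) ≠ 0 := by
    rw [Fin.forall_fin_two]
    refine ⟨fun j => ?_, fun j => ?_⟩
    · rw [hg0]; exact hv j
    · rw [hg1, hiso]; exact hv j
  have hwo : ∀ a b, a ≠ b → B (w a) (w b) = 0 := by
    intro a b hab
    apply hgo
    intro h
    apply hab
    apply finProdFinEquiv.symm.injective
    exact h
  have hwn : ∀ a, B (w a) (w a) ≠ 0 := fun a => hgn _ _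
  obtain ⟨-, hfr, hnd⟩ := fin_spanNd.{u, v} F V B hsym (2 * t) w ⟨hwo, hwn⟩
  have hdisc := fin_disc.{u, v} F V B h2 hsym t w hwo hwn
  have hprod : ∏ a, B (w a) (w a) = (∏ j, B (v j) (v j)) * ∏ j, B (v j) (v j) := by
    rw [← Equiv.prod_comp finProdFinEquiv (fun a => B (w a) (w a)), Fintype.prod_prod_type,
      Fin.prod_univ_two]
    congr 1
    · exact Finset.prod_congr rfl fun j _ => by rw [hwe, hg0]
    · exact Finset.prod_congr rfl fun j _ => by rw [hwe, hg1, hiso]
  refine ⟨Submodule.span F (Set.range w), ?_, hnd, hfr, ?_⟩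
  · rw [Module.End.mem_invtSubmodule, ← Submodule.map_le_iff_le_comap, Submodule.map_span_le]
    rintro _ ⟨a, rfl⟩
    obtain ⟨⟨i, j⟩, rfl⟩ := finProdFinEquiv.surjective a
    rw [hwe]
    revert i
    rw [Fin.forall_fin_two]
    refine ⟨?_, ?_⟩
    · rw [hg0, ← hg1, ← hwe]
      exact Submodule.subset_span ⟨_, rfl⟩
    · rw [hg1, hTTv, ← hg0, ← hwe]
      exact Submodule.neg_mem _ (Submodule.subset_span ⟨_, rfl⟩)
  · rw [hdisc, hprod, ht.neg_one_pow]
    rintro ⟨s, hs⟩
    have hP : (∏ j, B (v j) (v j)) ≠ 0 := Finset.prod_ne_zero_iff.mpr fun j _ => hv j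
    apply hns
    refine ⟨s / ∏ j, B (v j) (v j), ?_⟩
    field_simp
    linear_combination hs

end Restrict

/-- EQ-R2: the `r = 2` line of S5988 (closed). -/
theorem r2 : Cfsg.Agent.H42.Eq.StR2.{u} := by
  intro F _ _ d m hodd hd hme hm2 hmd
  have h2 : (2 : F) ≠ 0 := Cfsg.Agent.H49.two_ne_zero_of_odd_card hodd
  obtain ⟨B, hB, hPlus⟩ := brP_bridge fin_brP F d h2
  have : Nonempty (Fin d ⊕ Fin d) := ⟨Sum.inl ⟨0, by omega⟩⟩
  obtain ⟨v₀, hv₀⟩ := hB.exists_nonsing
  have hfin := finrank_plus F d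
  have hm1 := isSquare_neg_one_iff_mod4 hodd
  have h2sq := isSquare_two_iff_mod8 hodd
  have hq2 := Nat.odd_iff.mp hodd
  have hcard : Fintype.card (Fin d ⊕ Fin d) / 2 = d := by simp; omega
  have hplus : ∀ W : Submodule F (Fin d ⊕ Fin d → F),
      Cfsg.Geo.IsPlusTypeOn (Cfsg.quadFormPlus d F) W ↔ Plus B W := by
    intro W
    constructor
    · rintro ⟨U, hUW, hU, hdim⟩
      exact ⟨U, hUW, (hB.ti_iff h2 U).mpr hU, hdim⟩
    · rintro ⟨U, hUW, hU, hdim⟩
      exact ⟨U, hUW, (hB.ti_iff h2 U).mp hU, hdim⟩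
  constructor
  · -- (⇒)
    intro hall
    by_contra hcon
    have hcase : Even d ∨ Fintype.card F % 8 = 1 := by
      by_contra h
      rw [not_or] at h
      exact hcon (Or.inr ⟨Nat.not_even_iff_odd.mp h.1, h.2⟩)
    have hex : ∃ x : Matrix.GeneralLinearGroup (Fin d ⊕ Fin d) F,
        x ∈ Cfsg.isometryGroup F (Cfsg.quadFormPlus d F) ∧
        (x : Matrix (Fin d ⊕ Fin d) (Fin d ⊕ Fin d) F) *
          (x : Matrix (Fin d ⊕ Fin d) (Fin d ⊕ Fin d) F) = -1 ∧
        ∀ z : F, (x : Matrix (Fin d ⊕ Fin d) (Fin d ⊕ Fin d) F) ≠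
          z • (1 : Matrix (Fin d ⊕ Fin d) (Fin d ⊕ Fin d) F) := by
      by_cases hsq : IsSquare (-1 : F)
      · obtain ⟨s, hs⟩ := hsq
        exact exJ_diag F d (by omega) h2 s hs.symm
      · have hde : Even d := by
          rcases hcase with h | h
          · exact h
          · exfalso; apply hsq; rw [hm1]; omega
        obtain ⟨x, hx, hxx⟩ := fin_exJPlus F d (Or.inl hde)
        exact ⟨x, hx, hxx, nonscalar_of_J hsq x hxx⟩
    obtain ⟨x, hx, hxx, hxns⟩ := hex
    have hxΩ : x ∈ Cfsg.Geo.omegaGL (Cfsg.quadFormPlus d F) := by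
      apply (fin_jSpin F _ (Cfsg.Agent.H49.QP d F) h2 hB.polar_nd x hx hxx).mpr
      rw [hcard, isSquare_two_pow_iff h2]
      rcases hcase with h | h
      · exact Or.inl h
      · right; rw [h2sq]; exact Or.inl h
    obtain ⟨W, ⟨hWm, hWnd, hWminus⟩, hWinv⟩ := hall x hxΩ (J_sq_scalar x hxx) hxns
    have hinv := (map_le_iff_invt _ _).mp hWinv
    apply hWminus
    rw [hplus]
    have hTiso := (hB.iso x).mp hx
    by_cases hsq : IsSquare (-1 : F)
    · exact plus_of_sq B _ h2 hsq hB.symm hTiso (toLin_J x hxx) W hinv ((hB.ndW W).mp hWnd)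
        (by rw [hWm]; exact hme)
    · have hq3 : Fintype.card F % 4 = 3 := by
        rw [hm1] at hsq; omega
      have hde : Even d := by
        rcases hcase with h | h
        · exact h
        · omega
      have hm4 : m % 4 = 0 := by
        by_contra h
        apply hcon
        left
        refine ⟨hde, hq3, ?_⟩
        obtain ⟨k, hk⟩ := hme
        omega
      exact plus_of_nsq B _ h2 hsq hB.symm hTiso (toLin_J x hxx) W hinv ((hB.ndW W).mp hWnd)
        (by rw [hWm]; exact hm4)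
  · -- (⇐)
    intro hrhs x hxΩ hz hns
    have hx := omega_isom _ hxΩ
    have hTiso : ∀ u v, B (Matrix.toLin' (x : Matrix (Fin d ⊕ Fin d) (Fin d ⊕ Fin d) F) u)
        (Matrix.toLin' (x : Matrix (Fin d ⊕ Fin d) (Fin d ⊕ Fin d) F) v) = B u v :=
      (hB.iso x).mp hx
    rcases sq_cases (Cfsg.Agent.H49.QP d F) v₀ hv₀ x hx hz with ⟨hx2, hTT⟩ | ⟨hxx, hTT⟩
    · obtain ⟨W, hWinv, hWnd, hWm, hWpl⟩ :=
        Cfsg.Agent.H18.Oh.inv fin_ortho fin_disc fin_subDisc F _ B _ h2 hB.symm hB.nd hTiso hTT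
          m False hme hm2 (by rw [hfin]; omega)
      refine ⟨W, ⟨hWm, (hB.ndW W).mpr hWnd, ?_⟩, (map_le_iff_invt _ _).mpr hWinv⟩
      rw [hplus]
      exact fun h => hWpl.mp h
    · rcases hrhs with ⟨hde, hq3, hm4⟩ | ⟨hdo, hq1⟩
      · have hsq : ¬ IsSquare (-1 : F) := by rw [hm1]; omega
        obtain ⟨n, v, hn, hvQ, hvo, -⟩ :=
          fin_jPlanes F _ (Cfsg.Agent.H49.QP d F) h2 hB.polar_nd x hx hxx
        have hnd : n = d := by
          simp at hn; omega
        have hle : m / 2 ≤ n := by omega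
        have hto : Odd (m / 2) := by
          rw [Nat.odd_iff]; omega
        obtain ⟨W, hWinv, hWnd, hWm, hWpl⟩ := ex_minus_abs B
          (Matrix.toLin' (x : Matrix (Fin d ⊕ Fin d) (Fin d ⊕ Fin d) F)) h2 hsq hB.symm hTiso
          hTT (m / 2) hto (fun j => v (Fin.castLE hle j))
          (fun j => by
            rw [hB.diag]
            exact mul_ne_zero h2 (hvQ _))
          (fun j k hjk => by
            have hne : Fin.castLE hle j ≠ Fin.castLE hle k :=
              fun h => hjk (Fin.castLE_injective hle h)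
            have := hvo _ _ hne
            rw [hB.pol, hB.pol, Matrix.toLin'_apply]
            exact this)
        refine ⟨W, ⟨by rw [hWm]; omega, (hB.ndW W).mpr hWnd, ?_⟩,
          (map_le_iff_invt _ _).mpr hWinv⟩
        rw [hplus]
        exact hWpl
      · exfalso
        have hsq2 : IsSquare (2 : F) := by
          have := (fin_jSpin F _ (Cfsg.Agent.H49.QP d F) h2 hB.polar_nd x hx hxx).mp hxΩ
          rw [hcard, isSquare_two_pow_iff h2] at this
          rcases this with h | h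
          · exact absurd h (Nat.not_even_iff_odd.mpr hdo)
          · exact h
        have hns' : ¬ IsSquare (-1 : F) := by
          rw [hm1]; rw [h2sq] at hsq2; omega
        exact fin_noPlus F d h2 hdo hns' x hx hxx

example : Cfsg.Agent.H42.Eq.StR2.{u} := r2

end Cfsg.Agent.H75.Eq
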