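import Mathlib
import Cfsg.Agent.H39.FcDefs

/-!
# Piece S4291-FIVE: normal subgroups of `A₄`, `S₄`, `A₅`, `S₅` with cyclic Sylow 2-subgroups are
trivial; subgroups of the four-group with cyclic Sylow 2-subgroups have order at most 2.
-/

set_option autoImplicit false
set_option linter.style.haveILetI false

namespace Cfsg.Agent.H75.Fc

open Cfsg.Agent.H39.Fc
open Equiv Equiv.Perm

universe u

section Key

/-- the closure of two commuting involutions has exponent two. -/
theorem closure_pair_sq {G : Type*} [Group G] {x z : G} (hx : x * x = 1) (hz : z * z = 1)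
    (hc : x * z = z * x) : ∀ a ∈ Subgroup.closure ({x, z} : Set G), a * a = 1 := by
  have h1 : ∀ b ∈ Subgroup.closure ({x, z} : Set G), Commute b x ∧ Commute b z := by
    intro b hb
    induction hb using Subgroup.closure_induction with
    | mem y hy =>
      rcases hy with rfl | rfl
      · exact ⟨Commute.refl _, hc⟩
      · exact ⟨hc.symm, Commute.refl _⟩
    | one => exact ⟨Commute.one_left _, Commute.one_left _⟩
    | mul a b _ _ iha ihb => exact ⟨iha.1.mul_left ihb.1, iha.2.mul_left ihb.2⟩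
    | inv a _ iha => exact ⟨iha.1.inv_left, iha.2.inv_left⟩
  have hcomm : ∀ a ∈ Subgroup.closure ({x, z} : Set G),
      ∀ b ∈ Subgroup.closure ({x, z} : Set G), Commute a b := by
    intro a ha b hb
    induction ha using Subgroup.closure_induction with
    | mem y hy =>
      rcases hy with rfl | rfl
      · exact ((h1 b hb).1).symm
      · exact ((h1 b hb).2).symm
    | one => exact Commute.one_left _
    | mul a c _ _ iha ihc => exact iha.mul_left ihc
    | inv a _ iha => exact iha.inv_left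
  intro a ha
  induction ha using Subgroup.closure_induction with
  | mem y hy =>
    rcases hy with rfl | rfl
    · exact hx
    · exact hz
  | one => exact one_mul 1
  | mul a b ha hb iha ihb =>
    have hcab : a * b = b * a := hcomm a ha b hb
    calc a * b * (a * b) = a * (b * a) * b := by group
      _ = a * (a * b) * b := by rw [hcab]
      _ = (a * a) * (b * b) := by group
      _ = 1 := by rw [iha, ihb, one_mul]
  | inv a ha iha =>
    calc a⁻¹ * a⁻¹ = (a * a)⁻¹ := by group
      _ = 1 := by rw [iha, inv_one]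

/-- a subgroup with cyclic Sylow 2-subgroups does not contain two distinct commuting
involutions. -/
theorem no_two_invol {G H : Type*} [Group G] [Finite G] [Group H] (φ : G →* H)
    (hφ : Function.Injective φ) (M : Subgroup G) (hM : ∀ P : Sylow 2 M, IsCyclic P) (u v : H)
    (hu : u ∈ M.map φ) (hv : v ∈ M.map φ) (hu1 : u ≠ 1) (hv1 : v ≠ 1) (huv : u ≠ v)
    (hu2 : u * u = 1) (hv2 : v * v = 1) (hc : u * v = v * u) : False := by
  classical
  obtain ⟨u₀, hu₀M, rfl⟩ := Subgroup.mem_map.mp hu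
  obtain ⟨v₀, hv₀M, rfl⟩ := Subgroup.mem_map.mp hv
  obtain ⟨x, hx⟩ : ∃ x : ↥M, x = ⟨u₀, hu₀M⟩ := ⟨_, rfl⟩
  obtain ⟨z, hz⟩ : ∃ z : ↥M, z = ⟨v₀, hv₀M⟩ := ⟨_, rfl⟩
  have hx1 : x ≠ 1 := by
    intro h
    apply hu1
    rw [hx] at h
    have h0 : u₀ = 1 := congrArg Subtype.val h
    rw [h0, map_one]
  have hz1 : z ≠ 1 := by
    intro h
    apply hv1
    rw [hz] at h
    have h0 : v₀ = 1 := congrArg Subtype.val h
    rw [h0, map_one]
  have hxz : x ≠ z := by
    intro h
    apply huv
    rw [hx, hz] at h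
    have h0 : u₀ = v₀ := congrArg Subtype.val h
    rw [h0]
  have hx2 : x * x = 1 := by
    rw [hx]
    apply Subtype.ext
    apply hφ
    simpa using hu2
  have hz2 : z * z = 1 := by
    rw [hz]
    apply Subtype.ext
    apply hφ
    simpa using hv2
  have hcxz : x * z = z * x := by
    rw [hx, hz]
    apply Subtype.ext
    apply hφ
    simpa using hc
  have hH : IsPGroup 2 (Subgroup.closure ({x, z} : Set ↥M)) := by
    intro g
    refine ⟨1, ?_⟩
    apply Subtype.ext
    have h0 := closure_pair_sq hx2 hz2 hcxz g g.2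
    simp [pow_two, h0]
  obtain ⟨P, hP⟩ := hH.exists_le_sylow
  haveI := hM P
  have hxP : x ∈ P := hP (Subgroup.subset_closure (by simp))
  have hzP : z ∈ P := hP (Subgroup.subset_closure (by simp))
  haveI : Fintype ↥P := Fintype.ofFinite _
  have hle := IsCyclic.card_pow_eq_one_le (α := ↥P) (n := 2) (by norm_num)
  have h3 : ({1, ⟨x, hxP⟩, ⟨z, hzP⟩} : Finset ↥P) ⊆
      Finset.univ.filter (fun a : ↥P => a ^ 2 = 1) := by
    intro a ha
    simp only [Finset.mem_insert, Finset.mem_singleton] at ha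
    rw [Finset.mem_filter]
    refine ⟨Finset.mem_univ _, ?_⟩
    rcases ha with rfl | rfl | rfl
    · simp
    · apply Subtype.ext; simp [pow_two, hx2]
    · apply Subtype.ext; simp [pow_two, hz2]
  have hcard3 : ({1, ⟨x, hxP⟩, ⟨z, hzP⟩} : Finset ↥P).card = 3 := by
    rw [Finset.card_insert_of_notMem, Finset.card_insert_of_notMem, Finset.card_singleton]
    · simp only [Finset.mem_singleton]
      intro h
      exact hxz (congrArg Subtype.val h)
    · simp only [Finset.mem_insert, Finset.mem_singleton]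
      rintro (h | h)
      · exact hx1 (congrArg Subtype.val h).symm
      · exact hz1 (congrArg Subtype.val h).symm
  have h4 := Finset.card_le_card h3
  omega

end Key

section Small

/-- `(0 1)(2 3)`. -/
abbrev dA : Perm (Fin 4) := swap 0 1 * swap 2 3
/-- `(0 2)(1 3)`. -/
abbrev dB : Perm (Fin 4) := swap 0 2 * swap 1 3
/-- a 3-cycle. -/
abbrev cC : Perm (Fin 4) := swap 0 1 * swap 1 2
/-- `(0 1)(2 3)` on five points. -/
abbrev eA : Perm (Fin 5) := swap 0 1 * swap 2 3
/-- `(0 2)(1 3)` on five points. -/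
abbrev eB : Perm (Fin 5) := swap 0 2 * swap 1 3

set_option maxRecDepth 100000 in
theorem s4_decide : ∀ g : Perm (Fin 4), g ≠ 1 →
    ∃ a ∈ [1, cC, cC * cC], ∃ b ∈ [1, dA, dB, dA * dB], ∃ a' ∈ [1, cC, cC * cC],
      a' * (g * ((a * b) * g⁻¹ * (a * b)⁻¹)) * a'⁻¹ = dA := by
  decide

theorem s4_conj : cC * dA * cC⁻¹ = dB ∨ cC⁻¹ * dA * cC⁻¹⁻¹ = dB := by decide

set_option maxRecDepth 100000 in
theorem s5_decide : ∀ g : Perm (Fin 5), g ≠ 1 →
    g * swap 0 1 ≠ swap 0 1 * g ∨ g * swap 1 2 ≠ swap 1 2 * g ∨ g * swap 2 3 ≠ swap 2 3 * g ∨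
      g * swap 3 4 ≠ swap 3 4 * g := by
  decide

theorem s4core (M' : Subgroup (Perm (Fin 4)))
    (hnorm : ∀ x : Perm (Fin 4), sign x = 1 → ∀ m ∈ M', x * m * x⁻¹ ∈ M') (hne : M' ≠ ⊥) :
    dA ∈ M' ∧ dB ∈ M' := by
  obtain ⟨⟨g, hg⟩, hg1⟩ := (Subgroup.ne_bot_iff_exists_ne_one).mp hne
  have hg1' : (g : Perm (Fin 4)) ≠ 1 := fun h => hg1 (Subtype.ext h)
  obtain ⟨a, ha, b, hb, a', ha', h⟩ := s4_decide g hg1'
  have hsa : ∀ a ∈ [1, cC, cC * cC], sign a = 1 := by decide
  have hsb : ∀ b ∈ [1, dA, dB, dA * dB], sign b = 1 := by decide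
  have hdA : dA ∈ M' := by
    rw [← h]
    apply hnorm a' (hsa a' ha')
    apply M'.mul_mem hg
    apply hnorm (a * b) (by rw [Perm.sign_mul, hsa a ha, hsb b hb]; rfl)
    exact M'.inv_mem hg
  refine ⟨hdA, ?_⟩
  rcases s4_conj with h2 | h2
  · rw [← h2]; exact hnorm cC (by decide) dA hdA
  · rw [← h2]; exact hnorm cC⁻¹ (by decide) dA hdA

end Small

theorem five_a (M : Subgroup (alternatingGroup (Fin 4))) (hMn : M.Normal)
    (hM : ∀ P : Sylow 2 M, IsCyclic P) : M = ⊥ := by
  by_contra hne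
  have hne' : M.map (alternatingGroup (Fin 4)).subtype ≠ ⊥ := by
    rw [Ne, Subgroup.map_eq_bot_iff_of_injective _ (Subgroup.subtype_injective _)]
    exact hne
  have hnorm : ∀ x : Perm (Fin 4), sign x = 1 →
      ∀ m ∈ M.map (alternatingGroup (Fin 4)).subtype,
        x * m * x⁻¹ ∈ M.map (alternatingGroup (Fin 4)).subtype := by
    intro x hx m hm
    obtain ⟨m₀, hm₀, rfl⟩ := Subgroup.mem_map.mp hm
    exact Subgroup.mem_map.mpr ⟨⟨x, mem_alternatingGroup.mpr hx⟩ * m₀ *
      ⟨x, mem_alternatingGroup.mpr hx⟩⁻¹, hMn.conj_mem m₀ hm₀ _, rfl⟩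
  obtain ⟨h1, h2⟩ := s4core _ hnorm hne'
  exact no_two_invol (alternatingGroup (Fin 4)).subtype (Subgroup.subtype_injective _) M hM
    dA dB h1 h2 (by decide) (by decide) (by decide) (by decide) (by decide) (by decide)

theorem five_b (M : Subgroup (Perm (Fin 4))) (hMn : M.Normal)
    (hM : ∀ P : Sylow 2 M, IsCyclic P) : M = ⊥ := by
  by_contra hne
  obtain ⟨h1, h2⟩ := s4core M (fun x _ m hm => hMn.conj_mem m hm x) hne
  exact no_two_invol (MonoidHom.id _) Function.injective_id M hM
    dA dB (by rw [Subgroup.map_id]; exact h1) (by rw [Subgroup.map_id]; exact h2)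
    (by decide) (by decide) (by decide) (by decide) (by decide) (by decide)

theorem five_c (M : Subgroup (alternatingGroup (Fin 5))) (hMn : M.Normal)
    (hM : ∀ P : Sylow 2 M, IsCyclic P) : M = ⊥ := by
  haveI : IsSimpleGroup (alternatingGroup (Fin 5)) := alternatingGroup.isSimpleGroup (by simp)
  rcases hMn.eq_bot_or_eq_top with h | h
  · exact h
  · exfalso
    subst h
    have hmem : ∀ x : Perm (Fin 5), sign x = 1 →
        x ∈ (⊤ : Subgroup (alternatingGroup (Fin 5))).map (alternatingGroup (Fin 5)).subtype := by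
      intro x hx
      exact Subgroup.mem_map.mpr ⟨⟨x, mem_alternatingGroup.mpr hx⟩, Subgroup.mem_top _, rfl⟩
    exact no_two_invol (alternatingGroup (Fin 5)).subtype (Subgroup.subtype_injective _) ⊤ hM
      eA eB (hmem _ (by decide)) (hmem _ (by decide))
      (by decide) (by decide) (by decide) (by decide) (by decide) (by decide)

theorem five_d (M : Subgroup (Perm (Fin 5))) (hMn : M.Normal)
    (hM : ∀ P : Sylow 2 M, IsCyclic P) : M = ⊥ := by
  by_contra hne
  obtain ⟨⟨g, hg⟩, hg1'⟩ := (Subgroup.ne_bot_iff_exists_ne_one).mp hne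
  have hg1 : g ≠ 1 := fun h => hg1' (Subtype.ext h)
  obtain ⟨x, hx⟩ : ∃ x : Perm (Fin 5), g * x ≠ x * g := by
    rcases s5_decide g hg1 with h | h | h | h
    exacts [⟨_, h⟩, ⟨_, h⟩, ⟨_, h⟩, ⟨_, h⟩]
  obtain ⟨k, hk⟩ : ∃ k, k = g * (x * g⁻¹ * x⁻¹) := ⟨_, rfl⟩
  have hkM : k ∈ M := by
    rw [hk]; exact M.mul_mem hg (hMn.conj_mem _ (M.inv_mem hg) x)
  have hks : sign k = 1 := by
    rw [hk]
    rcases Int.units_eq_one_or (sign g) with h1 | h1 <;>
      rcases Int.units_eq_one_or (sign x) with h2 | h2 <;>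
      simp [Perm.sign_mul, Perm.sign_inv, h1, h2]
  have hk1 : k ≠ 1 := by
    intro h
    apply hx
    rw [hk] at h
    calc g * x = (g * (x * g⁻¹ * x⁻¹)) * (x * g) := by group
      _ = x * g := by rw [h, one_mul]
  haveI : IsSimpleGroup (alternatingGroup (Fin 5)) := alternatingGroup.isSimpleGroup (by simp)
  have hn : (M.subgroupOf (alternatingGroup (Fin 5))).Normal := hMn.subgroupOf _
  rcases hn.eq_bot_or_eq_top with h | h
  · have h0 : (⟨k, mem_alternatingGroup.mpr hks⟩ : alternatingGroup (Fin 5)) ∈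
        M.subgroupOf (alternatingGroup (Fin 5)) := Subgroup.mem_subgroupOf.mpr hkM
    rw [h, Subgroup.mem_bot] at h0
    exact hk1 (congrArg Subtype.val h0)
  · rw [Subgroup.subgroupOf_eq_top] at h
    have hmem : ∀ x : Perm (Fin 5), sign x = 1 → x ∈ M.map (MonoidHom.id _) := by
      intro x hx
      rw [Subgroup.map_id]
      exact h (mem_alternatingGroup.mpr hx)
    exact no_two_invol (MonoidHom.id _) Function.injective_id M hM
      eA eB (hmem _ (by decide)) (hmem _ (by decide))
      (by decide) (by decide) (by decide) (by decide) (by decide) (by decide)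

theorem five_e (M : Subgroup (DihedralGroup 2)) (hM : ∀ P : Sylow 2 M, IsCyclic P) :
    Nat.card M ≤ 2 := by
  by_contra hcon
  rw [not_le] at hcon
  have hdvd : Nat.card M ∣ Nat.card (DihedralGroup 2) := Subgroup.card_subgroup_dvd_card M
  rw [DihedralGroup.nat_card] at hdvd
  have h4 : Nat.card M = 4 := by
    have hle := Nat.le_of_dvd (by norm_num) hdvd
    obtain ⟨m, hm⟩ : ∃ m, m = Nat.card M := ⟨_, rfl⟩
    rw [← hm] at hdvd hle hcon ⊢
    interval_cases m
    · norm_num at hdvd
    · rfl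
  have htop : M = ⊤ := Subgroup.eq_top_of_card_eq M (by rw [h4, DihedralGroup.nat_card])
  subst htop
  have hmem : ∀ x : DihedralGroup 2,
      x ∈ (⊤ : Subgroup (DihedralGroup 2)).map (MonoidHom.id _) := by
    intro x
    rw [Subgroup.map_id]
    exact Subgroup.mem_top x
  exact no_two_invol (MonoidHom.id _) Function.injective_id ⊤ hM
    (DihedralGroup.r 1) (DihedralGroup.sr 0) (hmem _) (hmem _)
    (by decide) (by decide) (by decide) (by decide) (by decide) (by decide)

/-- **Piece FIVE**. -/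
theorem stFive : StFive := ⟨five_a, five_b, five_c, five_d, five_e⟩

end Cfsg.Agent.H75.Fc
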