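import Mathlib
import Cfsg.Agent.H39.FcDefs

/-!
# Piece S4291-GEN2: the Sylow 2-subgroups of a Frobenius complement are generated by two elements.
-/

set_option autoImplicit false
set_option linter.style.haveILetI false

namespace Cfsg.Agent.H75.Fc

open Cfsg.Agent.H39.Fc

universe u

theorem stGen2 : StGen2.{u} := by
  intro G _ _ hax
  obtain ⟨S⟩ : Nonempty (Sylow 2 G) := inferInstance
  rcases hax.syl 2 (S : Subgroup G) S.2 with hcyc | ⟨-, n, hn, ⟨e⟩⟩
  · obtain ⟨g, hg⟩ := hcyc.exists_generator
    refine ⟨(g : G), (g : G), S, ?_⟩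
    apply le_antisymm
    · intro x hx
      have h1 := hg ⟨x, hx⟩
      rw [Subgroup.mem_zpowers_iff] at h1
      obtain ⟨k, hk⟩ := h1
      have h2 : ((g : G)) ^ k = x := by
        have := congrArg (fun y : ↥(S : Subgroup G) => (y : G)) hk
        simpa using this
      rw [← h2]
      exact Subgroup.zpow_mem _ (Subgroup.subset_closure (by simp)) k
    · rw [Subgroup.closure_le]
      intro x hx
      have hxg : x = (g : G) := by
        rcases hx with h | h
        · exact h
        · exact h
      rw [hxg]; exact g.2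
  · haveI : NeZero (2 ^ n) := ⟨by positivity⟩
    obtain ⟨u, hu⟩ : ∃ u : ↥(S : Subgroup G), u = e.symm (QuaternionGroup.a 1) := ⟨_, rfl⟩
    obtain ⟨v, hv⟩ : ∃ v : ↥(S : Subgroup G), v = e.symm (QuaternionGroup.xa 0) := ⟨_, rfl⟩
    refine ⟨(u : G), (v : G), S, ?_⟩
    have huC : (u : G) ∈ Subgroup.closure ({(u : G), (v : G)} : Set G) :=
      Subgroup.subset_closure (by simp)
    have hvC : (v : G) ∈ Subgroup.closure ({(u : G), (v : G)} : Set G) :=
      Subgroup.subset_closure (by simp)
    have hq : ∀ q : QuaternionGroup (2 ^ n),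
        ((e.symm q : ↥(S : Subgroup G)) : G) ∈ Subgroup.closure ({(u : G), (v : G)} : Set G) := by
      have ha : ∀ i : ZMod (2 * 2 ^ n), ((e.symm (QuaternionGroup.a i) : ↥(S : Subgroup G)) : G) ∈
          Subgroup.closure ({(u : G), (v : G)} : Set G) := by
        intro i
        have h1 : (QuaternionGroup.a i : QuaternionGroup (2 ^ n)) =
            (QuaternionGroup.a 1) ^ i.val := by
          rw [QuaternionGroup.a_one_pow, ZMod.natCast_zmod_val]
        rw [h1, map_pow, ← hu, Subgroup.coe_pow]
        exact Subgroup.pow_mem _ huC _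
      intro q
      cases q with
      | a i => exact ha i
      | xa i =>
        have h1 : (QuaternionGroup.xa i : QuaternionGroup (2 ^ n)) =
            QuaternionGroup.xa 0 * QuaternionGroup.a i := by
          rw [QuaternionGroup.xa_mul_a, zero_add]
        rw [h1, map_mul, ← hv, Subgroup.coe_mul]
        exact Subgroup.mul_mem _ hvC (ha i)
    apply le_antisymm
    · intro x hx
      have h1 := hq (e ⟨x, hx⟩)
      simpa using h1
    · rw [Subgroup.closure_le]
      intro x hx
      rcases hx with h | h
      · rw [h]; exact u.2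
      · rw [h]; exact v.2

end Cfsg.Agent.H75.Fc
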