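import Mathlib
import Cfsg.Agent.H39.FcDefs

/-!
# Piece S4291-SYLMAP: cyclic Sylow 2-subgroups pass to images.
-/

set_option autoImplicit false
set_option linter.style.haveILetI false

namespace Cfsg.Agent.H75.Fc

open Cfsg.Agent.H39.Fc

universe u

theorem stSylMap : StSylMap.{u} := by
  intro G _ _ X _ _ f N hN P
  obtain ⟨Q, rfl⟩ := Sylow.mapSurjective_surjective (f.subgroupMap_surjective N) 2 P
  haveI := hN Q
  exact isCyclic_of_surjective _ ((f.subgroupMap N).subgroupMap_surjective Q)

end Cfsg.Agent.H75.Fc
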