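import Mathlib

set_option autoImplicit false
set_option linter.style.haveILetI false
set_option warn.classDefReducibility false

namespace Cfsg.Agent.H75

theorem hensel_sq_step (p : ℕ) (n : ℕ) (hn : 1 ≤ n) (a b : ℤ)
    (h : (p : ℤ) ^ n ∣ a ^ 2 + b ^ 2 + 1) (ha : IsCoprime (2 * a) (p : ℤ)) :
    ∃ a' : ℤ, (p : ℤ) ^ (n + 1) ∣ a' ^ 2 + b ^ 2 + 1 ∧ IsCoprime (2 * a') (p : ℤ) := by
  obtain ⟨s, hs⟩ := h
  obtain ⟨x, y, hxy⟩ := ha
  obtain ⟨m, rfl⟩ : ∃ m, n = m + 1 := ⟨n - 1, by omega⟩
  refine ⟨a + (-s * x) * (p : ℤ) ^ (m + 1), ?_, ?_⟩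
  · refine ⟨s * y + (s * x) ^ 2 * (p : ℤ) ^ m, ?_⟩
    have e1 : (a + (-s * x) * (p : ℤ) ^ (m + 1)) ^ 2 + b ^ 2 + 1
        = (a ^ 2 + b ^ 2 + 1) + 2 * a * (-s * x) * (p : ℤ) ^ (m + 1)
          + (s * x) ^ 2 * (p : ℤ) ^ (m + 1) * (p : ℤ) ^ (m + 1) := by ring
    rw [e1, hs]
    have e2 : (1 : ℤ) - x * (2 * a) = y * p := by linarith
    have e3 : (p : ℤ) ^ (m + 1) * s + 2 * a * (-s * x) * (p : ℤ) ^ (m + 1)
        = (p : ℤ) ^ (m + 1) * s * (1 - x * (2 * a)) := by ring
    rw [e3, e2]
    ring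
  · refine ⟨x, y + 2 * x * s * x * (p : ℤ) ^ m, ?_⟩
    have : x * (2 * (a + -s * x * (p : ℤ) ^ (m + 1))) + (y + 2 * x * s * x * (p : ℤ) ^ m) * p
        = x * (2 * a) + y * p := by ring
    rw [this, hxy]

theorem exists_sq_add_sq_prime_pow (p : ℕ) [Fact p.Prime] (hp : p ≠ 2) (n : ℕ) (hn : 1 ≤ n) :
    ∃ a b : ℤ, (p : ℤ) ^ n ∣ a ^ 2 + b ^ 2 + 1 ∧ IsCoprime (2 * a) (p : ℤ) := by
  have hpp : p.Prime := Fact.out
  induction n, hn using Nat.le_induction with
  | base =>
    obtain ⟨a₀, b₀, hab⟩ := ZMod.sq_add_sq p (-1)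
    -- one of them is nonzero
    have key : ∀ a b : ZMod p, a ^ 2 + b ^ 2 = -1 → a ≠ 0 →
        ∃ a' b' : ℤ, (p : ℤ) ^ 1 ∣ a' ^ 2 + b' ^ 2 + 1 ∧ IsCoprime (2 * a') (p : ℤ) := by
      intro a b hab ha
      refine ⟨(a.val : ℤ), (b.val : ℤ), ?_, ?_⟩
      · rw [pow_one, ← ZMod.intCast_zmod_eq_zero_iff_dvd]
        push_cast
        rw [ZMod.natCast_zmod_val, ZMod.natCast_zmod_val, hab]; ring
      · have h2 : IsCoprime (2 : ℤ) (p : ℤ) := by
          have : Nat.Coprime 2 p := (Nat.coprime_primes Nat.prime_two hpp).mpr (Ne.symm hp)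
          exact_mod_cast Nat.isCoprime_iff_coprime.mpr this
        have h3 : IsCoprime ((a.val : ℕ) : ℤ) (p : ℤ) := by
          rw [Nat.isCoprime_iff_coprime]
          apply Nat.Coprime.symm
          rw [Nat.Prime.coprime_iff_not_dvd hpp]
          intro hdvd
          apply ha
          have := (ZMod.natCast_eq_zero_iff a.val p).mpr hdvd
          rwa [ZMod.natCast_zmod_val] at this
        exact h2.mul_left h3
    by_cases ha : a₀ = 0
    · have hb : b₀ ≠ 0 := by
        intro hb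
        rw [ha, hb] at hab
        have h1 : (1 : ZMod p) = 0 := by
          have := congrArg (fun t => -t) hab
          simpa using this.symm
        exact one_ne_zero h1
      exact key b₀ a₀ (by rw [add_comm]; exact hab) hb
    · exact key a₀ b₀ hab ha
  | succ n hn ih =>
    obtain ⟨a, b, h1, h2⟩ := ih
    obtain ⟨a', h3, h4⟩ := hensel_sq_step p n hn a b h1 h2
    exact ⟨a', b, h3, h4⟩

/-- `-1` is a sum of two squares modulo every odd number -/
theorem exists_sq_add_sq_eq_neg_one (k : ℕ) (hk : Odd k) : ∃ a b : ZMod k, a ^ 2 + b ^ 2 = -1 := by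
  induction k using Nat.recOnPosPrimePosCoprime with
  | prime_pow p n hp hn =>
    haveI : Fact p.Prime := ⟨hp⟩
    have hp2 : p ≠ 2 := by
      rintro rfl
      have : Even (2 ^ n) := (Nat.even_pow' hn.ne').mpr even_two
      exact (Nat.not_odd_iff_even.mpr this) hk
    obtain ⟨a, b, h1, -⟩ := exists_sq_add_sq_prime_pow p hp2 n hn
    refine ⟨(a : ZMod (p ^ n)), (b : ZMod (p ^ n)), ?_⟩
    have h2 : ((a ^ 2 + b ^ 2 + 1 : ℤ) : ZMod (p ^ n)) = 0 := by
      rw [ZMod.intCast_zmod_eq_zero_iff_dvd]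
      exact_mod_cast h1
    push_cast at h2
    linear_combination h2
  | zero => exact absurd hk (by decide)
  | one => exact ⟨0, 0, Subsingleton.elim _ _⟩
  | coprime a b ha hb hab iha ihb =>
    obtain ⟨hoa, hob⟩ := Nat.odd_mul.mp hk
    obtain ⟨a₁, b₁, h1⟩ := iha hoa
    obtain ⟨a₂, b₂, h2⟩ := ihb hob
    let e := ZMod.chineseRemainder hab
    refine ⟨e.symm (a₁, a₂), e.symm (b₁, b₂), ?_⟩
    apply e.injective
    rw [map_add, map_pow, map_pow, map_neg, map_one, e.apply_symm_apply, e.apply_symm_apply]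
    ext
    · simpa using h1
    · simpa using h2

/-- real part of the powers of the imaginary unit -/
def cz (i : ZMod (2 * 2)) : ℤ := match i.val with | 0 => 1 | 1 => 0 | 2 => -1 | _ => 0
/-- imaginary part of the powers of the imaginary unit -/
def dz (i : ZMod (2 * 2)) : ℤ := match i.val with | 0 => 0 | 1 => 1 | 2 => 0 | _ => -1

theorem cz_add : ∀ i j : ZMod (2 * 2), cz (i + j) = cz i * cz j - dz i * dz j := by decide
theorem dz_add : ∀ i j : ZMod (2 * 2), dz (i + j) = cz i * dz j + dz i * cz j := by decide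
theorem cz_sub : ∀ i j : ZMod (2 * 2), cz (j - i) = cz j * cz i + dz j * dz i := by decide
theorem dz_sub : ∀ i j : ZMod (2 * 2), dz (j - i) = dz j * cz i - cz j * dz i := by decide
theorem cz_two_add : ∀ i j : ZMod (2 * 2),
    cz (((2 : ℕ) : ZMod (2 * 2)) + j - i) = -(cz j * cz i + dz j * dz i) := by decide
theorem dz_two_add : ∀ i j : ZMod (2 * 2),
    dz (((2 : ℕ) : ZMod (2 * 2)) + j - i) = -(dz j * cz i - cz j * dz i) := by decide
theorem cz_zero : cz 0 = 1 := by decide
theorem dz_zero : dz 0 = 0 := by decide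
theorem cz_two : cz 2 = -1 := by decide
theorem dz_two : dz 2 = 0 := by decide

/-- the action of the quaternion group on the plane `R × R` given by `a² + b² = -1` -/
def q8act {R : Type*} [CommRing R] (a b : R) : QuaternionGroup 2 → R × R → R × R
  | .a i, v => ((cz i : R) * v.1 + (dz i : R) * (a * v.1 + b * v.2),
                (cz i : R) * v.2 + (dz i : R) * (b * v.1 - a * v.2))
  | .xa i, v => (-((cz i : R) * v.2 + (dz i : R) * (b * v.1 - a * v.2)),
                 (cz i : R) * v.1 + (dz i : R) * (a * v.1 + b * v.2))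

theorem q8act_mul {R : Type*} [CommRing R] (a b : R) (hab : a ^ 2 + b ^ 2 = -1)
    (g h : QuaternionGroup 2) (v : R × R) : q8act a b (g * h) v = q8act a b g (q8act a b h v) := by
  obtain ⟨v, w⟩ := v
  rcases g with i | i <;> rcases h with j | j
  · rw [QuaternionGroup.a_mul_a]
    simp only [q8act]
    have h1 := congrArg (Int.cast : ℤ → R) (cz_add i j)
    have h2 := congrArg (Int.cast : ℤ → R) (dz_add i j)
    push_cast at h1 h2
    rw [h1, h2]
    ext
    · simp only; grind
    · simp only; grind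
  · rw [QuaternionGroup.a_mul_xa]
    simp only [q8act]
    have h1 := congrArg (Int.cast : ℤ → R) (cz_sub i j)
    have h2 := congrArg (Int.cast : ℤ → R) (dz_sub i j)
    push_cast at h1 h2
    rw [h1, h2]
    ext
    · simp only; grind
    · simp only; grind
  · rw [QuaternionGroup.xa_mul_a]
    simp only [q8act]
    have h1 := congrArg (Int.cast : ℤ → R) (cz_add i j)
    have h2 := congrArg (Int.cast : ℤ → R) (dz_add i j)
    push_cast at h1 h2
    rw [h1, h2]
    ext
    · simp only; grind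
    · simp only; grind
  · rw [QuaternionGroup.xa_mul_xa]
    simp only [q8act]
    have h1 := congrArg (Int.cast : ℤ → R) (cz_two_add i j)
    have h2 := congrArg (Int.cast : ℤ → R) (dz_two_add i j)
    simp only [Int.cast_neg, Int.cast_add, Int.cast_sub, Int.cast_mul] at h1 h2
    rw [h1, h2]
    ext
    · simp only; grind
    · simp only; grind

theorem q8act_one {R : Type*} [CommRing R] (a b : R) (v : R × R) : q8act a b 1 v = v := by
  obtain ⟨v, w⟩ := v
  rw [QuaternionGroup.one_def]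
  simp [q8act, cz_zero, dz_zero]

theorem q8act_two {R : Type*} [CommRing R] (a b : R) (v : R × R) :
    q8act a b (QuaternionGroup.a 2) v = -v := by
  obtain ⟨v, w⟩ := v
  simp [q8act, cz_two, dz_two]

theorem q8_cases : ∀ g : QuaternionGroup 2, g ≠ 1 →
    g = QuaternionGroup.a 2 ∨ g * g = QuaternionGroup.a 2 := by
  decide

/-- the `DistribMulAction` of the quaternion group on `R × R` -/
def q8DistribMulAction {R : Type*} [CommRing R] (a b : R) (hab : a ^ 2 + b ^ 2 = -1) :
    DistribMulAction (QuaternionGroup 2) (R × R) where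
  smul := q8act a b
  one_smul := q8act_one a b
  mul_smul := q8act_mul a b hab
  smul_zero := by
    rintro (i | i)
    · change q8act a b _ (0, 0) = (0, 0)
      simp [q8act]
    · change q8act a b _ (0, 0) = (0, 0)
      simp [q8act]
  smul_add := by
    rintro (i | i) ⟨v, w⟩ ⟨v', w'⟩
    · change q8act a b _ (v + v', w + w') = q8act a b _ (v, w) + q8act a b _ (v', w')
      simp only [q8act, Prod.mk_add_mk]
      ext
      · simp only; ring
      · simp only; ring
    · change q8act a b _ (v + v', w + w') = q8act a b _ (v, w) + q8act a b _ (v', w')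
      simp only [q8act, Prod.mk_add_mk]
      ext
      · simp only; ring
      · simp only; ring

theorem q8act_fpf {R : Type*} [CommRing R] (a b : R) (hab : a ^ 2 + b ^ 2 = -1)
    (h2 : ∀ x : R, 2 * x = 0 → x = 0) (g : QuaternionGroup 2) (hg : g ≠ 1) (v : R × R)
    (hv : q8act a b g v = v) : v = 0 := by
  have key : -v = v := by
    rcases q8_cases g hg with rfl | hgg
    · rw [q8act_two] at hv; exact hv
    · have h3 : q8act a b (g * g) v = v := by rw [q8act_mul a b hab, hv, hv]
      rw [hgg, q8act_two] at h3; exact h3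
  obtain ⟨v, w⟩ := v
  have h4 : -v = v := congrArg Prod.fst key
  have h5 : -w = w := congrArg Prod.snd key
  have hv0 : v = 0 := h2 v (by linear_combination -h4)
  have hw0 : w = 0 := h2 w (by linear_combination -h5)
  rw [hv0, hw0]; rfl

/-- a finite abelian group of odd order with two anticommuting automorphisms of square `-1`
has square order -/
theorem isSquare_card_of_quaternion_structure {V : Type*} [AddCommGroup V] [Finite V]
    (hodd : Odd (Nat.card V)) (J₁ J₂ : V →+ V) (h11 : ∀ v, J₁ (J₁ v) = -v)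
    (h22 : ∀ v, J₂ (J₂ v) = -v) (h12 : ∀ v, J₂ (J₁ v) = -J₁ (J₂ v)) :
    IsSquare (Nat.card V) := by
  obtain ⟨a₀, b₀, hab₀⟩ := exists_sq_add_sq_eq_neg_one (Nat.card V) hodd
  obtain ⟨a, b, hab⟩ : ∃ a b : ℤ, (Nat.card V : ℤ) ∣ a ^ 2 + b ^ 2 + 1 := by
    haveI : NeZero (Nat.card V) := ⟨Nat.card_pos.ne'⟩
    refine ⟨(a₀.val : ℤ), (b₀.val : ℤ), ?_⟩
    rw [← ZMod.intCast_zmod_eq_zero_iff_dvd]
    push_cast
    rw [ZMod.natCast_zmod_val, ZMod.natCast_zmod_val, hab₀]; ring
  have hm : ∀ (z : ℤ) (v : V), ((Nat.card V : ℤ) ∣ z) → z • v = 0 := by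
    rintro z v ⟨c, rfl⟩
    rw [mul_comm, mul_smul, natCast_zsmul, card_nsmul_eq_zero', smul_zero]
  let u : V →+ V := a • J₁ + b • (J₁.comp J₂)
  have hu : ∀ v, u v = a • J₁ v + b • J₁ (J₂ v) := fun v => rfl
  have huu : ∀ v, u (u v) = v := by
    intro v
    have h3 := hm _ v hab
    simp only [hu, map_add, map_zsmul, h11, h22, h12, map_neg, smul_neg, neg_neg]
    have h4 : (a ^ 2 + b ^ 2 + 1 : ℤ) • v = a • a • v + b • b • v + v := by
      rw [add_smul, add_smul, one_smul, sq, sq, mul_smul, mul_smul]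
    rw [h4] at h3
    have h5 : v = -(a • a • v + b • b • v) := by
      rw [eq_neg_iff_add_eq_zero, add_comm]; exact h3
    conv_rhs => rw [h5]
    module
  have huJ : ∀ v, u (J₂ v) = -J₂ (u v) := by
    intro v
    simp only [hu, map_add, map_zsmul, h11, h22, h12, map_neg, smul_neg, neg_neg]
    module
  let Ep : AddSubgroup V := (u - AddMonoidHom.id V).ker
  let Em : AddSubgroup V := (u + AddMonoidHom.id V).ker
  have hEp : ∀ v, v ∈ Ep ↔ u v = v := by
    intro v
    simp only [Ep, AddMonoidHom.mem_ker, AddMonoidHom.sub_apply, AddMonoidHom.id_apply,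
      sub_eq_zero]
  have hEm : ∀ v, v ∈ Em ↔ u v = -v := by
    intro v
    simp only [Em, AddMonoidHom.mem_ker, AddMonoidHom.add_apply, AddMonoidHom.id_apply,
      add_eq_zero_iff_eq_neg]
  have hrange : (u + AddMonoidHom.id V).range = Ep := by
    ext e
    rw [hEp, AddMonoidHom.mem_range]
    constructor
    · rintro ⟨v, rfl⟩
      simp only [AddMonoidHom.add_apply, AddMonoidHom.id_apply, map_add, huu]
      abel
    · intro he
      obtain ⟨c, hc⟩ := hodd
      refine ⟨((c : ℤ) + 1) • e, ?_⟩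
      simp only [AddMonoidHom.add_apply, AddMonoidHom.id_apply, map_zsmul, he]
      have h6 : ((Nat.card V : ℕ) : ℤ) • e = 0 := hm _ e dvd_rfl
      rw [hc] at h6
      push_cast at h6
      have h7 : ((c : ℤ) + 1) • (e + e) = (2 * (c : ℤ) + 1) • e + e := by module
      rw [h7, h6, zero_add]
  have hJinj : Function.Injective J₂ := by
    intro v w hvw
    have := congrArg J₂ hvw
    rw [h22, h22] at this
    exact neg_injective this
  have hcard1 : Nat.card Ep ≤ Nat.card Em := by
    refine Nat.card_le_card_of_injective (fun v : Ep => (⟨J₂ v.1, ?_⟩ : Em)) ?_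
    · rw [hEm, huJ, (hEp v.1).mp v.2]
    · intro v w hvw
      exact Subtype.ext (hJinj (congrArg Subtype.val hvw))
  have hcard2 : Nat.card Em ≤ Nat.card Ep := by
    refine Nat.card_le_card_of_injective (fun v : Em => (⟨J₂ v.1, ?_⟩ : Ep)) ?_
    · rw [hEp, huJ, (hEm v.1).mp v.2, map_neg, neg_neg]
    · intro v w hvw
      exact Subtype.ext (hJinj (congrArg Subtype.val hvw))
  have hcard3 : Nat.card V = Nat.card Em * Nat.card Ep := by
    rw [← hrange, ← AddSubgroup.index_ker, AddSubgroup.card_mul_index]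
  refine ⟨Nat.card Ep, ?_⟩
  rw [hcard3, le_antisymm hcard2 hcard1]

/-- multiplicative version -/
theorem isSquare_card_of_quaternion_structure_mul {N : Type*} [CommGroup N] [Finite N]
    (hodd : Odd (Nat.card N)) (J₁ J₂ : N →* N) (h11 : ∀ v, J₁ (J₁ v) = v⁻¹)
    (h22 : ∀ v, J₂ (J₂ v) = v⁻¹) (h12 : ∀ v, J₂ (J₁ v) = (J₁ (J₂ v))⁻¹) :
    IsSquare (Nat.card N) :=
  isSquare_card_of_quaternion_structure (V := Additive N) hodd (MonoidHom.toAdditive J₁)
    (MonoidHom.toAdditive J₂) h11 h22 h12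

end Cfsg.Agent.H75
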