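import Mathlib
import Cfsg.Agent.H75.FrobeniusThm
import Cfsg.Agent.H75.Q8Act

set_option autoImplicit false
set_option linter.style.haveILetI false
set_option linter.unusedSectionVars false
set_option linter.unusedVariables false

namespace Cfsg.Agent.H75

section FrobKernel

variable {L : Type*} [Group L] [Finite L]

/-- in a Frobenius group, a kernel element commuting with a nontrivial complement element is
trivial -/
theorem frob_centralizer {H N : Subgroup L} (hH : Cfsg.IsFrobeniusComplement H)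
    (hc : Subgroup.IsComplement' N H) {h n : L} (hh : h ∈ H) (hh1 : h ≠ 1) (hn : n ∈ N)
    (hcomm : n⁻¹ * h * n = h) : n = 1 := by
  by_contra hn1
  have hnH : n ∉ H := fun hnH => hn1 (Subgroup.disjoint_def.mp hc.disjoint hn hnH)
  exact hh1 (frob_ti hH hnH hh (by rw [hcomm]; exact hh))

/-- an involution of a Frobenius complement inverts the kernel -/
theorem frob_involution_inverts {H N : Subgroup L} (hH : Cfsg.IsFrobeniusComplement H)
    (hN : N.Normal) (hc : Subgroup.IsComplement' N H) {t : L} (ht : t ∈ H) (ht1 : t ≠ 1)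
    (ht2 : t * t = 1) : ∀ n ∈ N, t * n * t⁻¹ = n⁻¹ := by
  have htinv : t⁻¹ = t := inv_eq_of_mul_eq_one_left ht2
  let φ : N → N := fun n =>
    ⟨(n : L)⁻¹ * (t * n * t⁻¹), N.mul_mem (N.inv_mem n.2) (hN.conj_mem n n.2 t)⟩
  have hinj : Function.Injective φ := by
    intro n m hnm
    have h1 : (n : L)⁻¹ * (t * n * t⁻¹) = (m : L)⁻¹ * (t * m * t⁻¹) := congrArg Subtype.val hnm
    have h3 : (n : L)⁻¹ * t * n = (m : L)⁻¹ * t * m := by
      have := congrArg (fun z => z * t) h1
      simpa [mul_assoc] using this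
    have h2 : ((n : L) * (m : L)⁻¹)⁻¹ * t * ((n : L) * (m : L)⁻¹) = t := by
      calc ((n : L) * (m : L)⁻¹)⁻¹ * t * ((n : L) * (m : L)⁻¹)
          = m * ((n : L)⁻¹ * t * n) * (m : L)⁻¹ := by group
        _ = m * ((m : L)⁻¹ * t * m) * (m : L)⁻¹ := by rw [h3]
        _ = t := by group
    have h4 := frob_centralizer hH hc ht ht1 (N.mul_mem n.2 (N.inv_mem m.2)) h2
    exact Subtype.ext (mul_inv_eq_one.mp h4)
  have hsurj := Finite.injective_iff_surjective.mp hinj
  intro z hz
  obtain ⟨n, hn⟩ := hsurj ⟨z, hz⟩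
  have hz' : z = (n : L)⁻¹ * (t * n * t⁻¹) := (congrArg Subtype.val hn).symm
  rw [hz', htinv]
  have h5 : ((n : L)⁻¹ * (t * n * t))⁻¹ = t⁻¹ * (n : L)⁻¹ * t⁻¹ * n := by group
  rw [h5, htinv]
  calc t * ((n : L)⁻¹ * (t * n * t)) * t = t * (n : L)⁻¹ * t * n * (t * t) := by group
    _ = t * (n : L)⁻¹ * t * n := by rw [ht2, mul_one]

theorem frob_kernel_comm_of_involution {H N : Subgroup L} (hH : Cfsg.IsFrobeniusComplement H)
    (hN : N.Normal) (hc : Subgroup.IsComplement' N H) {t : L} (ht : t ∈ H) (ht1 : t ≠ 1)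
    (ht2 : t * t = 1) : ∀ n ∈ N, ∀ m ∈ N, n * m = m * n := by
  have hinv := frob_involution_inverts hH hN hc ht ht1 ht2
  intro n hn m hm
  have h1 := hinv (n * m) (N.mul_mem hn hm)
  have h2 := hinv n hn
  have h3 := hinv m hm
  have h4 : t * (n * m) * t⁻¹ = (t * n * t⁻¹) * (t * m * t⁻¹) := by group
  rw [h4, h2, h3, mul_inv_rev] at h1
  have h5 := congrArg (fun z => z⁻¹) h1
  simp only [mul_inv_rev, inv_inv] at h5
  exact h5.symm

theorem frob_kernel_odd_of_involution {H N : Subgroup L} (hH : Cfsg.IsFrobeniusComplement H)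
    (hN : N.Normal) (hc : Subgroup.IsComplement' N H) {t : L} (ht : t ∈ H) (ht1 : t ≠ 1)
    (ht2 : t * t = 1) : Odd (Nat.card N) := by
  have hinv := frob_involution_inverts hH hN hc ht ht1 ht2
  rw [← Nat.not_even_iff_odd]
  intro heven
  haveI : Fact (Nat.Prime 2) := ⟨Nat.prime_two⟩
  obtain ⟨n, hn⟩ := exists_prime_orderOf_dvd_card' (G := N) 2 heven.two_dvd
  have hn1 : n ≠ 1 := by
    intro h
    rw [h, orderOf_one] at hn
    omega
  have hn2 : (n : L) * n = 1 := by
    have h1 : n ^ 2 = 1 := by rw [← hn]; exact pow_orderOf_eq_one n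
    have h2 := congrArg Subtype.val h1
    simpa [sq] using h2
  have hninv : (n : L)⁻¹ = n := inv_eq_of_mul_eq_one_left hn2
  have h3 := hinv n n.2
  rw [hninv] at h3
  have h4 : (n : L)⁻¹ * t * n = t := by
    have h5 : t * n = n * t := by
      have := congrArg (fun z => z * t) h3
      simpa [mul_assoc] using this
    rw [mul_assoc, h5, ← mul_assoc, inv_mul_cancel, one_mul]
  have h6 := frob_centralizer hH hc ht ht1 n.2 h4
  exact hn1 (Subtype.ext h6)

/-- If a Frobenius complement contains a copy of the quaternion group (generated by `x`, `y`),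
then the kernel has odd square order. -/
theorem frobenius_kernel_odd_square {H : Subgroup L} (hH : Cfsg.IsFrobeniusComplement H)
    (x y : L) (hx : x ∈ H) (hy : y ∈ H) (hx2 : x * x ≠ 1) (hx4 : x * x * (x * x) = 1)
    (hxy : y * y = x * x) (hyx : y * x = x * y * (x * x)) :
    Odd (Nat.card (Cfsg.frobeniusKernel H)) ∧ IsSquare (Nat.card (Cfsg.frobeniusKernel H)) := by
  obtain ⟨N, hNset, hNn, hc⟩ := frobenius_theorem H hH
  have hcard : Nat.card (Cfsg.frobeniusKernel H) = Nat.card N := by rw [← hNset]; rfl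
  rw [hcard]
  have htH : x * x ∈ H := H.mul_mem hx hx
  have hinv := frob_involution_inverts hH hNn hc htH hx2 hx4
  have hcomm := frob_kernel_comm_of_involution hH hNn hc htH hx2 hx4
  have hodd := frob_kernel_odd_of_involution hH hNn hc htH hx2 hx4
  refine ⟨hodd, ?_⟩
  letI : CommGroup N :=
    { (inferInstance : Group N) with
      mul_comm := fun a b => Subtype.ext (hcomm a a.2 b b.2) }
  let J₁ : N →* N :=
    { toFun := fun n => ⟨x * n * x⁻¹, hNn.conj_mem n n.2 x⟩
      map_one' := by apply Subtype.ext; simp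
      map_mul' := by intro a b; apply Subtype.ext; simp }
  let J₂ : N →* N :=
    { toFun := fun n => ⟨y * n * y⁻¹, hNn.conj_mem n n.2 y⟩
      map_one' := by apply Subtype.ext; simp
      map_mul' := by intro a b; apply Subtype.ext; simp }
  apply isSquare_card_of_quaternion_structure_mul hodd J₁ J₂
  · intro v
    apply Subtype.ext
    change x * (x * (v : L) * x⁻¹) * x⁻¹ = (v : L)⁻¹
    rw [← hinv v v.2]; group
  · intro v
    apply Subtype.ext
    change y * (y * (v : L) * y⁻¹) * y⁻¹ = (v : L)⁻¹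
    rw [← hinv v v.2, ← hxy]; group
  · intro v
    apply Subtype.ext
    change y * (x * (v : L) * x⁻¹) * y⁻¹ = (x * (y * (v : L) * y⁻¹) * x⁻¹)⁻¹
    have h1 : y * (x * (v : L) * x⁻¹) * y⁻¹ = (y * x) * v * (y * x)⁻¹ := by group
    have h2 : (x * (y * (v : L) * y⁻¹) * x⁻¹)⁻¹ = (x * y) * (v : L)⁻¹ * (x * y)⁻¹ := by group
    rw [h1, h2, hyx, ← hinv v v.2]; group

end FrobKernel

/-- the quaternion group is a Frobenius complement with kernel of order `k²`, for every odd
`k > 1` -/
theorem q8_frobenius_of_odd (k : ℕ) (hk : Odd k) (hk1 : 1 < k) :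
    ∃ (L : Type) (_ : Group L) (_ : Finite L) (H : Subgroup L), Cfsg.IsFrobeniusComplement H ∧
      Nonempty (H ≃* QuaternionGroup 2) ∧ Nat.card (Cfsg.frobeniusKernel H) = k * k := by
  obtain ⟨a, b, hab⟩ := exists_sq_add_sq_eq_neg_one k hk
  haveI : Fact (1 < k) := ⟨hk1⟩
  haveI : NeZero k := ⟨by omega⟩
  letI := q8DistribMulAction a b hab
  have h2 : ∀ x : ZMod k, 2 * x = 0 → x = 0 := by
    intro x hx
    have hcop : Nat.Coprime 2 k := Nat.coprime_two_left.mpr hk
    have hu : IsUnit ((2 : ℕ) : ZMod k) := (ZMod.isUnit_iff_coprime 2 k).mpr hcop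
    have hu' : IsUnit (2 : ZMod k) := by exact_mod_cast hu
    exact (hu'.mul_right_eq_zero).mp hx
  obtain ⟨L, hL, hLf, H, hH, ⟨e⟩, hcard⟩ :=
    frobenius_of_fpf_distrib (V := ZMod k × ZMod k) (H := QuaternionGroup 2) (by
      intro g hg v hv
      exact q8act_fpf a b hab h2 g hg v hv)
  refine ⟨L, hL, hLf, H, hH, ⟨e.symm⟩, ?_⟩
  rw [hcard, Nat.card_prod, Nat.card_zmod]

end Cfsg.Agent.H75
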