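import Mathlib
import Cfsg.Agent.H79.HcDefs
import Cfsg.Agent.H80.PSolvable
import Cfsg.Agent.S0586

/-!
# Piece S4440-P14 (`StmtGT`): the group-theoretic dichotomy, from `StmtGT0`, `StmtGTa`,
`StmtGTb`, `StmtGTc`.
-/

set_option autoImplicit false
set_option linter.style.haveILetI false

namespace Cfsg.Agent.H75.Hc

open Cfsg Cfsg.Agent.H79.Hc

universe u

theorem stmtGT (p : ℕ) [Fact p.Prime] (h0 : StmtGT0.{u} p) (ha : StmtGTa.{u} p)
    (hb : StmtGTb.{u} p) (hc : StmtGTc.{u} p) : StmtGT.{u} p := by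
  intro Γ _ _ hsolv hZ hpdvd
  have hp : p.Prime := Fact.out
  haveI hZn : (pPrimeCore p Γ).Normal := H80.pPrimeCore_normal p Γ
  haveI hP₀n : (pCore p Γ).Normal := H80.pCore_normal p Γ
  obtain ⟨h01, h02⟩ := h0 Γ hsolv hZ
  have hPp : IsPGroup p (pCore p Γ) := H80.pCore_isPGroup p Γ
  have hP₀ne : pCore p Γ ≠ ⊥ := by
    intro hbot
    have h1 : (⊤ : Subgroup Γ) ≤ pPrimeCore p Γ := by
      intro c _
      have hc' : c ∈ Subgroup.centralizer ((pCore p Γ : Subgroup Γ) : Set Γ) := by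
        rw [Subgroup.mem_centralizer_iff]
        intro v hv
        rw [hbot, SetLike.mem_coe, Subgroup.mem_bot] at hv
        rw [hv, one_mul, mul_one]
      have h2 := h01 hc'
      rw [hbot, bot_sup_eq] at h2
      exact h2
    have h2 : pPrimeCore p Γ = ⊤ := top_le_iff.mp h1
    have h3 := H80.pPrimeCore_coprime p Γ
    rw [h2, Subgroup.card_top] at h3
    exact (Nat.Prime.coprime_iff_not_dvd hp).mp h3.symm hpdvd
  obtain ⟨Φ, hΦ⟩ : ∃ Φ : Subgroup Γ,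
      Φ = (frattini ↥(pCore p Γ)).map (pCore p Γ).subtype := ⟨_, rfl⟩
  haveI hΦn : Φ.Normal := by rw [hΦ]; exact ConjAct.normal_of_characteristic_of_normal
  have hΦle : Φ ≤ pCore p Γ := by rw [hΦ]; exact Subgroup.map_subtype_le _
  by_cases hΦbot : Φ = ⊥
  swap
  · refine ⟨Φ, hΦn, hΦbot, hPp.to_le hΦle, Or.inl ?_⟩
    exact ha Γ Φ hsolv hZ h02 hΦ
  have hfr : frattini ↥(pCore p Γ) = ⊥ := by
    rw [hΦ] at hΦbot
    exact (Subgroup.map_eq_bot_iff_of_injective _ (Subgroup.subtype_injective _)).mp hΦbot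
  have hcommP : IsMulCommutative ↥(pCore p Γ) :=
    Cfsg.Agent.S0586.comm_of_nilpotent_of_frattini_bot hPp.isNilpotent hfr
  have hab : ∀ a ∈ pCore p Γ, ∀ b ∈ pCore p Γ, a * b = b * a := by
    intro a ha' b hb'
    have h1 := hcommP.is_comm.comm (⟨a, ha'⟩ : ↥(pCore p Γ)) ⟨b, hb'⟩
    exact congrArg Subtype.val h1
  haveI hTn : (pPrimeCore p (Γ ⧸ pCore p Γ)).Normal := H80.pPrimeCore_normal p _
  obtain ⟨M, hM⟩ : ∃ M : Subgroup Γ, M = (pPrimeCore p (Γ ⧸ pCore p Γ)).comap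
      (QuotientGroup.mk' (pCore p Γ)) := ⟨_, rfl⟩
  haveI hMn : M.Normal := by rw [hM]; infer_instance
  obtain ⟨W, hWdef⟩ : ∃ W : Subgroup Γ,
      W = pCore p Γ ⊓ Subgroup.centralizer (M : Set Γ) := ⟨_, rfl⟩
  haveI hWn : W.Normal := by rw [hWdef]; infer_instance
  have hWle : W ≤ pCore p Γ := by rw [hWdef]; exact inf_le_left
  have hWmem : ∀ w : Γ, w ∈ W ↔ w ∈ pCore p Γ ∧ ∀ m : Γ,
      QuotientGroup.mk' (pCore p Γ) m ∈ pPrimeCore p (Γ ⧸ pCore p Γ) → m * w = w * m := by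
    intro w
    rw [hWdef, Subgroup.mem_inf, Subgroup.mem_centralizer_iff]
    constructor
    · rintro ⟨h1, h2⟩
      refine ⟨h1, fun m hm => h2 m ?_⟩
      rw [hM]; exact hm
    · rintro ⟨h1, h2⟩
      refine ⟨h1, fun m hm => h2 m ?_⟩
      rw [hM] at hm; exact hm
  by_cases hWbot : W = ⊥
  · refine ⟨pCore p Γ, hP₀n, hP₀ne, hPp, Or.inr ?_⟩
    apply hc Γ hsolv hZ h01 hab
    intro w hw hwm
    have h1 : w ∈ W := (hWmem w).mpr ⟨hw, hwm⟩
    rw [hWbot, Subgroup.mem_bot] at h1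
    exact h1
  · refine ⟨W, hWn, hWbot, hPp.to_le hWle, Or.inl ?_⟩
    exact hb Γ W hsolv hZ h01 hab hWle (fun w hw m hm => ((hWmem w).mp hw).2 m hm)

end Cfsg.Agent.H75.Hc
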