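import Mathlib
import Cfsg.Agent.H79.HcDefs
import Cfsg.Agent.H80.PSolvable

/-!
# Piece S4440-P10 (`StmtGT0`): Hall–Higman with a central `p'`-core.
-/

set_option autoImplicit false
set_option linter.style.haveILetI false

namespace Cfsg.Agent.H75.Hc

open Cfsg Cfsg.Agent.H79.Hc

universe u

theorem stmtGT0 (p : ℕ) [Fact p.Prime] : StmtGT0.{u} p := by
  intro Γ _ _ hZn hsolv hZ
  have hp : p.Prime := Fact.out
  have hπ : Function.Surjective (QuotientGroup.mk' (pPrimeCore p Γ)) :=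
    QuotientGroup.mk'_surjective _
  have hZc : (Nat.card (pPrimeCore p Γ)).Coprime p := H80.pPrimeCore_coprime p Γ
  have hTp : IsPGroup p (pCore p (Γ ⧸ pPrimeCore p Γ)) := H80.pCore_isPGroup p _
  haveI hTn : (pCore p (Γ ⧸ pPrimeCore p Γ)).Normal := H80.pCore_normal p _
  haveI hP₀n : (pCore p Γ).Normal := H80.pCore_normal p Γ
  obtain ⟨S⟩ : Nonempty (Sylow p Γ) := inferInstance
  have hTS : pCore p (Γ ⧸ pPrimeCore p Γ) ≤
      (S : Subgroup Γ).map (QuotientGroup.mk' (pPrimeCore p Γ)) :=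
    hTp.le_sylow_of_normal (S.mapSurjective hπ)
  obtain ⟨X, hX⟩ : ∃ X : Subgroup Γ, X = (pCore p (Γ ⧸ pPrimeCore p Γ)).comap
      (QuotientGroup.mk' (pPrimeCore p Γ)) := ⟨_, rfl⟩
  have hXn : X.Normal := by rw [hX]; infer_instance
  have hchar : ∀ x : Γ, x ∈ (S : Subgroup Γ) ⊓ X ↔ x ∈ X ∧ ∃ a : ℕ, x ^ (p ^ a) = 1 := by
    intro x
    constructor
    · intro hx
      obtain ⟨hxS, hxX⟩ := Subgroup.mem_inf.mp hx
      refine ⟨hxX, ?_⟩
      obtain ⟨a, ha⟩ := S.2 ⟨x, hxS⟩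
      exact ⟨a, by simpa using congrArg Subtype.val ha⟩
    · rintro ⟨hxX, a, ha⟩
      refine Subgroup.mem_inf.mpr ⟨?_, hxX⟩
      have hxT : QuotientGroup.mk' (pPrimeCore p Γ) x ∈ pCore p (Γ ⧸ pPrimeCore p Γ) := by
        rw [hX] at hxX; exact hxX
      obtain ⟨s, hs, hsx⟩ := Subgroup.mem_map.mp (hTS hxT)
      have hz : s⁻¹ * x ∈ pPrimeCore p Γ := by
        have h0 : QuotientGroup.mk' (pPrimeCore p Γ) (s⁻¹ * x) = 1 := by
          rw [map_mul, map_inv, hsx, inv_mul_cancel]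
        exact (QuotientGroup.eq_one_iff _).mp h0
      have hzc := Subgroup.mem_center_iff.mp (hZ hz)
      obtain ⟨b, hb⟩ := S.2 ⟨s, hs⟩
      have hb' : s ^ (p ^ b) = 1 := by simpa using congrArg Subtype.val hb
      have hcomm : Commute s⁻¹ x := by
        have h1 : x = s * (s⁻¹ * x) := by group
        have h2 : x * s⁻¹ = s⁻¹ * x := by
          calc x * s⁻¹ = s * (s⁻¹ * x) * s⁻¹ := by rw [← h1]
            _ = (s⁻¹ * x) * s * s⁻¹ := by rw [hzc s]
            _ = s⁻¹ * x := by group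
        exact h2.symm
      have hzpow : (s⁻¹ * x) ^ (p ^ (a + b)) = 1 := by
        rw [hcomm.mul_pow, inv_pow, pow_add]
        have h1 : s ^ (p ^ a * p ^ b) = 1 := by rw [mul_comm, pow_mul, hb', one_pow]
        have h2 : x ^ (p ^ a * p ^ b) = 1 := by rw [pow_mul, ha, one_pow]
        rw [h1, h2, inv_one, one_mul]
      have hord1 : orderOf (s⁻¹ * x) ∣ p ^ (a + b) := orderOf_dvd_of_pow_eq_one hzpow
      have hord2 : orderOf (s⁻¹ * x) ∣ Nat.card (pPrimeCore p Γ) := by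
        have h0 := orderOf_dvd_natCard (⟨s⁻¹ * x, hz⟩ : pPrimeCore p Γ)
        rwa [← Subgroup.orderOf_coe] at h0
      have hcop : Nat.Coprime (orderOf (s⁻¹ * x)) (p ^ (a + b)) :=
        Nat.Coprime.pow_right _ (Nat.Coprime.coprime_dvd_left hord2 hZc)
      have hone : s⁻¹ * x = 1 := orderOf_eq_one_iff.mp (Nat.Coprime.eq_one_of_dvd hcop hord1)
      have hxs : x = s := by
        calc x = s * (s⁻¹ * x) := by group
          _ = s := by rw [hone, mul_one]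
      rw [hxs]; exact hs
  have hQn : ((S : Subgroup Γ) ⊓ X).Normal := by
    refine ⟨fun x hx g => ?_⟩
    rw [hchar] at hx ⊢
    obtain ⟨hxX, a, ha⟩ := hx
    refine ⟨hXn.conj_mem x hxX g, a, ?_⟩
    rw [conj_pow, ha, mul_one, mul_inv_cancel]
  have hQP : (S : Subgroup Γ) ⊓ X ≤ pCore p Γ :=
    H80.le_pCore p _ hQn (S.2.to_le inf_le_left)
  have hii : pCore p (Γ ⧸ pPrimeCore p Γ) ≤
      (pCore p Γ).map (QuotientGroup.mk' (pPrimeCore p Γ)) := by
    intro t ht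
    obtain ⟨s, hs, hst⟩ := Subgroup.mem_map.mp (hTS ht)
    refine Subgroup.mem_map.mpr ⟨s, hQP (Subgroup.mem_inf.mpr ⟨hs, ?_⟩), hst⟩
    rw [hX, Subgroup.mem_comap, hst]; exact ht
  refine ⟨?_, hii⟩
  intro c hc
  have hsolv' : IsPSolvable p (Γ ⧸ pPrimeCore p Γ) := H80.isPSolvable_quotient p _ hsolv
  have hcore' : pPrimeCore p (Γ ⧸ pPrimeCore p Γ) = ⊥ := H80.pPrimeCore_quotient_eq_bot p
  have hHH := H80.centralizer_pCore_le p hsolv' hcore'
  have hcT : QuotientGroup.mk' (pPrimeCore p Γ) c ∈ Subgroup.centralizer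
      ((pCore p (Γ ⧸ pPrimeCore p Γ) : Subgroup (Γ ⧸ pPrimeCore p Γ)) :
        Set (Γ ⧸ pPrimeCore p Γ)) := by
    rw [Subgroup.mem_centralizer_iff]
    intro t ht
    obtain ⟨v, hv, hvt⟩ := Subgroup.mem_map.mp (hii ht)
    rw [← hvt, ← map_mul, ← map_mul]
    congr 1
    exact Subgroup.mem_centralizer_iff.mp hc v hv
  obtain ⟨v, hv, hvc⟩ := Subgroup.mem_map.mp (hii (hHH hcT))
  have hz : v⁻¹ * c ∈ pPrimeCore p Γ := by
    have h0 : QuotientGroup.mk' (pPrimeCore p Γ) (v⁻¹ * c) = 1 := by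
      rw [map_mul, map_inv, hvc, inv_mul_cancel]
    exact (QuotientGroup.eq_one_iff _).mp h0
  have hcv : c = v * (v⁻¹ * c) := by group
  rw [hcv]
  exact Subgroup.mul_mem_sup hv hz

end Cfsg.Agent.H75.Hc
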