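import Mathlib
import Cfsg.Agent.H79.HcDefs
import Cfsg.Agent.H80.PSolvable
import Cfsg.Agent.H31.CNSolv

/-!
# Piece S4440-P13 (`StmtGTc`): the split case of the group-theoretic dichotomy.
-/

set_option autoImplicit false
set_option linter.style.haveILetI false

namespace Cfsg.Agent.H75.Hc

open Cfsg Cfsg.Agent.H79.Hc

universe u

theorem stmtGTc (p : ℕ) [Fact p.Prime] : StmtGTc.{u} p := by
  intro Γ _ _ hP₀n hsolv hZ hcent hab hW
  have hp : p.Prime := Fact.out
  have hPp : IsPGroup p (pCore p Γ) := H80.pCore_isPGroup p Γ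
  have hTc : (Nat.card (pPrimeCore p (Γ ⧸ pCore p Γ))).Coprime p := H80.pPrimeCore_coprime p _
  haveI hTn : (pPrimeCore p (Γ ⧸ pCore p Γ)).Normal := H80.pPrimeCore_normal p _
  obtain ⟨M, hM⟩ : ∃ M : Subgroup Γ, M = (pPrimeCore p (Γ ⧸ pCore p Γ)).comap
      (QuotientGroup.mk' (pCore p Γ)) := ⟨_, rfl⟩
  have hMn : M.Normal := by rw [hM]; infer_instance
  have hPM : pCore p Γ ≤ M := by
    rw [hM]
    intro x hx
    rw [Subgroup.mem_comap]
    have h0 : QuotientGroup.mk' (pCore p Γ) x = 1 := (QuotientGroup.eq_one_iff x).mpr hx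
    rw [h0]; exact Subgroup.one_mem _
  have hMcard : Nat.card M =
      Nat.card (pCore p Γ) * Nat.card (pPrimeCore p (Γ ⧸ pCore p Γ)) := by
    rw [hM]; exact H80.card_comap_mk' (pCore p Γ) _
  have hmemM : ∀ m : Γ, m ∈ M ↔
      QuotientGroup.mk' (pCore p Γ) m ∈ pPrimeCore p (Γ ⧸ pCore p Γ) := by
    intro m; rw [hM]; exact Subgroup.mem_comap
  haveI : ((pCore p Γ).subgroupOf M).Normal := hP₀n.subgroupOf M
  have hcard' : Nat.card ((pCore p Γ).subgroupOf M) = Nat.card (pCore p Γ) :=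
    Nat.card_congr (Subgroup.subgroupOfEquivOfLe hPM).toEquiv
  have hidx : ((pCore p Γ).subgroupOf M).index =
      Nat.card (pPrimeCore p (Γ ⧸ pCore p Γ)) := by
    have h1 := Subgroup.card_mul_index ((pCore p Γ).subgroupOf M)
    rw [hcard', hMcard] at h1
    exact Nat.eq_of_mul_eq_mul_left Nat.card_pos h1
  obtain ⟨k, hk⟩ := IsPGroup.iff_card.mp hPp
  have hcop0 : Nat.Coprime (Nat.card (pCore p Γ))
      (Nat.card (pPrimeCore p (Γ ⧸ pCore p Γ))) := by
    rw [hk]; exact Nat.Coprime.pow_left k hTc.symm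
  obtain ⟨H, hH⟩ := Subgroup.exists_right_complement'_of_coprime
    (N := (pCore p Γ).subgroupOf M) (by rw [hcard', hidx]; exact hcop0)
  obtain ⟨N, hN⟩ : ∃ N : Subgroup Γ, N = H.map M.subtype := ⟨_, rfl⟩
  have hNcard : Nat.card N = Nat.card (pPrimeCore p (Γ ⧸ pCore p Γ)) := by
    rw [hN, Subgroup.card_map_of_injective M.subtype_injective]
    have h1 := hH.card_mul_card
    rw [hcard', hMcard] at h1
    exact Nat.eq_of_mul_eq_mul_left Nat.card_pos h1
  have hcop : Nat.Coprime (Nat.card (pCore p Γ)) (Nat.card N) := by rw [hNcard]; exact hcop0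
  have hsup : pCore p Γ ⊔ N = M := by
    have h1 := hH.sup_eq_top
    have h2 := congrArg (Subgroup.map M.subtype) h1
    rw [Subgroup.map_sup, Subgroup.subgroupOf_map_subtype, inf_eq_left.mpr hPM, ← hN,
      ← MonoidHom.range_eq_map, Subgroup.range_subtype] at h2
    exact h2
  have hdisj : pCore p Γ ⊓ N = ⊥ := disjoint_iff.mp (Subgroup.disjoint_of_coprime_natCard hcop)
  have hPs : Group.IsSolvable (pCore p Γ) := by
    haveI := hPp.isNilpotent
    infer_instance
  have hfr := fun g => H31.frattini_sz (pCore p Γ) N hPs (by rw [hsup]; exact hMn) hcop g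
  have hvone : ∀ v ∈ pCore p Γ, v ∈ Subgroup.normalizer (N : Set Γ) → v = 1 := by
    intro v hv hvN
    apply hW v hv
    intro m hm
    rw [← hmemM, ← hsup] at hm
    have hle : pCore p Γ ⊔ N ≤ Subgroup.centralizer ({v} : Set Γ) := by
      apply sup_le
      · intro a ha
        rw [Subgroup.mem_centralizer_iff]
        intro y hy
        rw [Set.mem_singleton_iff] at hy
        rw [hy]; exact hab v hv a ha
      · intro n hn
        rw [Subgroup.mem_centralizer_iff]
        intro y hy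
        rw [Set.mem_singleton_iff] at hy
        rw [hy]
        have h1 : v * n * v⁻¹ ∈ N := (Subgroup.mem_normalizer_iff.mp hvN n).mp hn
        have h2 : v * n * v⁻¹ * n⁻¹ ∈ N := N.mul_mem h1 (N.inv_mem hn)
        have h3 : v * n * v⁻¹ * n⁻¹ ∈ pCore p Γ := by
          have h0 : v * n * v⁻¹ * n⁻¹ = v * (n * v⁻¹ * n⁻¹) := by group
          rw [h0]
          exact (pCore p Γ).mul_mem hv (hP₀n.conj_mem _ ((pCore p Γ).inv_mem hv) n)
        have h4 : v * n * v⁻¹ * n⁻¹ ∈ pCore p Γ ⊓ N := Subgroup.mem_inf.mpr ⟨h3, h2⟩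
        rw [hdisj, Subgroup.mem_bot] at h4
        calc v * n = (v * n * v⁻¹ * n⁻¹) * (n * v) := by group
          _ = n * v := by rw [h4, one_mul]
    have h5 := hle hm
    rw [Subgroup.mem_centralizer_iff] at h5
    exact (h5 v rfl).symm
  refine ⟨Subgroup.normalizer (N : Set Γ), ?_, ?_⟩
  · apply Subgroup.isComplement'_of_disjoint_and_mul_eq_univ
    · rw [disjoint_iff, eq_bot_iff]
      intro x hx
      rw [Subgroup.mem_bot]
      exact hvone x (Subgroup.mem_inf.mp hx).1 (Subgroup.mem_inf.mp hx).2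
    · rw [Set.eq_univ_iff_forall]
      intro g
      obtain ⟨u, hu, hug⟩ := hfr g
      exact ⟨u, hu, u⁻¹ * g, hug, by group⟩
  · intro c hc hcv
    have h1 : c ∈ Subgroup.centralizer ((pCore p Γ : Subgroup Γ) : Set Γ) := by
      rw [Subgroup.mem_centralizer_iff]
      intro v hv
      exact (hcv v hv).symm
    have h2 := hcent h1
    have h2' : c ∈ ((pCore p Γ ⊔ pPrimeCore p Γ : Subgroup Γ) : Set Γ) := h2
    rw [Subgroup.normal_mul] at h2'
    obtain ⟨v, hv, z, hz, hvz0⟩ := h2'
    have hvz : v * z = c := hvz0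
    have hv : v ∈ pCore p Γ := hv
    have hz : z ∈ pPrimeCore p Γ := hz
    have hzN : z ∈ Subgroup.normalizer (N : Set Γ) := by
      rw [Subgroup.mem_normalizer_iff]
      intro n
      have hzc : z * n * z⁻¹ = n := by
        have h0 := Subgroup.mem_center_iff.mp (hZ hz) n
        rw [← h0]; group
      rw [hzc]
    have hvN : v ∈ Subgroup.normalizer (N : Set Γ) := by
      have h0 : v = c * z⁻¹ := by rw [← hvz]; group
      rw [h0]
      exact Subgroup.mul_mem _ hc (Subgroup.inv_mem _ hzN)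
    have hv1 := hvone v hv hvN
    rw [← hvz, hv1, one_mul]; exact hz

end Cfsg.Agent.H75.Hc
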