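import Mathlib
import Cfsg.Agent.H20.HtDefs

/-!
# helper75: piece S3371-NOTCQ of helper20's project (Passman, half-transitive linear `p`-groups)

A faithful irreducible cyclic or (generalized) quaternion group is semiregular on nonzero vectors.
-/

set_option autoImplicit false

namespace Cfsg.Agent.H75.Ht

open Cfsg.Agent.H20.Ht

universe u v

section
variable {q : ℕ} [Fact q.Prime] {V : Type v} [AddCommGroup V] [Module (ZMod q) V]
  {G : Type u} [Group G]

/-- If every conjugate of `g` is `g` or `g⁻¹` and `g` fixes a nonzero vector of a faithful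
irreducible module, then `g = 1`. -/
theorem eq_one_of_weakly_central (ρ : G →* (V ≃ₗ[ZMod q] V)) (hinj : Function.Injective ρ)
    (hirr : Irr ρ) (g : G) (hg : ∀ h : G, h⁻¹ * g * h = g ∨ h⁻¹ * g * h = g⁻¹)
    (v : V) (hv : v ≠ 0) (hgv : ρ g v = v) : g = 1 := by
  let W : Submodule (ZMod q) V :=
    { carrier := {u | ρ g u = u}
      add_mem' := by
        intro a b ha hb
        simp only [Set.mem_ofPred_eq] at *
        rw [map_add, ha, hb]
      zero_mem' := by simp
      smul_mem' := by
        intro c a ha
        simp only [Set.mem_ofPred_eq] at *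
        rw [map_smul, ha] }
  have hW : ∀ u, u ∈ W ↔ ρ g u = u := fun u => Iff.rfl
  have hinv : ∀ h : G, ∀ w ∈ W, ρ h w ∈ W := by
    intro h w hw
    rw [hW] at hw ⊢
    have e1 : g * h = h * (h⁻¹ * g * h) := by group
    have e2 : ρ g (ρ h w) = ρ h (ρ (h⁻¹ * g * h) w) := by
      rw [← LinearEquiv.mul_apply, ← LinearEquiv.mul_apply, ← map_mul, ← map_mul, e1]
    rw [e2]
    rcases hg h with h1 | h1
    · rw [h1, hw]
    · rw [h1]
      congr 1
      have e3 : ρ g⁻¹ (ρ g w) = w := by
        rw [← LinearEquiv.mul_apply, ← map_mul, inv_mul_cancel, map_one]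
        rfl
      rw [hw] at e3
      exact e3
  rcases hirr W hinv with h0 | h1
  · exfalso
    have : v ∈ W := (hW v).mpr hgv
    rw [h0, Submodule.mem_bot] at this
    exact hv this
  · apply hinj
    rw [map_one]
    apply LinearEquiv.ext
    intro u
    have : u ∈ W := by rw [h1]; exact Submodule.mem_top
    exact (hW u).mp this

end

theorem quat_zero_infinite : Infinite (QuaternionGroup 0) := by
  apply Infinite.of_injective
    (fun k : ℤ => (QuaternionGroup.a (show ZMod (2 * 0) from k) : QuaternionGroup 0))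
  intro a b h
  exact QuaternionGroup.a.inj h

theorem notCQ : StmtNotCQ.{u, v} := by
  intro q _ V _ _ _ _ G _ _ ρ p _ _ hinj hirr hns
  unfold Semireg at hns
  push Not at hns
  obtain ⟨v, hv, g, hgv, hg1⟩ := hns
  refine ⟨fun hcyc => ?_, fun n ⟨e⟩ => ?_⟩
  · apply hg1
    apply eq_one_of_weakly_central ρ hinj hirr g _ v hv hgv
    intro h
    left
    obtain ⟨c, hc⟩ := IsCyclic.exists_generator (α := G)
    obtain ⟨a, rfl⟩ := hc g
    obtain ⟨b, rfl⟩ := hc h
    group
  · have hn : n ≠ 0 := by
      rintro rfl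
      have := quat_zero_infinite
      have : Finite (QuaternionGroup 0) := Finite.of_equiv G e.toEquiv
      exact not_finite (QuaternionGroup 0)
    have hwc : ∀ (g' : G) (i : ZMod (2 * n)), e g' = QuaternionGroup.a i →
        ∀ h : G, h⁻¹ * g' * h = g' ∨ h⁻¹ * g' * h = g'⁻¹ := by
      intro g' i hg' h
      rcases heh : e h with j | j
      · left
        apply e.injective
        rw [map_mul, map_mul, map_inv, hg', heh, mul_assoc, inv_mul_eq_iff_eq_mul,
          QuaternionGroup.a_mul_a, QuaternionGroup.a_mul_a, add_comm]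
      · right
        apply e.injective
        have hinv : (QuaternionGroup.a i : QuaternionGroup n)⁻¹ = QuaternionGroup.a (-i) :=
          inv_eq_of_mul_eq_one_right (by
            rw [QuaternionGroup.a_mul_a, add_neg_cancel, QuaternionGroup.a_zero])
        rw [map_mul, map_mul, map_inv, map_inv, hg', heh, mul_assoc, inv_mul_eq_iff_eq_mul,
          hinv, QuaternionGroup.a_mul_xa, QuaternionGroup.xa_mul_a, sub_eq_add_neg]
    rcases heg : e g with i | i
    · exact hg1 (eq_one_of_weakly_central ρ hinj hirr g (hwc g i heg) v hv hgv)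
    · have hg2 : e (g ^ 2) = QuaternionGroup.a (n : ZMod (2 * n)) := by
        rw [map_pow, heg, QuaternionGroup.xa_sq]
      have hg2v : ρ (g ^ 2) v = v := by
        rw [pow_two, map_mul, LinearEquiv.mul_apply, hgv, hgv]
      have h1 := eq_one_of_weakly_central ρ hinj hirr (g ^ 2) (hwc (g ^ 2) _ hg2) v hv hg2v
      rw [h1, map_one, QuaternionGroup.one_def] at hg2
      simp only [QuaternionGroup.a.injEq] at hg2
      have h3 : ((n : ℕ) : ZMod (2 * n)) = 0 := hg2.symm
      rw [ZMod.natCast_eq_zero_iff] at h3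
      have := Nat.le_of_dvd (Nat.pos_of_ne_zero hn) h3
      omega

example : Cfsg.Agent.H20.Ht.StmtNotCQ.{u, v} := notCQ

end Cfsg.Agent.H75.Ht
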