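import Mathlib
import Cfsg.Agent.H20.HtDefs
import Cfsg.Agent.H75.HtNotCQ

/-!
# helper75: piece S3371-FSQ of helper20's project (Passman, half-transitive linear `p`-groups)

With a `CycStr`, every involution outside `A` fixes exactly `√|V|` vectors.
-/

set_option autoImplicit false

namespace Cfsg.Agent.H75.Ht

open Cfsg.Agent.H20.Ht

universe u v

theorem fixSqrt : StmtFixSqrt.{u, v} := by
  intro q _ V _ _ _ _ G _ _ ρ hq hinj hirr A z k hcs t htA ht2
  obtain ⟨-, -, -, hz1, hz2, hzc, hconj, -⟩ := hcs
  have hzz : z * z = 1 := by rw [← pow_two]; exact hz2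
  have htt : t * t = 1 := by rw [← pow_two]; exact ht2
  -- `z` has no nonzero fixed vector
  have hzfix : ∀ v : V, ρ z v = v → v = 0 := by
    intro v hv
    by_contra hv0
    apply hz1
    apply eq_one_of_weakly_central ρ hinj hirr z _ v hv0 hv
    intro h
    left
    rw [mul_assoc, ← hzc h, ← mul_assoc, inv_mul_cancel, one_mul]
  have hzneg : ∀ w : V, ρ z w = -w := by
    intro w
    have h1 : ρ z (w + ρ z w) = w + ρ z w := by
      rw [map_add, ← LinearEquiv.mul_apply, ← map_mul, hzz, map_one]
      show ρ z w + w = w + ρ z w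
      rw [add_comm]
    have h2 := hzfix _ h1
    exact (eq_neg_of_add_eq_zero_right h2)
  have httv : ∀ w : V, ρ t (ρ t w) = w := by
    intro w
    rw [← LinearEquiv.mul_apply, ← map_mul, htt, map_one]
    rfl
  obtain ⟨g, hg⟩ := hconj t htA ht2
  have h2 : (2 : ZMod q) ≠ 0 := by
    intro h
    have h' : ((2 : ℕ) : ZMod q) = 0 := by exact_mod_cast h
    rw [ZMod.natCast_eq_zero_iff] at h'
    rcases (Nat.prime_two.eq_one_or_self_of_dvd q h') with h3 | h3
    · exact (Fact.out : q.Prime).one_lt.ne' h3
    · exact hq h3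
  -- the decomposition `V = Fix t ⊕ Fix (z t)`
  let e1 : V ≃ {v : V // ρ t v = v} × {v : V // ρ t v = -v} :=
    { toFun := fun v => (⟨(2 : ZMod q)⁻¹ • (v + ρ t v), by
          rw [map_smul, map_add, httv, add_comm]⟩,
        ⟨(2 : ZMod q)⁻¹ • (v - ρ t v), by
          rw [map_smul, map_sub, httv, ← smul_neg, neg_sub]⟩)
      invFun := fun p => p.1.1 + p.2.1
      left_inv := by
        intro v
        show (2 : ZMod q)⁻¹ • (v + ρ t v) + (2 : ZMod q)⁻¹ • (v - ρ t v) = v
        rw [← smul_add]
        have : v + ρ t v + (v - ρ t v) = (2 : ZMod q) • v := by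
          rw [two_smul]; abel
        rw [this, smul_smul, inv_mul_cancel₀ h2, one_smul]
      right_inv := by
        rintro ⟨⟨a, ha⟩, ⟨b, hb⟩⟩
        apply Prod.ext
        · apply Subtype.ext
          show (2 : ZMod q)⁻¹ • (a + b + ρ t (a + b)) = a
          have : a + b + ρ t (a + b) = (2 : ZMod q) • a := by
            rw [map_add, ha, hb, two_smul]; abel
          rw [this, smul_smul, inv_mul_cancel₀ h2, one_smul]
        · apply Subtype.ext
          show (2 : ZMod q)⁻¹ • (a + b - ρ t (a + b)) = b
          have : a + b - ρ t (a + b) = (2 : ZMod q) • b := by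
            rw [map_add, ha, hb, two_smul]; abel
          rw [this, smul_smul, inv_mul_cancel₀ h2, one_smul] }
  -- `ρ g` maps `Fix t` onto `Fix (z t)`
  have etg : t * g = z * (g * t) := by
    have h1 : z * t * g = g * t := by rw [← hg]; group
    calc t * g = z * z * (t * g) := by rw [hzz, one_mul]
      _ = z * (z * t * g) := by group
      _ = z * (g * t) := by rw [h1]
  have etg' : t * g⁻¹ = g⁻¹ * (z * t) := by rw [← hg]; group
  let e2 : {v : V // ρ t v = v} ≃ {v : V // ρ t v = -v} :=
    { toFun := fun v => ⟨ρ g v.1, by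
        rw [← LinearEquiv.mul_apply, ← map_mul, etg, map_mul, map_mul, LinearEquiv.mul_apply,
          LinearEquiv.mul_apply, v.2, hzneg]⟩
      invFun := fun w => ⟨ρ g⁻¹ w.1, by
        rw [← LinearEquiv.mul_apply, ← map_mul, etg', map_mul, map_mul, LinearEquiv.mul_apply,
          LinearEquiv.mul_apply, w.2, hzneg, neg_neg]⟩
      left_inv := by
        intro v
        apply Subtype.ext
        show ρ g⁻¹ (ρ g v.1) = v.1
        rw [← LinearEquiv.mul_apply, ← map_mul, inv_mul_cancel, map_one]
        rfl
      right_inv := by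
        intro w
        apply Subtype.ext
        show ρ g (ρ g⁻¹ w.1) = w.1
        rw [← LinearEquiv.mul_apply, ← map_mul, mul_inv_cancel, map_one]
        rfl }
  refine ⟨Nat.card {v : V // ρ t v = v}, ?_, rfl⟩
  rw [Nat.card_congr e1, Nat.card_prod, ← Nat.card_congr e2, sq]

example : Cfsg.Agent.H20.Ht.StmtFixSqrt.{u, v} := fixSqrt

end Cfsg.Agent.H75.Ht
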