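import Mathlib
import Cfsg.Agent.H86.NdDefs
import Cfsg.Agent.H89.Ev2SpanNd
import Cfsg.Agent.H89.Ev2DiscInv
import Cfsg.Agent.H91.Ev2UnipBase
/-!
ND-DISCPERP (helper86's S5989 / S5991 team project): `disc W · disc W^⊥ ≡ disc V` modulo
squares.
-/
set_option autoImplicit false

namespace Cfsg.Agent.H75.Nd

open Cfsg.Agent.H45 Cfsg.Agent.H42.Spd Cfsg.Agent.H42.Ti Cfsg.Agent.H14.Ot Cfsg.Agent.H95.Oh
  Cfsg.Agent.H86.Ev2 Cfsg.Agent.H86.Nd Module

universe u v

/-- ND-DISCPERP. -/
theorem discPerp : StDiscPerp.{u, v} := by
  intro F _ V _ _ _ B hsym hnd W hW n w hw hwW n' w' hw' hw'W N u hu huT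
  -- the concatenated family
  have hwmem : ∀ i, w i ∈ W := fun i => by
    rw [← hwW]; exact Submodule.subset_span ⟨i, rfl⟩
  have hw'mem : ∀ i, w' i ∈ perp B W := fun i => by
    rw [← hw'W]; exact Submodule.subset_span ⟨i, rfl⟩
  have hcross : ∀ i j, B (w i) (w' j) = 0 := fun i j =>
    ((mem_perp B W (w' j)).mp (hw'mem j)) (w i) (hwmem i)
  have hfam : OrthoFam B (Fin.append w w') := by
    refine ⟨?_, ?_⟩
    · intro a b
      induction a using Fin.addCases with
      | left i =>
        induction b using Fin.addCases with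
        | left j =>
          intro hab
          rw [Fin.append_left, Fin.append_left]
          exact hw.1 i j (fun h => hab (by rw [h]))
        | right j =>
          intro _
          rw [Fin.append_left, Fin.append_right]
          exact hcross i j
      | right i =>
        induction b using Fin.addCases with
        | left j =>
          intro _
          rw [Fin.append_right, Fin.append_left, hsym]
          exact hcross j i
        | right j =>
          intro hab
          rw [Fin.append_right, Fin.append_right]
          exact hw'.1 i j (fun h => hab (by rw [h]))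
    · intro a
      induction a using Fin.addCases with
      | left i => rw [Fin.append_left]; exact hw.2 i
      | right i => rw [Fin.append_right]; exact hw'.2 i
  have hspan : Submodule.span F (Set.range (Fin.append w w')) = ⊤ := by
    rw [eq_top_iff, ← (Cfsg.Agent.H91.Ev2.isCompl_perp' B W hW).sup_eq_top]
    apply sup_le
    · rw [← hwW, Submodule.span_le]
      rintro _ ⟨i, rfl⟩
      exact Submodule.subset_span ⟨Fin.castAdd n' i, Fin.append_left w w' i⟩
    · rw [← hw'W, Submodule.span_le]
      rintro _ ⟨i, rfl⟩
      exact Submodule.subset_span ⟨Fin.natAdd n i, Fin.append_right w w' i⟩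
  obtain ⟨-, hfr, -⟩ := Cfsg.Agent.H89.Ev2.spanNd F V B hsym (n + n') (Fin.append w w') hfam
  obtain ⟨-, hfr', -⟩ := Cfsg.Agent.H89.Ev2.spanNd F V B hsym N u hu
  have hN : N = n + n' := by
    rw [← hfr', ← hfr, huT, hspan]
  subst hN
  have h := Cfsg.Agent.H89.Ev2.discInv F V B hsym (n + n') (Fin.append w w') u hfam hu
    ⟨LinearEquiv.ofEq _ _ (by rw [hspan, huT]), fun x y => rfl⟩
  rw [Fin.prod_univ_add] at h
  simp only [Fin.append_left, Fin.append_right] at h
  exact h

example : StDiscPerp.{u, v} := discPerp

end Cfsg.Agent.H75.Nd
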