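import Mathlib
import Cfsg.Agent.H86.NdDefs
import Cfsg.Agent.H86.Ev2Fin
import Cfsg.Agent.H91.Ev2Unip1
import Cfsg.Agent.H91.Ev2Unip2
import Cfsg.Agent.H91.Ev2Unip3
/-!
ND-RPP (helper86's S5989 team project): `r = p`: some element of order `p` of `Ω⁺_{2d}(q)` fixes
no nondegenerate subspace of the odd dimension `m`.
-/
set_option autoImplicit false

namespace Cfsg.Agent.H75.Nd

open Matrix Cfsg.Agent.H45 Cfsg.Agent.H42.Spd Cfsg.Agent.H42.Ti Cfsg.Agent.H14.Ot
  Cfsg.Agent.H95.Oh Cfsg.Agent.H86.Ev2 Cfsg.Agent.H86.Nd Module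

universe u

/-- `2 ≠ 0` in odd characteristic. -/
theorem nd_two_ne_zero (F : Type u) [Field F] (p : ℕ) [Fact p.Prime] [CharP F p] (hp : p ≠ 2) :
    (2 : F) ≠ 0 := by
  intro h
  have h' : ((2 : ℕ) : F) = 0 := by exact_mod_cast h
  rw [CharP.cast_eq_zero_iff F p] at h'
  exact hp ((Nat.prime_dvd_prime_iff_eq (Fact.out : p.Prime) Nat.prime_two).mp h')

/-- `N * N = 0` gives `N ^ 3 = 0`. -/
theorem nd_cube {R : Type*} [Ring R] (N : R) (h : N * N = 0) : N ^ 3 = 0 := by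
  rw [pow_succ, pow_two, h, zero_mul]

/-- The range of `toLin' 1 - 1` has dimension `0`. -/
theorem nd_rank_one (F : Type u) [Field F] (ι : Type) [Fintype ι] [DecidableEq ι] :
    finrank F ↥(LinearMap.range
      (Matrix.toLin' ((1 : Matrix.GeneralLinearGroup ι F) : Matrix ι ι F) - 1)) = 0 := by
  have : Matrix.toLin' ((1 : Matrix.GeneralLinearGroup ι F) : Matrix ι ι F) - 1 = 0 := by
    rw [Units.val_one, Matrix.toLin'_one]
    exact sub_self _
  rw [this, LinearMap.range_zero, finrank_bot]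

/-- The range of `(toLin' 1 - 1) * (toLin' 1 - 1)` has dimension `0`. -/
theorem nd_rank_one_sq (F : Type u) [Field F] (ι : Type) [Fintype ι] [DecidableEq ι] :
    finrank F ↥(LinearMap.range
      ((Matrix.toLin' ((1 : Matrix.GeneralLinearGroup ι F) : Matrix ι ι F) - 1) *
        (Matrix.toLin' ((1 : Matrix.GeneralLinearGroup ι F) : Matrix ι ι F) - 1))) = 0 := by
  have : Matrix.toLin' ((1 : Matrix.GeneralLinearGroup ι F) : Matrix ι ι F) - 1 = 0 := by
    rw [Units.val_one, Matrix.toLin'_one]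
    exact sub_self _
  rw [this, mul_zero, LinearMap.range_zero, finrank_bot]

/-- ND-RPP. -/
theorem rpP (hO : StUniOmega.{u}) (h1 : StUex1.{u}) (h2 : StUex2.{u}) (h3 : StUex3.{u}) :
    StRpP.{u} := by
  intro F _ _ p _ _ d m hp hd hmo hmd
  have h2F : (2 : F) ≠ 0 := nd_two_ne_zero F p hp
  obtain ⟨B, hB, -⟩ := brP_bridge fin_brP F d h2F
  have hfin := finrank_plus F d
  rcases Nat.even_or_odd d with hde | hdo
  · obtain ⟨x, hx, hNN, hrk⟩ := h1 F d hde (by omega)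
    have hx1 : x ≠ 1 := by
      rintro rfl
      rw [nd_rank_one] at hrk
      omega
    obtain ⟨hxΩ, hxp, hxs⟩ := hO F p _ (Cfsg.Agent.H49.QP d F) hp hB.polar_nd x hx
      (nd_cube _ hNN) hx1
    refine ⟨x, hxΩ, hxp, hxs, ?_⟩
    intro W hWm hWnd hWinv
    have hev := Cfsg.Agent.H91.Ev2.unip1 F _ B _ h2F hB.symm hB.nd ((hB.iso x).mp hx) hNN
      (by rw [hfin]; exact hrk) W ((map_le_iff_invt _ _).mp hWinv) ((hB.ndW W).mp hWnd)
    rw [hWm] at hev
    exact (Nat.not_even_iff_odd.mpr hmo) hev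
  · have hm4 : m % 4 = 1 ∨ m % 4 = 3 := by
      obtain ⟨j, hj⟩ := hmo
      omega
    rcases hm4 with hm4 | hm4
    · obtain ⟨x, hx, hN3, hrk2, hrk⟩ := h3 F d h2F hdo (by omega)
      have hx1 : x ≠ 1 := by
        rintro rfl
        rw [nd_rank_one_sq] at hrk2
        omega
      obtain ⟨hxΩ, hxp, hxs⟩ := hO F p _ (Cfsg.Agent.H49.QP d F) hp hB.polar_nd x hx hN3 hx1
      refine ⟨x, hxΩ, hxp, hxs, ?_⟩
      intro W hWm hWnd hWinv
      have h43 := Cfsg.Agent.H91.Ev2.unip3 F _ B _ h2F hB.symm hB.nd ((hB.iso x).mp hx) hN3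
        hrk2 (by rw [hfin]; exact hrk) W ((map_le_iff_invt _ _).mp hWinv) ((hB.ndW W).mp hWnd)
        (by rw [hWm]; exact hmo)
      rw [hWm] at h43
      omega
    · obtain ⟨x, hx, hNN, hrk⟩ := h2 F d hdo (by omega)
      have hx1 : x ≠ 1 := by
        rintro rfl
        rw [nd_rank_one] at hrk
        omega
      obtain ⟨hxΩ, hxp, hxs⟩ := hO F p _ (Cfsg.Agent.H49.QP d F) hp hB.polar_nd x hx
        (nd_cube _ hNN) hx1
      refine ⟨x, hxΩ, hxp, hxs, ?_⟩
      intro W hWm hWnd hWinv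
      have h41 := Cfsg.Agent.H91.Ev2.unip2 F _ B _ h2F hB.symm hB.nd ((hB.iso x).mp hx) hNN
        (by rw [hfin]; exact hrk) W ((map_le_iff_invt _ _).mp hWinv) ((hB.ndW W).mp hWnd)
        (by rw [hWm]; exact hmo)
      rw [hWm] at h41
      omega

example (hO : StUniOmega.{u}) (h1 : StUex1.{u}) (h2 : StUex2.{u}) (h3 : StUex3.{u}) :
    StRpP.{u} := rpP hO h1 h2 h3

end Cfsg.Agent.H75.Nd
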