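import Mathlib
import Cfsg.Agent.H75.NdRpP
/-!
ND-RPMO (helper86's S5991 team project): `r = p`, `k` even (`d = k + 1` odd): some element of
order `p` of `Ω⁻_{2d}(q)` fixes no nondegenerate subspace of the odd dimension `m`.
-/
set_option autoImplicit false

namespace Cfsg.Agent.H75.Nd

open Matrix Cfsg.Agent.H45 Cfsg.Agent.H42.Spd Cfsg.Agent.H42.Ti Cfsg.Agent.H14.Ot
  Cfsg.Agent.H95.Oh Cfsg.Agent.H86.Ev2 Cfsg.Agent.H86.Nd Module

universe u

/-- ND-RPMO. -/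
theorem rpMOdd (hO : StUniOmega.{u}) (h2 : StUex2M.{u}) (h3 : StUex3M.{u}) : StRpMOdd.{u} := by
  intro F _ _ p _ _ k m a b hp hab hke hk hmo hmk
  have h2F : (2 : F) ≠ 0 := nd_two_ne_zero F p hp
  obtain ⟨B, hB, -⟩ := brM_bridge fin_brM F k a b h2F hab
  have hfin := finrank_minus F k
  have hm4 : m % 4 = 1 ∨ m % 4 = 3 := by
    obtain ⟨j, hj⟩ := hmo
    omega
  rcases hm4 with hm4 | hm4
  · obtain ⟨x, hx, hN3, hrk2, hrk⟩ := h3 F k a b h2F hab hke (by omega)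
    have hx1 : x ≠ 1 := by
      rintro rfl
      rw [nd_rank_one_sq] at hrk2
      omega
    obtain ⟨hxΩ, hxp, hxs⟩ := hO F p _ (Cfsg.Agent.H49.QMin k F a b) hp hB.polar_nd x hx hN3 hx1
    refine ⟨x, hxΩ, hxp, hxs, ?_⟩
    intro W hWm hWnd hWinv
    have h43 := Cfsg.Agent.H91.Ev2.unip3 F _ B _ h2F hB.symm hB.nd ((hB.iso x).mp hx) hN3
      hrk2 (by rw [hfin, hrk]; ring) W ((map_le_iff_invt _ _).mp hWinv) ((hB.ndW W).mp hWnd)
      (by rw [hWm]; exact hmo)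
    rw [hWm] at h43
    omega
  · obtain ⟨x, hx, hNN, hrk⟩ := h2 F k a b hke (by omega)
    have hx1 : x ≠ 1 := by
      rintro rfl
      rw [nd_rank_one] at hrk
      omega
    obtain ⟨hxΩ, hxp, hxs⟩ := hO F p _ (Cfsg.Agent.H49.QMin k F a b) hp hB.polar_nd x hx
      (nd_cube _ hNN) hx1
    refine ⟨x, hxΩ, hxp, hxs, ?_⟩
    intro W hWm hWnd hWinv
    have h41 := Cfsg.Agent.H91.Ev2.unip2 F _ B _ h2F hB.symm hB.nd ((hB.iso x).mp hx) hNN
      (by rw [hfin, hrk]; ring) W ((map_le_iff_invt _ _).mp hWinv) ((hB.ndW W).mp hWnd)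
      (by rw [hWm]; exact hmo)
    rw [hWm] at h41
    omega

example (hO : StUniOmega.{u}) (h2 : StUex2M.{u}) (h3 : StUex3M.{u}) : StRpMOdd.{u} :=
  rpMOdd hO h2 h3

end Cfsg.Agent.H75.Nd
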