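import Mathlib

/-!
# Algebraic core of the principal ideal theorem

A determinant argument over the integral group ring of a finite abelian group `Γ`:
a square matrix of relations whose rows are killed by the vector `(γ_k - 1)` and whose
augmentation has determinant `|Γ|` has determinant the norm element, hence the norm element
kills the module elements.
-/

set_option autoImplicit false

namespace Cfsg.Agent.H75

open scoped BigOperators

section PITCore

/-- the norm element of the integral group ring -/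
noncomputable def normElt (Γ : Type*) [CommGroup Γ] [Fintype Γ] : MonoidAlgebra ℤ Γ :=
  ∑ γ : Γ, MonoidAlgebra.of ℤ Γ γ

/-- the augmentation map of the integral group ring -/
noncomputable def augHom (Γ : Type*) [CommGroup Γ] : MonoidAlgebra ℤ Γ →+* ℤ :=
  (MonoidAlgebra.lift ℤ ℤ Γ (1 : Γ →* ℤ)).toRingHom

theorem augHom_of (Γ : Type*) [CommGroup Γ] (γ : Γ) :
    augHom Γ (MonoidAlgebra.of ℤ Γ γ) = 1 := by
  change MonoidAlgebra.lift ℤ ℤ Γ (1 : Γ →* ℤ) (MonoidAlgebra.of ℤ Γ γ) = 1
  rw [MonoidAlgebra.lift_of]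
  rfl

theorem augHom_normElt (Γ : Type*) [CommGroup Γ] [Fintype Γ] :
    augHom Γ (normElt Γ) = (Fintype.card Γ : ℤ) := by
  rw [normElt, map_sum]
  rw [Finset.sum_congr rfl (fun γ _ => augHom_of Γ γ)]
  simp

theorem coeff_normElt (Γ : Type*) [CommGroup Γ] [Fintype Γ] (δ : Γ) :
    (normElt Γ).coeff δ = 1 := by
  classical
  rw [normElt, MonoidAlgebra.coeff_sum, Finsupp.finsetSum_apply]
  simp only [MonoidAlgebra.of_apply, MonoidAlgebra.coeff_single]
  rw [Finset.sum_eq_single δ]
  · simp
  · intro b _ hb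
    simp [hb]
  · intro h
    exact absurd (Finset.mem_univ δ) h

/-- an element of the group ring fixed by multiplication with all group elements is an integer
multiple of the norm element -/
theorem eq_smul_normElt {Γ : Type*} [CommGroup Γ] [Fintype Γ] (d : MonoidAlgebra ℤ Γ)
    (h : ∀ γ : Γ, d * MonoidAlgebra.of ℤ Γ γ = d) : d = d.coeff 1 • normElt Γ := by
  have hc : ∀ δ : Γ, d.coeff δ = d.coeff 1 := by
    intro δ
    have h1 := congrArg (fun y : MonoidAlgebra ℤ Γ => y.coeff δ) (h δ)
    simp only [MonoidAlgebra.of_apply, MonoidAlgebra.coeff_mul_single_apply, mul_inv_cancel,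
      mul_one] at h1
    exact h1.symm
  apply MonoidAlgebra.ext
  ext δ
  rw [MonoidAlgebra.coeff_smul, Finsupp.smul_apply, coeff_normElt, hc δ]
  simp

theorem det_mul_eq_zero_of_mulVec {R : Type*} [CommRing R] {I : Type*} [Fintype I]
    [DecidableEq I] (P : Matrix I I R) (v : I → R) (h : ∀ i, ∑ k, P i k * v k = 0) (k : I) :
    P.det * v k = 0 := by
  have h0 : P.mulVec v = 0 := by
    ext i
    exact h i
  have h1 : (P.adjugate * P).mulVec v = 0 := by
    rw [← Matrix.mulVec_mulVec, h0, Matrix.mulVec_zero]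
  rw [Matrix.adjugate_mul, Matrix.smul_mulVec, Matrix.one_mulVec] at h1
  have h2 := congrFun h1 k
  simpa using h2

/-- **Core of the principal ideal theorem.** -/
theorem pit_core {Γ : Type*} [CommGroup Γ] [Fintype Γ] {M : Type*} [AddCommGroup M]
    (Φ : MonoidAlgebra ℤ Γ →+* Module.End ℤ M)
    {I : Type*} [Fintype I] [DecidableEq I] (x : I → M)
    (P : Matrix I I (MonoidAlgebra ℤ Γ))
    (hrel : ∀ i, ∑ k, Φ (P i k) (x k) = 0)
    (hinv : ∀ γ : Γ, P.det * MonoidAlgebra.of ℤ Γ γ = P.det)
    (hdet : ((augHom Γ).mapMatrix P).det = (Fintype.card Γ : ℤ)) (l : I) :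
    Φ (normElt Γ) (x l) = 0 := by
  classical
  have h1 := eq_smul_normElt P.det hinv
  have h2 : augHom Γ P.det = (Fintype.card Γ : ℤ) := by
    rw [RingHom.map_det]; exact hdet
  have hcard : (Fintype.card Γ : ℤ) ≠ 0 := by
    have : 0 < Fintype.card Γ := Fintype.card_pos
    exact_mod_cast this.ne'
  have h3 : P.det.coeff 1 = 1 := by
    rw [h1, map_zsmul, augHom_normElt, smul_eq_mul] at h2
    have h4 : (P.det.coeff 1 - 1) * (Fintype.card Γ : ℤ) = 0 := by linarith
    rcases mul_eq_zero.mp h4 with h5 | h5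
    · linarith
    · exact absurd h5 hcard
  have h4 : P.det = normElt Γ := by rw [h1, h3, one_smul]
  rw [← h4]
  have h5 : ∀ k, (P.adjugate * P) l k = if l = k then P.det else 0 := by
    intro k
    rw [Matrix.adjugate_mul, Matrix.smul_apply, Matrix.one_apply, smul_eq_mul]
    split_ifs <;> simp
  have h6 : Φ P.det (x l) = ∑ k, Φ ((P.adjugate * P) l k) (x k) := by
    rw [Finset.sum_eq_single l]
    · rw [h5 l, if_pos rfl]
    · intro k _ hk
      rw [h5 k, if_neg (Ne.symm hk), map_zero]
      rfl
    · intro h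
      exact absurd (Finset.mem_univ l) h
  rw [h6]
  have h7 : ∀ k, Φ ((P.adjugate * P) l k) (x k) =
      ∑ i, Φ (P.adjugate l i) (Φ (P i k) (x k)) := by
    intro k
    rw [Matrix.mul_apply, map_sum, LinearMap.sum_apply]
    refine Finset.sum_congr rfl fun i _ => ?_
    rw [map_mul, Module.End.mul_apply]
  simp_rw [h7]
  rw [Finset.sum_comm]
  refine Finset.sum_eq_zero fun i _ => ?_
  rw [← map_sum, hrel i, map_zero]

end PITCore

end Cfsg.Agent.H75
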