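import Mathlib
import Cfsg.Agent.H75.PITCore

/-!
# The principal ideal theorem: group-theoretic part

For a finite group `G` with commutator subgroup `G'`, the Schur cocycle of a section of
`G → G/G'` gives a crossed homomorphism `G → (G/G' → (G')^ab)`; the transfer is the sum of its
values, i.e. the norm element applied to it.
-/

set_option autoImplicit false

namespace Cfsg.Agent.H75

open scoped BigOperators

section PITGroup

variable {G : Type*} [Group G]

/-- the Schur cocycle of a section `s` of `G → G/G'` -/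
def pitCocycle (s : Abelianization G → G) (hs : ∀ γ, Abelianization.of (s γ) = γ) (g : G)
    (γ : Abelianization G) : ↥(commutator G) :=
  ⟨(s γ)⁻¹ * g * s ((Abelianization.of g)⁻¹ * γ), by
    rw [← Abelianization.ker_of, MonoidHom.mem_ker]
    simp [hs]⟩

theorem pitCocycle_mul (s : Abelianization G → G) (hs : ∀ γ, Abelianization.of (s γ) = γ)
    (g h : G) (γ : Abelianization G) :
    pitCocycle s hs (g * h) γ =
      pitCocycle s hs g γ * pitCocycle s hs h ((Abelianization.of g)⁻¹ * γ) := by
  apply Subtype.ext
  simp only [pitCocycle, Subgroup.coe_mul, map_mul, mul_inv_rev]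
  rw [mul_assoc (Abelianization.of h)⁻¹]
  group

theorem pitCocycle_one (s : Abelianization G → G) (hs : ∀ γ, Abelianization.of (s γ) = γ)
    (γ : Abelianization G) : pitCocycle s hs 1 γ = 1 := by
  apply Subtype.ext
  simp [pitCocycle]

/-- the translation action of `G/G'` on functions `G/G' → (G')^ab` -/
noncomputable def pitRho (G : Type*) [Group G] :
    Abelianization G →*
      Module.End ℤ (Abelianization G → Additive (Abelianization ↥(commutator G))) where
  toFun γ := LinearMap.funLeft ℤ _ (fun q => γ⁻¹ * q)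
  map_one' := by
    ext f q
    simp [LinearMap.funLeft_apply]
  map_mul' γ δ := by
    ext f q
    simp [LinearMap.funLeft_apply, mul_assoc]

/-- the action of the integral group ring of `G/G'` on functions `G/G' → (G')^ab` -/
noncomputable def pitPhi (G : Type*) [Group G] :
    MonoidAlgebra ℤ (Abelianization G) →+*
      Module.End ℤ (Abelianization G → Additive (Abelianization ↥(commutator G))) :=
  (MonoidAlgebra.lift ℤ _ (Abelianization G) (pitRho G)).toRingHom

theorem pitPhi_of (γ : Abelianization G)
    (f : Abelianization G → Additive (Abelianization ↥(commutator G))) (q : Abelianization G) :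
    pitPhi G (MonoidAlgebra.of ℤ _ γ) f q = f (γ⁻¹ * q) := by
  change MonoidAlgebra.lift ℤ _ (Abelianization G) (pitRho G) (MonoidAlgebra.of ℤ _ γ) f q = _
  rw [MonoidAlgebra.lift_of]
  rfl

/-- the crossed homomorphism attached to a section -/
noncomputable def pitM (s : Abelianization G → G) (hs : ∀ γ, Abelianization.of (s γ) = γ)
    (g : G) : Abelianization G → Additive (Abelianization ↥(commutator G)) :=
  fun γ => Additive.ofMul (Abelianization.of (pitCocycle s hs g γ))

theorem pitM_mul (s : Abelianization G → G) (hs : ∀ γ, Abelianization.of (s γ) = γ)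
    (g h : G) :
    pitM s hs (g * h) = pitM s hs g +
      pitPhi G (MonoidAlgebra.of ℤ _ (Abelianization.of g)) (pitM s hs h) := by
  funext γ
  rw [Pi.add_apply, pitPhi_of]
  simp only [pitM]
  rw [pitCocycle_mul, map_mul, ofMul_mul]

theorem pitM_one (s : Abelianization G → G) (hs : ∀ γ, Abelianization.of (s γ) = γ) :
    pitM s hs 1 = 0 := by
  funext γ
  simp only [pitM]
  rw [pitCocycle_one, map_one]
  rfl

theorem pitPhi_normElt [Fintype (Abelianization G)]
    (f : Abelianization G → Additive (Abelianization ↥(commutator G))) (q : Abelianization G) :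
    pitPhi G (normElt (Abelianization G)) f q = ∑ γ, f γ := by
  rw [normElt, map_sum, LinearMap.sum_apply, Finset.sum_apply]
  simp_rw [pitPhi_of]
  exact Fintype.sum_equiv ((Equiv.inv _).trans (Equiv.mulRight q)) _ _ (fun γ => rfl)

theorem transfer_eq_prod_pitCocycle [Finite G] [hF : Fintype (Abelianization G)]
    (s : Abelianization G → G) (hs : ∀ γ, Abelianization.of (s γ) = γ) (g : G) :
    MonoidHom.transfer
        (Abelianization.of : ↥(commutator G) →* Abelianization ↥(commutator G)) g =
      ∏ γ : Abelianization G, Abelianization.of (pitCocycle s hs g γ) := by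
  classical
  have hs' : ∀ q : G ⧸ commutator G, ((s q : G) : G ⧸ commutator G) = q := hs
  rw [MonoidHom.transfer_def _ ⟨Set.range s, Subgroup.isComplement_range_left hs'⟩]
  unfold Subgroup.leftTransversals.diff
  dsimp only
  refine @Fintype.prod_equiv (G ⧸ commutator G) (Abelianization G) _
    (commutator G).fintypeQuotientOfFiniteIndex hF _ (Equiv.refl _) _ _ (fun q => ?_)
  apply congrArg
  apply Subtype.ext
  simp only [pitCocycle]
  rw [Subgroup.smul_apply_eq_smul_apply_inv_smul]
  erw [Subgroup.IsComplement.leftQuotientEquiv_apply hs',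
    Subgroup.IsComplement.leftQuotientEquiv_apply hs']
  have hq : ∀ q' : Abelianization G,
      @HSMul.hSMul G (G ⧸ commutator G) (G ⧸ commutator G) _ g⁻¹ q' =
        (Abelianization.of g)⁻¹ * q' := by
    intro q'
    induction q' using QuotientGroup.induction_on
    rfl
  change (s q)⁻¹ * (g * s (g⁻¹ • q)) = _
  rw [hq q, mul_assoc]
  rfl

/-- if the norm element kills the value of the crossed homomorphism at `g`, the transfer of `g`
into `(G')^ab` is trivial -/
theorem transfer_eq_one_of_normElt [Finite G] [Fintype (Abelianization G)]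
    (s : Abelianization G → G) (hs : ∀ γ, Abelianization.of (s γ) = γ) (g : G)
    (h : pitPhi G (normElt (Abelianization G)) (pitM s hs g) = 0) :
    MonoidHom.transfer
        (Abelianization.of : ↥(commutator G) →* Abelianization ↥(commutator G)) g = 1 := by
  rw [transfer_eq_prod_pitCocycle s hs g]
  have h1 := congrFun h 1
  rw [pitPhi_normElt] at h1
  simp only [pitM, Pi.zero_apply] at h1
  rw [← ofMul_prod] at h1
  exact h1

end PITGroup

section Valid

variable {G : Type*} [Group G] {I : Type*} [Fintype I]

/-- a relation triple: `r` expresses the crossed homomorphism at `u` through its values at the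
generators, is compatible with the fundamental formula, and has augmentation `v` -/
def PitValid (s : Abelianization G → G) (hs : ∀ γ, Abelianization.of (s γ) = γ) (gen : I → G)
    (u : G) (r : I → MonoidAlgebra ℤ (Abelianization G)) (v : I → ℤ) : Prop :=
  (∑ k, pitPhi G (r k) (pitM s hs (gen k)) = pitM s hs u) ∧
  (∑ k, r k * (MonoidAlgebra.of ℤ _ (Abelianization.of (gen k)) - 1) =
      MonoidAlgebra.of ℤ _ (Abelianization.of u) - 1) ∧
  (∀ k, augHom _ (r k) = v k)

variable {s : Abelianization G → G} {hs : ∀ γ, Abelianization.of (s γ) = γ} {gen : I → G}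

theorem PitValid.one : PitValid s hs gen 1 0 0 := by
  refine ⟨?_, ?_, ?_⟩
  · simp [pitM_one]
  · simp only [Pi.zero_apply, zero_mul, Finset.sum_const_zero, map_one, sub_self]
  · intro k; simp

theorem PitValid.of_gen [DecidableEq I] (k : I) :
    PitValid s hs gen (gen k) (Pi.single k 1) (Pi.single k 1) := by
  refine ⟨?_, ?_, ?_⟩
  · rw [Finset.sum_eq_single k]
    · simp
    · intro j _ hj
      simp [Pi.single_eq_of_ne hj]
    · intro h
      exact absurd (Finset.mem_univ k) h
  · rw [Finset.sum_eq_single k]
    · simp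
    · intro j _ hj
      simp [Pi.single_eq_of_ne hj]
    · intro h
      exact absurd (Finset.mem_univ k) h
  · intro j
    by_cases h : j = k
    · subst h; simp
    · simp [Pi.single_eq_of_ne h]

theorem PitValid.mul {u u' : G} {r r' : I → MonoidAlgebra ℤ (Abelianization G)} {v v' : I → ℤ}
    (h : PitValid s hs gen u r v) (h' : PitValid s hs gen u' r' v') :
    PitValid s hs gen (u * u')
      (fun k => r k + MonoidAlgebra.of ℤ _ (Abelianization.of u) * r' k) (v + v') := by
  obtain ⟨h1, h2, h3⟩ := h
  obtain ⟨h1', h2', h3'⟩ := h'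
  refine ⟨?_, ?_, ?_⟩
  · simp only [map_add, map_mul, LinearMap.add_apply, Module.End.mul_apply]
    rw [Finset.sum_add_distrib, h1, ← map_sum, h1', pitM_mul]
  · simp only [add_mul, mul_assoc]
    rw [Finset.sum_add_distrib, h2, ← Finset.mul_sum, h2', map_mul, map_mul]
    ring
  · intro k
    rw [map_add, map_mul, augHom_of, one_mul, h3, h3', Pi.add_apply]

theorem pitM_inv (s : Abelianization G → G) (hs : ∀ γ, Abelianization.of (s γ) = γ) (u : G) :
    pitM s hs u⁻¹ =
      - pitPhi G (MonoidAlgebra.of ℤ _ (Abelianization.of u⁻¹)) (pitM s hs u) := by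
  have h := pitM_mul s hs u⁻¹ u
  rw [inv_mul_cancel, pitM_one] at h
  exact eq_neg_of_add_eq_zero_left h.symm

theorem PitValid.inv {u : G} {r : I → MonoidAlgebra ℤ (Abelianization G)} {v : I → ℤ}
    (h : PitValid s hs gen u r v) :
    PitValid s hs gen u⁻¹
      (fun k => - (MonoidAlgebra.of ℤ _ (Abelianization.of u⁻¹) * r k)) (-v) := by
  obtain ⟨h1, h2, h3⟩ := h
  refine ⟨?_, ?_, ?_⟩
  · simp only [map_neg, map_mul, LinearMap.neg_apply, Module.End.mul_apply]
    rw [Finset.sum_neg_distrib, ← map_sum, h1, pitM_inv]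
  · simp only [neg_mul, mul_assoc]
    rw [Finset.sum_neg_distrib, ← Finset.mul_sum, h2, mul_sub, mul_one, ← map_mul, ← map_mul,
      inv_mul_cancel, map_one, map_one]
    ring
  · intro k
    rw [map_neg, map_mul, augHom_of, one_mul, h3, Pi.neg_apply]

/-- the subgroup of elements having a relation triple -/
def pitValidSubgroup (s : Abelianization G → G) (hs : ∀ γ, Abelianization.of (s γ) = γ)
    (gen : I → G) : Subgroup G where
  carrier := {u | ∃ r v, PitValid s hs gen u r v}
  mul_mem' := by
    rintro a b ⟨r, v, h⟩ ⟨r', v', h'⟩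
    exact ⟨_, _, h.mul h'⟩
  one_mem' := ⟨0, 0, PitValid.one⟩
  inv_mem' := by
    rintro a ⟨r, v, h⟩
    exact ⟨_, _, h.inv⟩

/-- the subgroup of elements having a relation triple of augmentation zero -/
def pitValidZero (s : Abelianization G → G) (hs : ∀ γ, Abelianization.of (s γ) = γ)
    (gen : I → G) : Subgroup G where
  carrier := {u | ∃ r, PitValid s hs gen u r 0}
  mul_mem' := by
    rintro a b ⟨r, h⟩ ⟨r', h'⟩
    have h2 := h.mul h'
    rw [add_zero] at h2
    exact ⟨_, h2⟩
  one_mem' := ⟨0, PitValid.one⟩
  inv_mem' := by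
    rintro a ⟨r, h⟩
    have h2 := h.inv
    rw [neg_zero] at h2
    exact ⟨_, h2⟩

theorem commutator_le_pitValidZero (htop : pitValidSubgroup s hs gen = ⊤) :
    commutator G ≤ pitValidZero s hs gen := by
  rw [commutator_eq_closure, Subgroup.closure_le]
  rintro _ ⟨x, y, rfl⟩
  obtain ⟨rx, vx, hx⟩ : x ∈ pitValidSubgroup s hs gen := by rw [htop]; trivial
  obtain ⟨ry, vy, hy⟩ : y ∈ pitValidSubgroup s hs gen := by rw [htop]; trivial
  have h := ((hx.mul hy).mul hx.inv).mul hy.inv
  have hv : vx + vy + -vx + -vy = 0 := by abel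
  rw [hv] at h
  exact ⟨_, h⟩

end Valid

section Main

variable {G : Type*} [Group G] [Finite G]

/-- **Principal ideal theorem**: the transfer of a finite group into the abelianization of its
commutator subgroup is trivial -/
theorem principal_ideal_transfer (g : G) :
    MonoidHom.transfer
        (Abelianization.of : ↥(commutator G) →* Abelianization ↥(commutator G)) g = 1 := by
  classical
  obtain ⟨ι, hι, n, hn, ⟨e⟩⟩ :=
    CommGroup.equiv_prod_multiplicative_zmod_of_finite (Abelianization G)
  have : Fintype (Abelianization G) := Fintype.ofFinite _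
  have : Fintype ↥(commutator G) := Fintype.ofFinite _
  have hne : ∀ i, NeZero (n i) := fun i => ⟨by have := hn i; omega⟩
  have hsurj : Function.Surjective (Abelianization.of : G → Abelianization G) :=
    QuotientGroup.mk_surjective
  let s : Abelianization G → G := Function.surjInv hsurj
  have hs : ∀ γ, Abelianization.of (s γ) = γ := Function.surjInv_eq hsurj
  let γ₀ : ι → Abelianization G := fun i =>
    e.symm (Pi.mulSingle i (Multiplicative.ofAdd (1 : ZMod (n i))))
  let g₀ : ι → G := fun i => s (γ₀ i)
  have hg₀ : ∀ i, Abelianization.of (g₀ i) = γ₀ i := fun i => hs _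
  have hγpow : ∀ (i : ι) (m : ℕ), e (γ₀ i ^ m) =
      Pi.mulSingle i (Multiplicative.ofAdd ((m : ZMod (n i)))) := by
    intro i m
    rw [map_pow, MulEquiv.apply_symm_apply, ← Pi.mulSingle_pow, ← ofAdd_nsmul, nsmul_eq_mul,
      mul_one]
  have hpow : ∀ i, g₀ i ^ n i ∈ commutator G := by
    intro i
    rw [← Abelianization.ker_of, MonoidHom.mem_ker, map_pow, hg₀]
    apply e.injective
    rw [hγpow, ZMod.natCast_self, ofAdd_zero, Pi.mulSingle_one, map_one]
  let gen : ι ⊕ ↥(commutator G) → G := Sum.elim g₀ (fun a => (a : G))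
  -- every element has a relation triple
  have htop : pitValidSubgroup s hs gen = ⊤ := by
    rw [eq_top_iff]
    intro u _
    set f := e (Abelianization.of u) with hf
    let w : G := (Finset.univ.toList.map
      (fun i => g₀ i ^ (Multiplicative.toAdd (f i)).val)).prod
    have hw : Abelianization.of w = Abelianization.of u := by
      apply e.injective
      rw [← hf, map_list_prod, map_list_prod, List.map_map, List.map_map]
      have h1 : ∀ i, e (Abelianization.of (g₀ i ^ (Multiplicative.toAdd (f i)).val)) =
          Pi.mulSingle i (f i) := by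
        intro i
        rw [map_pow, hg₀, hγpow, ZMod.natCast_zmod_val]
        rfl
      have h2 : List.map ((⇑e ∘ ⇑(Abelianization.of (G := G))) ∘
          fun i => g₀ i ^ (Multiplicative.toAdd (f i)).val) Finset.univ.toList =
          List.map (fun i => Pi.mulSingle i (f i)) Finset.univ.toList :=
        List.map_congr_left (fun i _ => h1 i)
      rw [h2, Finset.prod_map_toList, Finset.univ_prod_mulSingle]
    have hwmem : w ∈ pitValidSubgroup s hs gen := by
      apply Subgroup.list_prod_mem
      intro x hx
      obtain ⟨i, -, rfl⟩ := List.mem_map.mp hx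
      apply Subgroup.pow_mem
      exact ⟨_, _, PitValid.of_gen (Sum.inl i)⟩
    have ha : u * w⁻¹ ∈ commutator G := by
      rw [← Abelianization.ker_of, MonoidHom.mem_ker, map_mul, map_inv, hw, mul_inv_cancel]
    have hamem : u * w⁻¹ ∈ pitValidSubgroup s hs gen :=
      ⟨_, _, PitValid.of_gen (s := s) (hs := hs) (gen := gen) (Sum.inr ⟨u * w⁻¹, ha⟩)⟩
    have h2 := Subgroup.mul_mem _ hamem hwmem
    rwa [inv_mul_cancel_right] at h2
  have hcomm := commutator_le_pitValidZero htop
  -- the rows of the relation matrix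
  have hrow1 : ∀ i : ι, ∃ r, PitValid s hs gen 1 r
      (fun k => (n i : ℤ) * (Pi.single (Sum.inl i) 1 : ι ⊕ ↥(commutator G) → ℤ) k -
        (Pi.single (Sum.inr ⟨g₀ i ^ n i, hpow i⟩) 1 : ι ⊕ ↥(commutator G) → ℤ) k) := by
    intro i
    have hp : ∀ m : ℕ, ∃ r, PitValid s hs gen (g₀ i ^ m) r
        (fun k => (m : ℤ) * (Pi.single (Sum.inl i) 1 : ι ⊕ ↥(commutator G) → ℤ) k) := by
      intro m
      induction m with
      | zero =>
        have h := PitValid.one (s := s) (hs := hs) (gen := gen)
        have hv : (0 : ι ⊕ ↥(commutator G) → ℤ) =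
            fun k => ((0 : ℕ) : ℤ) * (Pi.single (Sum.inl i) 1 : ι ⊕ ↥(commutator G) → ℤ) k := by
          funext k
          simp
        rw [hv] at h
        rw [pow_zero]
        exact ⟨_, h⟩
      | succ m ih =>
        obtain ⟨r, hr⟩ := ih
        have h := hr.mul (PitValid.of_gen (s := s) (hs := hs) (gen := gen) (Sum.inl i))
        have hv : ((fun k => (m : ℤ) * (Pi.single (Sum.inl i) 1 : ι ⊕ ↥(commutator G) → ℤ) k) +
            Pi.single (Sum.inl i) 1 : ι ⊕ ↥(commutator G) → ℤ) =
            fun k => ((m + 1 : ℕ) : ℤ) *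
              (Pi.single (Sum.inl i) 1 : ι ⊕ ↥(commutator G) → ℤ) k := by
          funext k
          simp only [Pi.add_apply]
          push_cast
          ring
        rw [hv] at h
        rw [pow_succ]
        exact ⟨_, h⟩
    obtain ⟨r, hr⟩ := hp (n i)
    have h := hr.mul
      (PitValid.of_gen (s := s) (hs := hs) (gen := gen) (Sum.inr ⟨g₀ i ^ n i, hpow i⟩)).inv
    have hu : g₀ i ^ n i * (gen (Sum.inr ⟨g₀ i ^ n i, hpow i⟩))⁻¹ = 1 := mul_inv_cancel _
    rw [hu] at h
    have hv : ((fun k => (n i : ℤ) * (Pi.single (Sum.inl i) 1 : ι ⊕ ↥(commutator G) → ℤ) k) +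
        -(Pi.single (Sum.inr ⟨g₀ i ^ n i, hpow i⟩) 1 : ι ⊕ ↥(commutator G) → ℤ) :
          ι ⊕ ↥(commutator G) → ℤ) =
        fun k => (n i : ℤ) * (Pi.single (Sum.inl i) 1 : ι ⊕ ↥(commutator G) → ℤ) k -
          (Pi.single (Sum.inr ⟨g₀ i ^ n i, hpow i⟩) 1 : ι ⊕ ↥(commutator G) → ℤ) k := by
      funext k
      simp only [Pi.add_apply, Pi.neg_apply]
      ring
    rw [hv] at h
    exact ⟨_, h⟩
  have hrow2 : ∀ a : ↥(commutator G), ∃ r, PitValid s hs gen 1 r
      (Pi.single (Sum.inr a) 1 : ι ⊕ ↥(commutator G) → ℤ) := by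
    intro a
    obtain ⟨r', hr'⟩ := hcomm a.2
    have h := (PitValid.of_gen (s := s) (hs := hs) (gen := gen) (Sum.inr a)).mul hr'.inv
    have hu : gen (Sum.inr a) * (a : G)⁻¹ = 1 := mul_inv_cancel _
    rw [hu, neg_zero, add_zero] at h
    exact ⟨_, h⟩
  choose R1 hR1 using hrow1
  choose R2 hR2 using hrow2
  let P : Matrix (ι ⊕ ↥(commutator G)) (ι ⊕ ↥(commutator G))
      (MonoidAlgebra ℤ (Abelianization G)) := Matrix.of (Sum.elim R1 R2)
  have hrel : ∀ i, ∑ k, pitPhi G (P i k) (pitM s hs (gen k)) = 0 := by
    rintro (i | a)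
    · have h := (hR1 i).1
      rw [pitM_one] at h
      exact h
    · have h := (hR2 a).1
      rw [pitM_one] at h
      exact h
  have hb : ∀ i, ∑ k, P i k * (MonoidAlgebra.of ℤ _ (Abelianization.of (gen k)) - 1) = 0 := by
    rintro (i | a)
    · have h := (hR1 i).2.1
      rw [map_one, map_one, sub_self] at h
      exact h
    · have h := (hR2 a).2.1
      rw [map_one, map_one, sub_self] at h
      exact h
  have hinv : ∀ γ : Abelianization G, P.det * MonoidAlgebra.of ℤ _ γ = P.det := by
    intro γ
    obtain ⟨u, rfl⟩ := hsurj γ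
    obtain ⟨r, v, hr⟩ : u ∈ pitValidSubgroup s hs gen := by rw [htop]; trivial
    have h0 : P.det * (MonoidAlgebra.of ℤ _ (Abelianization.of u) - 1) = 0 := by
      rw [← hr.2.1, Finset.mul_sum]
      refine Finset.sum_eq_zero fun k _ => ?_
      rw [mul_left_comm, det_mul_eq_zero_of_mulVec P _ hb k, mul_zero]
    rw [mul_sub, mul_one, sub_eq_zero] at h0
    exact h0
  have hdet : ((augHom (Abelianization G)).mapMatrix P).det =
      (Fintype.card (Abelianization G) : ℤ) := by
    have hP : (augHom (Abelianization G)).mapMatrix P =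
        Matrix.fromBlocks (Matrix.diagonal fun i => (n i : ℤ))
          (Matrix.of fun i a =>
            - ((Pi.single (⟨g₀ i ^ n i, hpow i⟩ : ↥(commutator G)) (1 : ℤ) :
                ↥(commutator G) → ℤ) a)) 0 1 := by
      ext (i | a) (j | b)
      · change augHom _ (R1 i (Sum.inl j)) = _
        rw [(hR1 i).2.2, Matrix.fromBlocks_apply₁₁, Matrix.diagonal_apply]
        by_cases h : i = j
        · subst h
          simp
        · rw [if_neg h]
          have h' : (Sum.inl j : ι ⊕ ↥(commutator G)) ≠ Sum.inl i := fun hc => h (Sum.inl.inj hc).symm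
          simp [Pi.single_eq_of_ne h']
      · change augHom _ (R1 i (Sum.inr b)) = _
        rw [(hR1 i).2.2, Matrix.fromBlocks_apply₁₂, Matrix.of_apply]
        simp [Pi.single_apply]
      · change augHom _ (R2 a (Sum.inl j)) = _
        rw [(hR2 a).2.2, Matrix.fromBlocks_apply₂₁]
        simp
      · change augHom _ (R2 a (Sum.inr b)) = _
        rw [(hR2 a).2.2, Matrix.fromBlocks_apply₂₂, Matrix.one_apply]
        by_cases h : a = b
        · subst h
          simp
        · rw [if_neg h]
          have h' : (Sum.inr b : ι ⊕ ↥(commutator G)) ≠ Sum.inr a := fun hc => h (Sum.inr.inj hc).symm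
          simp [Pi.single_eq_of_ne h']
    rw [hP, Matrix.det_fromBlocks_zero₂₁, Matrix.det_diagonal, Matrix.det_one, mul_one]
    have hc : Fintype.card (Abelianization G) = ∏ i, n i := by
      rw [← Nat.card_eq_fintype_card, Nat.card_congr e.toEquiv, Nat.card_pi]
      refine Finset.prod_congr rfl fun i _ => ?_
      rw [Nat.card_congr Multiplicative.toAdd]
      exact Nat.card_zmod (n i)
    rw [hc]
    push_cast
    rfl
  have hcore := pit_core (pitPhi G) (fun k => pitM s hs (gen k)) P hrel hinv hdet
  apply transfer_eq_one_of_normElt s hs g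
  obtain ⟨r, v, hr⟩ : g ∈ pitValidSubgroup s hs gen := by rw [htop]; trivial
  rw [← hr.1, map_sum]
  refine Finset.sum_eq_zero fun k _ => ?_
  rw [← Module.End.mul_apply, ← map_mul, mul_comm, map_mul, Module.End.mul_apply, hcore k,
    map_zero]

end Main

end Cfsg.Agent.H75
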