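import Mathlib
import Cfsg.Prelude.Def_GeometricClasses
import Cfsg.Prelude.Def_LieClassical
import Cfsg.Agent.H7.Unitary
import Cfsg.Agent.H17.GUDet
import Cfsg.Agent.H17.Herm
import Cfsg.Agent.H53.TenFIN

/-!
# S5984 piece BLK (helper75 for helper99): an irreducible unitary block of odd prime order
-/

set_option autoImplicit false

open scoped MatrixGroups

namespace Cfsg.Agent.H75.Pair

variable {F : Type*} [Field F] [Fintype F]

theorem exists_unitary_block {q r e : ℕ} (hq : Fintype.card F = q ^ 2) (hr : r.Prime)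
    (hr2 : r ≠ 2) (hrq : ¬ r ∣ q) (he : e = orderOf (-(q : ZMod r))) (hodd : Odd e)
    (he1 : e ≠ 1) :
    ∃ M₀ : Matrix (Fin e) (Fin e) F,
      (∀ u v : Fin e → F,
        Cfsg.hermForm e F q (M₀.mulVec u) (M₀.mulVec v) = Cfsg.hermForm e F q u v) ∧
      M₀.det = 1 ∧ M₀ ^ r = 1 ∧ IsUnit (M₀ - 1).det ∧
      ∀ W : Submodule F (Fin e → F), W.map (Matrix.toLin' M₀) ≤ W → W = ⊥ ∨ W = ⊤ := by
  classical
  have : Fact r.Prime := ⟨hr⟩
  have he0 : 0 < e := hodd.pos
  have hpow : (-(q : ZMod r)) ^ e = 1 := by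
    rw [he]
    exact pow_orderOf_eq_one _
  have hdvd1 : r ∣ q ^ e + 1 := by
    rw [← ZMod.natCast_eq_zero_iff]
    push_cast
    rw [hodd.neg_pow] at hpow
    linear_combination -hpow
  have hcard := Cfsg.Agent.H7.card_GU hq e
  have hdvd2 : r ∣ Nat.card (Cfsg.GU e F q) := by
    rw [hcard]
    apply dvd_mul_of_dvd_right
    have hmem : e - 1 ∈ Finset.range e := Finset.mem_range.mpr (by omega)
    have heven : Even (e - 1) := by
      obtain ⟨k, hk⟩ := hodd
      exact ⟨k, by omega⟩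
    have h1 := Finset.dvd_prod_of_mem
      (fun i => if Even i then q ^ (i + 1) + 1 else q ^ (i + 1) - 1) hmem
    simp only [heven, if_true] at h1
    rw [Nat.sub_add_cancel he0] at h1
    exact hdvd1.trans h1
  obtain ⟨g, hg⟩ := exists_prime_orderOf_dvd_card' r hdvd2
  set M₀ : Matrix (Fin e) (Fin e) F := ((g : GL (Fin e) F) : Matrix (Fin e) (Fin e) F) with hM₀
  have hpres : ∀ u v : Fin e → F,
      Cfsg.hermForm e F q (M₀.mulVec u) (M₀.mulVec v) = Cfsg.hermForm e F q u v := g.2
  have hM₀r : M₀ ^ r = 1 := by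
    have h1 : g ^ r = 1 := by
      rw [← hg]
      exact pow_orderOf_eq_one g
    have h2 := congrArg
      (fun x : Cfsg.GU e F q => ((x : GL (Fin e) F) : Matrix (Fin e) (Fin e) F)) h1
    simpa using h2
  have hM₀1 : M₀ ≠ 1 := by
    intro h
    have hg1 : g = 1 := by
      apply Subtype.ext
      apply Units.ext
      exact h
    rw [hg1, orderOf_one] at hg
    exact hr.one_lt.ne hg
  obtain ⟨p, k, hp, hchar, hqk⟩ := Cfsg.Agent.H17.exists_char_pow hq
  have hrF : (r : F) ≠ 0 := by
    intro h0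
    have hpr : p ∣ r := (CharP.cast_eq_zero_iff F p r).mp h0
    have hpeq : p = r := (Nat.prime_dvd_prime_iff_eq hp hr).mp hpr
    apply hrq
    rw [hqk, ← hpeq]
    have hk0 : k ≠ 0 := by
      rintro rfl
      have h2 := Cfsg.Agent.H17.two_le_of_card_sq hq
      rw [hqk] at h2
      simp at h2
    exact dvd_pow_self p hk0
  have hord : orderOf (Fintype.card F : ZMod r) = e := by
    rw [hq]
    push_cast
    have h1 : (q : ZMod r) ^ 2 = (-(q : ZMod r)) ^ 2 := by ring
    rw [h1, he]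
    apply Nat.Coprime.orderOf_pow
    rw [← he]
    exact Nat.coprime_two_right.mpr hodd
  obtain ⟨a', ha'⟩ := Cfsg.Agent.H53.Ten.ten_fin_mod r hr hrF M₀ hM₀r
  rw [hord] at ha'
  have hT1 : Matrix.toLinAlgEquiv' M₀ - 1 = (M₀ - 1).mulVecLin := by
    rw [← map_one (Matrix.toLinAlgEquiv' (R := F) (n := Fin e)), ← map_sub]
    rfl
  have hker : LinearMap.ker (Matrix.toLinAlgEquiv' M₀ - 1) = ⊥ := by
    have ha1 : a' ≠ 0 := by
      rintro rfl
      rw [zero_mul, add_zero] at ha'
      have htop : LinearMap.ker (Matrix.toLinAlgEquiv' M₀ - 1) = ⊤ := by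
        apply Submodule.eq_top_of_finrank_eq
        rw [← ha', Module.finrank_fin_fun]
      have h0 : Matrix.toLinAlgEquiv' M₀ - 1 = 0 := LinearMap.ker_eq_top.mp htop
      apply hM₀1
      have h1 : Matrix.toLinAlgEquiv' M₀ =
          Matrix.toLinAlgEquiv' (1 : Matrix (Fin e) (Fin e) F) := by
        rw [map_one]
        exact sub_eq_zero.mp h0
      exact (Matrix.toLinAlgEquiv' (R := F) (n := Fin e)).injective h1
    have hfr : Module.finrank F (LinearMap.ker (Matrix.toLinAlgEquiv' M₀ - 1)) = 0 := by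
      have h1 : e ≤ a' * e := Nat.le_mul_of_pos_left e (Nat.pos_of_ne_zero ha1)
      omega
    exact Submodule.finrank_eq_zero.mp hfr
  have hunit : IsUnit (M₀ - 1).det := by
    rw [← Matrix.isUnit_iff_isUnit_det, ← Matrix.mulVec_injective_iff_isUnit]
    have h1 := hker
    rw [hT1] at h1
    exact LinearMap.ker_eq_bot.mp h1
  have hirr : ∀ W : Submodule F (Fin e → F), W.map (Matrix.toLin' M₀) ≤ W → W = ⊥ ∨ W = ⊤ := by
    intro W hW
    have hT : (Matrix.toLinAlgEquiv' M₀ : Module.End F (Fin e → F)) ^ r = 1 := by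
      rw [← map_pow, hM₀r, map_one]
    have hWinv : ∀ v ∈ W, (Matrix.toLinAlgEquiv' M₀ : Module.End F (Fin e → F)) v ∈ W := by
      intro v hv
      exact hW (Submodule.mem_map_of_mem hv)
    obtain ⟨a, ha⟩ := Cfsg.Agent.H99.El.finrank_invariant_mod (Matrix.toLinAlgEquiv' M₀) r hr hrF
      hT W hWinv
    rw [hker, inf_bot_eq, finrank_bot, zero_add, hord] at ha
    have hle : Module.finrank F W ≤ e := by
      have h1 := Submodule.finrank_le W
      rwa [Module.finrank_fin_fun] at h1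
    rcases Nat.eq_zero_or_pos a with h0 | hpos
    · left
      rw [h0, zero_mul] at ha
      exact Submodule.finrank_eq_zero.mp ha
    · right
      apply Submodule.eq_top_of_finrank_eq
      rw [Module.finrank_fin_fun]
      have h1 : e ≤ a * e := Nat.le_mul_of_pos_left e hpos
      omega
  have hdet : M₀.det = 1 := by
    have h1 : M₀.det ^ r = 1 := by rw [← Matrix.det_pow, hM₀r, Matrix.det_one]
    have h2 : M₀.det ^ (q + 1) = 1 := Cfsg.Agent.H17.gu_det_pow hq e M₀ hpres
    have hcop : Nat.Coprime r (q + 1) := by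
      rw [Nat.Prime.coprime_iff_not_dvd hr]
      intro hdvd
      apply he1
      rw [he, orderOf_eq_one_iff]
      have h3 : ((q + 1 : ℕ) : ZMod r) = 0 := (ZMod.natCast_eq_zero_iff _ _).mpr hdvd
      push_cast at h3
      linear_combination -h3
    exact (pow_eq_one_iff_of_coprime hcop).mp ⟨h1, h2⟩
  exact ⟨M₀, hpres, hdet, hM₀r, hunit, hirr⟩

end Cfsg.Agent.H75.Pair
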