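import Mathlib
import Cfsg.Prelude.Def_GeometricClasses
import Cfsg.Prelude.Def_LieClassical
import Cfsg.Agent.H95.Herm
import Cfsg.Agent.H17.GUBlock
import Cfsg.Agent.H17.HermBasis

/-!
# S5984 piece INVB1 (helper75 for helper99): a nondegenerate even-dimensional unitary space over
a field of odd characteristic splits into two totally singular subspaces
-/

set_option autoImplicit false

open scoped MatrixGroups

namespace Cfsg.Agent.H75.Pair

variable {F : Type*} [Field F] [Fintype F]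

/-- the span of a family of pairwise orthogonal isotropic vectors is totally singular. -/
theorem ts_span {q n : ℕ} (hq : Fintype.card F = q ^ 2) {ι : Type*} (a : ι → Fin n → F)
    (ha : ∀ i j, Cfsg.hermForm n F q (a i) (a j) = 0) :
    Cfsg.Geo.IsTotallySingularFor (Cfsg.hermForm n F q) (Submodule.span F (Set.range a)) := by
  have hq2 : 2 ≤ q := Cfsg.Agent.H17.two_le_of_card_sq hq
  have hzr : ∀ u : Fin n → F, Cfsg.hermForm n F q u 0 = 0 := by
    intro u
    unfold Cfsg.hermForm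
    simp [zero_pow (show q ≠ 0 by omega)]
  have h1 : ∀ i, ∀ y ∈ Submodule.span F (Set.range a), Cfsg.hermForm n F q (a i) y = 0 := by
    intro i y hy
    induction hy using Submodule.span_induction with
    | mem x hx =>
      obtain ⟨j, rfl⟩ := hx
      exact ha i j
    | zero => exact hzr _
    | add x y _ _ hx hy => rw [Cfsg.Agent.H95.hermForm_add_right hq, hx, hy, add_zero]
    | smul c x _ hx => rw [Cfsg.Agent.H95.hermForm_smul_right, hx, mul_zero]
  intro x hx y hy
  induction hx using Submodule.span_induction with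
  | mem x hx =>
    obtain ⟨i, rfl⟩ := hx
    exact h1 i y hy
  | zero => exact Cfsg.Agent.H95.hermForm_zero_left y
  | add x x' _ _ hx hx' => rw [Cfsg.Agent.H95.hermForm_add_left, hx, hx', add_zero]
  | smul c x _ hx => rw [Cfsg.Agent.H95.hermForm_smul_left, hx, mul_zero]

theorem exists_ts_split {q n : ℕ} (hq : Fintype.card F = q ^ 2) (hodd : Odd q)
    (h2 : (2 : F) ≠ 0) (W : Submodule F (Fin n → F)) (k : ℕ)
    (hk : Module.finrank F W = 2 * k)
    (hW : ∀ u ∈ W, (∀ v ∈ W, Cfsg.hermForm n F q u v = 0) → u = 0) :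
    ∃ A B : Submodule F (Fin n → F), A ≤ W ∧ B ≤ W ∧
      Cfsg.Geo.IsTotallySingularFor (Cfsg.hermForm n F q) A ∧
      Cfsg.Geo.IsTotallySingularFor (Cfsg.hermForm n F q) B ∧
      A ⊓ B = ⊥ ∧ A ⊔ B = W := by
  classical
  have hq2 : 2 ≤ q := Cfsg.Agent.H17.two_le_of_card_sq hq
  have hσ2 := Cfsg.Agent.H17.frobHom_invol (F := F) hq
  have hσ := Cfsg.Agent.H17.frobHom_ne_id (F := F) hq
  obtain ⟨B', hB'def⟩ : ∃ B' : W →ₛₗ[Cfsg.Agent.H17.frobHom hq] W →ₗ[F] F,
      B' = (Cfsg.Agent.H17.hermSesq hq n).domRestrict₁₂ W W := ⟨_, rfl⟩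
  have hB' : ∀ x y : W, B' x y = Cfsg.hermForm n F q (y : Fin n → F) (x : Fin n → F) := by
    intro x y
    rw [hB'def]
    rfl
  have hS' : B'.IsSymm := by
    rw [hB'def]
    exact (Cfsg.Agent.H17.hermSesq_isSymm hq n).domRestrict W
  have hnd' : B'.Nondegenerate := by
    constructor
    · intro x hx
      apply Subtype.ext
      apply hW _ x.2
      intro v hv
      have h1 := hx ⟨v, hv⟩
      rw [hB'] at h1
      rw [← Cfsg.Agent.H17.hermForm_conj n hq, h1]
      exact zero_pow (by omega)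
    · intro y hy
      apply Subtype.ext
      apply hW _ y.2
      intro v hv
      have h1 := hy ⟨v, hv⟩
      rw [hB'] at h1
      exact h1
  obtain ⟨b, hb⟩ := Cfsg.Agent.H17.herm_onb_aux (Cfsg.Agent.H17.frobHom hq) hσ hσ2 (2 * k) W B'
    hS' hnd' hk
  simp only [hB'] at hb
  have hcardeq : Fintype.card (Fin (2 * k)) = Fintype.card (Fin k × Fin 2) := by
    simp [mul_comm]
  obtain ⟨e⟩ : Nonempty (Fin (2 * k) ≃ Fin k × Fin 2) := ⟨Fintype.equivOfCardEq hcardeq⟩
  obtain ⟨u, hudef⟩ : ∃ u : Fin k × Fin 2 → Fin n → F,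
      u = fun x => (b (e.symm x) : Fin n → F) := ⟨_, rfl⟩
  have hu : ∀ x y, Cfsg.hermForm n F q (u x) (u y) = if x = y then 1 else 0 := by
    intro x y
    rw [hudef]
    simp only
    rw [hb (e.symm y) (e.symm x)]
    simp [eq_comm]
  have huW : ∀ x, u x ∈ W := fun x => by
    rw [hudef]
    exact (b (e.symm x)).2
  have hspan : ∀ w ∈ W, w ∈ Submodule.span F (Set.range u) := by
    intro w hw
    have h1 : (⟨w, hw⟩ : W) ∈ Submodule.span F (Set.range b) := by
      rw [b.span_eq]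
      exact Submodule.mem_top
    have h3 : w ∈ (Submodule.span F (Set.range b)).map W.subtype := ⟨⟨w, hw⟩, h1, rfl⟩
    rw [Submodule.map_span] at h3
    refine Submodule.span_mono ?_ h3
    rintro _ ⟨_, ⟨i, rfl⟩, rfl⟩
    refine ⟨e i, ?_⟩
    rw [hudef]
    simp
  obtain ⟨κ, hκ⟩ : ∃ κ : F, κ ^ (q + 1) = -1 := by
    have hc : Cfsg.Agent.H17.frobHom hq (-1 : F) = -1 := by
      rw [Cfsg.Agent.H17.frobHom_apply, hodd.neg_one_pow]
    obtain ⟨t, ht⟩ := Cfsg.Agent.H17.exists_norm_eq (Cfsg.Agent.H17.frobHom hq) hσ hσ2 (-1)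
      (by simp) hc
    refine ⟨t, ?_⟩
    rw [pow_succ', ← ht, Cfsg.Agent.H17.frobHom_apply]
  have hκ0 : κ ≠ 0 := by
    rintro rfl
    rw [zero_pow (by omega)] at hκ
    simp at hκ
  have hκ' : (-κ) ^ (q + 1) = -1 := by
    rw [Even.neg_pow hodd.add_one, hκ]
  have hfam : ∀ c : F, c ^ (q + 1) = -1 → ∀ i j : Fin k,
      Cfsg.hermForm n F q (u (i, 0) + c • u (i, 1)) (u (j, 0) + c • u (j, 1)) = 0 := by
    intro c hc i j
    rw [Cfsg.Agent.H95.hermForm_add_left, Cfsg.Agent.H95.hermForm_add_right hq,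
      Cfsg.Agent.H95.hermForm_add_right hq, Cfsg.Agent.H95.hermForm_smul_left,
      Cfsg.Agent.H95.hermForm_smul_left, Cfsg.Agent.H95.hermForm_smul_right,
      Cfsg.Agent.H95.hermForm_smul_right, hu, hu, hu, hu]
    by_cases hij : i = j
    · subst hij
      simp only [Prod.mk.injEq, true_and, if_true]
      simp only [show ((0 : Fin 2) = 1) = False from by simp, show ((1 : Fin 2) = 0) = False from by simp, if_false]
      rw [pow_succ'] at hc
      linear_combination hc
    · simp [hij]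
  have hAW : ∀ c : F, Submodule.span F (Set.range fun j : Fin k => u (j, 0) + c • u (j, 1)) ≤ W := by
    intro c
    rw [Submodule.span_le]
    rintro _ ⟨j, rfl⟩
    exact W.add_mem (huW _) (W.smul_mem _ (huW _))
  obtain ⟨A, hAdef⟩ : ∃ A : Submodule F (Fin n → F),
      A = Submodule.span F (Set.range fun j : Fin k => u (j, 0) + κ • u (j, 1)) := ⟨_, rfl⟩
  obtain ⟨B, hBdef⟩ : ∃ B : Submodule F (Fin n → F),
      B = Submodule.span F (Set.range fun j : Fin k => u (j, 0) + (-κ) • u (j, 1)) := ⟨_, rfl⟩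
  have hAle : A ≤ W := hAdef ▸ hAW κ
  have hBle : B ≤ W := hBdef ▸ hAW (-κ)
  have hsup : A ⊔ B = W := by
    apply le_antisymm (sup_le hAle hBle)
    intro w hw
    refine (Submodule.span_le.mpr ?_) (hspan w hw)
    rintro _ ⟨⟨j, t⟩, rfl⟩
    have ha : u (j, 0) + κ • u (j, 1) ∈ A ⊔ B := by
      apply Submodule.mem_sup_left
      rw [hAdef]
      exact Submodule.subset_span ⟨j, rfl⟩
    have hb' : u (j, 0) + (-κ) • u (j, 1) ∈ A ⊔ B := by
      apply Submodule.mem_sup_right
      rw [hBdef]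
      exact Submodule.subset_span ⟨j, rfl⟩
    fin_cases t
    · have h1 : u (j, 0) =
          (2 : F)⁻¹ • ((u (j, 0) + κ • u (j, 1)) + (u (j, 0) + (-κ) • u (j, 1))) := by
        have h3 : (u (j, 0) + κ • u (j, 1)) + (u (j, 0) + (-κ) • u (j, 1)) = (2 : F) • u (j, 0) := by
          module
        rw [h3, smul_smul, inv_mul_cancel₀ h2, one_smul]
      show u (j, 0) ∈ A ⊔ B
      rw [h1]
      exact Submodule.smul_mem _ _ (Submodule.add_mem _ ha hb')
    · have h1 : u (j, 1) =
          (2 * κ)⁻¹ • ((u (j, 0) + κ • u (j, 1)) - (u (j, 0) + (-κ) • u (j, 1))) := by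
        have h3 : (u (j, 0) + κ • u (j, 1)) - (u (j, 0) + (-κ) • u (j, 1)) =
            (2 * κ) • u (j, 1) := by
          module
        rw [h3, smul_smul, inv_mul_cancel₀ (mul_ne_zero h2 hκ0), one_smul]
      show u (j, 1) ∈ A ⊔ B
      rw [h1]
      exact Submodule.smul_mem _ _ (Submodule.sub_mem _ ha hb')
  refine ⟨A, B, hAle, hBle, hAdef ▸ ts_span hq _ (hfam κ hκ), hBdef ▸ ts_span hq _ (hfam (-κ) hκ'),
    ?_, hsup⟩
  have hA := finrank_range_le_card (R := F) (fun j : Fin k => u (j, 0) + κ • u (j, 1))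
  have hB := finrank_range_le_card (R := F) (fun j : Fin k => u (j, 0) + (-κ) • u (j, 1))
  rw [Fintype.card_fin] at hA hB
  unfold Set.finrank at hA hB
  rw [← hAdef] at hA
  rw [← hBdef] at hB
  have hdim := Submodule.finrank_sup_add_finrank_inf_eq A B
  rw [hsup, hk] at hdim
  apply Submodule.finrank_eq_zero.mp
  omega

end Cfsg.Agent.H75.Pair
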