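import Mathlib
import Cfsg.Prelude
import Cfsg.Agent.H85.RTDefs
import Cfsg.Agent.H40.RootInv
import Cfsg.Agent.H53.RootCore
import Cfsg.Agent.H5.BaerSuzuki

/-!
# S5046 piece P2 (helper75 for helper85): twins commute (Baer–Suzuki argument).
-/

set_option autoImplicit false

namespace Cfsg.Agent.H75.RT

open Cfsg.Agent.H85.RT

universe u

theorem p2 (hT : StTrans.{u}) (hC : StTwComm.{u}) : StP2.{u} := by
  intro G _ _ D hD hc c w hcD hwD htw
  by_contra hne
  obtain ⟨h4o, hzD, hztw⟩ := hC hD hc hcD hwD htw hne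
  have hsq : ∀ {d : G}, d ∈ D → d * d = 1 := fun hd => Cfsg.Agent.H40.RootInv.sq_of_mem hD hd
  have hinv : ∀ {d : G}, d ∈ D → d⁻¹ = d := fun hd => inv_eq_of_mul_eq_one_left (hsq hd)
  let R : Set G := {u | u ∈ D ∧ Tw D u c}
  -- (1) `W = ⟨R⟩` normalizes `R`
  have hnorm : ∀ g ∈ Subgroup.closure R, ∀ r ∈ R, g * r * g⁻¹ ∈ R ∧ g⁻¹ * r * g ∈ R := by
    intro g hg
    induction hg using Subgroup.closure_induction with
    | mem x hx =>
      intro r hr
      have hx' : x⁻¹ = x := hinv hx.1
      have key : x * r * x⁻¹ ∈ R := by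
        refine ⟨hD.conj_mem r hr.1 x, ?_⟩
        have h1 : Tw D r x := hr.2.trans hx.2.symm
        have h2 := tw_conj hD x h1
        have e : x * x * x⁻¹ = x := by group
        rw [e] at h2
        exact h2.trans hx.2
      refine ⟨key, ?_⟩
      have e : x⁻¹ * r * x = x * r * x⁻¹ := by rw [hx']
      rw [e]
      exact key
    | one =>
      intro r hr
      simpa using hr
    | mul x y hx hy ihx ihy =>
      intro r hr
      constructor
      · have := (ihx _ (ihy r hr).1).1
        have e : x * y * r * (x * y)⁻¹ = x * (y * r * y⁻¹) * x⁻¹ := by group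
        rw [e]
        exact this
      · have := (ihy _ (ihx r hr).2).2
        have e : (x * y)⁻¹ * r * (x * y) = y⁻¹ * (x⁻¹ * r * x) * y := by group
        rw [e]
        exact this
    | inv x hx ih =>
      intro r hr
      constructor
      · have := (ih r hr).2
        simpa using this
      · have := (ih r hr).1
        simpa using this
  -- (2) products of two members of `R` have order dividing 4
  have hpow4 : ∀ a ∈ R, ∀ b ∈ R, (a * b) ^ 4 = 1 := by
    intro a ha b hb
    by_cases hab : a * b = b * a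
    · have h2 : (a * b) ^ 2 = 1 := by
        rw [pow_two]
        calc a * b * (a * b) = a * (b * a) * b := by group
          _ = a * (a * b) * b := by rw [hab]
          _ = (a * a) * (b * b) := by group
          _ = 1 := by rw [hsq ha.1, hsq hb.1, one_mul]
      rw [show (4 : ℕ) = 2 * 2 from rfl, pow_mul, h2, one_pow]
    · obtain ⟨h4, -, -⟩ := hC hD hc ha.1 hb.1 (ha.2.trans hb.2.symm) hab
      rw [← h4]
      exact pow_orderOf_eq_one _
  have hRW : ∀ r ∈ R, r ∈ Subgroup.closure R := fun r hr => Subgroup.subset_closure hr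
  have : Fact (Nat.Prime 2) := ⟨Nat.prime_two⟩
  -- (3) `W` is a 2-group
  have hW2 : IsPGroup 2 (Subgroup.closure R) := by
    obtain ⟨P⟩ : Nonempty (Sylow 2 (Subgroup.closure R)) := inferInstance
    have hle : ∀ r (hr : r ∈ R),
        (⟨r, hRW r hr⟩ : Subgroup.closure R) ∈ (P : Subgroup (Subgroup.closure R)) := by
      intro r hr
      set r' : Subgroup.closure R := ⟨r, hRW r hr⟩ with hr'
      have hr'2 : r' * r' = 1 := Subtype.ext (hsq hr.1)
      have hX : IsPGroup 2 (Subgroup.zpowers r') := by
        rintro ⟨y, hy⟩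
        refine ⟨1, ?_⟩
        obtain ⟨k, rfl⟩ := Subgroup.mem_zpowers_iff.mp hy
        apply Subtype.ext
        simp only [Subgroup.coe_pow, Subgroup.coe_one, pow_one]
        rw [← zpow_natCast, ← zpow_mul, mul_comm, zpow_mul, zpow_natCast, pow_two, hr'2, one_zpow]
      have hjoin : ∀ g : Subgroup.closure R, IsPGroup 2
          ↥(Subgroup.zpowers r' ⊔ (Subgroup.zpowers r').map (MulAut.conj g).toMonoidHom) := by
        intro g
        set b : Subgroup.closure R := g * r' * g⁻¹ with hb
        have hbR : (b : G) ∈ R := (hnorm g g.2 r hr).1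
        have hb2 : b * b = 1 := Subtype.ext (hsq hbR.1)
        have h4 : (r' * b) ^ 4 = 1 := Subtype.ext (hpow4 r hr b hbR)
        have hdih := Cfsg.Agent.H53.RootInv.rc_dih hr'2 hb2 h4
        have hle : Subgroup.zpowers r' ⊔ (Subgroup.zpowers r').map (MulAut.conj g).toMonoidHom
            ≤ Subgroup.closure {r', b} := by
          apply sup_le
          · rw [Subgroup.zpowers_le]
            exact Subgroup.subset_closure (by simp)
          · rw [Subgroup.map_le_iff_le_comap, Subgroup.zpowers_le, Subgroup.mem_comap]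
            exact Subgroup.subset_closure (by simp [hb, MulAut.conj_apply])
        intro x
        refine ⟨2, ?_⟩
        have := hdih x.1 (hle x.2)
        exact Subtype.ext this
      obtain ⟨N, hN, hNp, hXN⟩ :=
        Cfsg.Agent.H5.baer_suzuki (p := 2) (Subgroup.zpowers r') hX hjoin
      have := hN
      exact (hNp.le_sylow_of_normal P) (hXN (Subgroup.mem_zpowers r'))
    have htop : (P : Subgroup (Subgroup.closure R)) = ⊤ := by
      rw [eq_top_iff, ← Subgroup.closure_closure_coe_preimage (k := R), Subgroup.closure_le]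
      intro x hx
      exact hle x.1 hx
    intro x
    obtain ⟨k, hk⟩ := P.isPGroup' ⟨x, htop ▸ Subgroup.mem_top x⟩
    exact ⟨k, by simpa [Subtype.ext_iff] using hk⟩
  -- (4) `W` is perfect
  have hperf : commutator (Subgroup.closure R) = ⊤ := by
    rw [eq_top_iff, ← Subgroup.closure_closure_coe_preimage (k := R), Subgroup.closure_le]
    intro x hx
    have hxR : (x : G) ∈ R := hx
    obtain ⟨g, hg, hgw⟩ := hT hD hc hzD hxR.1 (hztw.trans hxR.2.symm)
    have haR : g * c * g⁻¹ ∈ R :=
      ⟨hD.conj_mem c hcD g, (hgw c hcD hztw.symm).trans hztw⟩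
    have hbR : g * w * g⁻¹ ∈ R :=
      ⟨hD.conj_mem w hwD g, (hgw w hwD (htw.symm.trans hztw.symm)).trans hztw⟩
    have hx_eq : x = commutatorElement.bracket (⟨g * c * g⁻¹, hRW _ haR⟩ : Subgroup.closure R)
        (⟨g * w * g⁻¹, hRW _ hbR⟩ : Subgroup.closure R) := by
      apply Subtype.ext
      show (x : G) = (g * c * g⁻¹) * (g * w * g⁻¹) * (g * c * g⁻¹)⁻¹ * (g * w * g⁻¹)⁻¹
      rw [hinv haR.1, hinv hbR.1, ← hg, pow_two]
      group
    rw [hx_eq]
    exact Subgroup.commutator_mem_commutator (Subgroup.mem_top _) (Subgroup.mem_top _)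
  -- (5) contradiction
  have : Nontrivial (Subgroup.closure R) := by
    refine ⟨⟨⟨c, hRW c ⟨hcD, Tw.refl c⟩⟩, 1, ?_⟩⟩
    intro h
    have : c = 1 := congrArg Subtype.val h
    exact Cfsg.Agent.H40.RootInv.ne_one_of_mem hD hcD this
  have : Group.IsNilpotent (Subgroup.closure R) := hW2.isNilpotent
  have := Group.IsSolvable.commutator_lt_top_of_nontrivial (Subgroup.closure R)
  rw [hperf] at this
  exact lt_irrefl _ this

end Cfsg.Agent.H75.RT
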