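import Mathlib
import Cfsg.Prelude
import Cfsg.Agent.H85.RTDefs
import Cfsg.Agent.H40.RootInv

/-!
# S5046 piece TWCOMM (helper75 for helper85): the commutator of two non-commuting twins is a twin.
-/

set_option autoImplicit false

namespace Cfsg.Agent.H75.RT

open Cfsg.Agent.H85.RT

universe u

theorem tw_comm (h4 : St4GL.{u}) : StTwComm.{u} := by
  intro G _ _ D hD hc c w hcD hwD htw hne
  have hc2 := Cfsg.Agent.H40.RootInv.sq_of_mem hD hcD
  have hw2 := Cfsg.Agent.H40.RootInv.sq_of_mem hD hwD
  have hcinv : c⁻¹ = c := inv_eq_of_mul_eq_one_left hc2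
  have hwinv : w⁻¹ = w := inv_eq_of_mul_eq_one_left hw2
  rcases hD.pair c hcD w hwD with h | h | ⟨h4o, hzD⟩
  · exact absurd h hne
  · exfalso
    have hwne : w ≠ c := by
      rintro rfl
      exact hne rfl
    have hmem : w ∈ Cfsg.oddPartners D c := ⟨hwD, hwne, h⟩
    have htw0 : Cfsg.oddPartners D c = Cfsg.oddPartners D w := htw
    rw [htw0] at hmem
    exact hmem.2.1 rfl
  · refine ⟨h4o, hzD, ?_⟩
    have h4p : (c * w) ^ 4 = 1 := by
      rw [← h4o]
      exact pow_orderOf_eq_one _
    obtain ⟨hR, -, -, -, -⟩ := Cfsg.Agent.H40.RootInv.dih8 hc2 hw2 h4p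
    have hw'D : c * w * c⁻¹ ∈ D := hD.conj_mem w hwD c
    have htw' : Tw D (c * w * c⁻¹) c := by
      have := tw_conj hD c htw.symm
      have e : c * c * c⁻¹ = c := by group
      rw [e] at this
      exact this
    have htw'' : Tw D (c * w * c⁻¹) w := htw'.trans htw
    have hne' : c * w * c⁻¹ ≠ w := by
      intro he
      apply hne
      calc c * w = c * w * c⁻¹ * c := by group
        _ = w * c := by rw [he]
    have hprod : c * w * c⁻¹ * w = (c * w) ^ 2 := by
      rw [hcinv, pow_two]
      group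
    have hcomm : c * w * c⁻¹ * w = w * (c * w * c⁻¹) := by
      rw [hcinv]
      have e1 : c * w * (c * w) = (c * w * (c * w))⁻¹ := eq_inv_of_mul_eq_one_left hR
      have e2 : (c * w * (c * w))⁻¹ = w⁻¹ * c⁻¹ * (w⁻¹ * c⁻¹) := by group
      rw [hcinv, hwinv] at e2
      calc c * w * c * w = c * w * (c * w) := by group
        _ = w * c * (w * c) := by rw [e1, e2]
        _ = w * (c * w * c) := by group
    have hz' : c * w * c⁻¹ * w ∈ D := by
      rw [hprod]
      exact hzD
    have := h4 hD hc hw'D hwD htw'' hne' hcomm hz'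
    rw [hprod] at this
    exact this.trans htw'

end Cfsg.Agent.H75.RT
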