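import Mathlib
import Cfsg.Agent.H96.RoDefs
/-!
S2127 team project (helper96), piece RO-FINAL: the outer automorphism group of a group with a Ree
datum has order `2m + 1` (field automorphisms), from RO-NORM, RO-COORD, RO-RIGID, RO-INNER, RO-CARD.
-/
set_option autoImplicit false

namespace Cfsg.Agent.H75.Ro

open Cfsg.Agent.H96.Ro

universe u v

theorem final (hn : StNorm.{u, v}) (hc : StCoord.{u, v}) (hr : StRigid.{u, v})
    (hi : StInner.{u, v}) (hk : StCard.{u}) : StFinal.{u, v} := by
  intro K _ _ _ m hm hK G _ _ D Φ hΦR hΦh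
  have hcard := hk K m hK
  rw [← hcard]
  have hcomm : ∀ a b : Kˣ, D.h a * D.h b = D.h b * D.h a := by
    intro a b
    rw [← D.h_mul, ← D.h_mul, mul_comm]
  let Ψ : (K ≃+* K) → MulAut G ⧸ (MulAut.conj : G →* MulAut G).range :=
    fun σ => QuotientGroup.mk (Φ σ)
  have hinj : Function.Injective Ψ := by
    intro σ σ' hσ
    have h1 : (Φ σ)⁻¹ * Φ σ' ∈ (MulAut.conj : G →* MulAut G).range := QuotientGroup.eq.mp hσ
    obtain ⟨g, hg⟩ := h1
    have hτ : (Φ σ)⁻¹ * Φ σ' = Φ (σ⁻¹ * σ') := by rw [map_mul, map_inv]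
    rw [hτ] at hg
    have key := hi K m hm hK G D (σ⁻¹ * σ') g
      (by
        intro t u v
        have := congrArg (fun f : MulAut G => f (D.R t u v)) hg
        simp only [MulAut.conj_apply] at this
        rw [this]
        exact hΦR _ t u v)
      (by
        intro κ
        obtain ⟨κ', -, hκ'⟩ := hΦh (σ⁻¹ * σ') κ
        refine ⟨κ', ?_⟩
        have := congrArg (fun f : MulAut G => f (D.h κ)) hg
        simp only [MulAut.conj_apply] at this
        rw [this]
        exact hκ')
    have h1' : σ⁻¹ * σ' = 1 := by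
      ext x
      exact key x
    exact inv_mul_eq_one.mp h1'
  have hsurj : Function.Surjective Ψ := by
    intro q
    induction q using QuotientGroup.induction_on with
    | H α =>
      obtain ⟨g, hgR, hgh⟩ := hn K G (3 ^ (m + 1)) D α
      obtain ⟨β, hβ⟩ : ∃ β : MulAut G, β = MulAut.conj g * α := ⟨_, rfl⟩
      have hβx : ∀ x, β x = g * α x * g⁻¹ := fun x => by
        rw [hβ, MulAut.mul_apply, MulAut.conj_apply]
      obtain ⟨σ, c, hσR, hσh⟩ := hc K m hm hK G D β
        (fun t u v => by rw [hβx]; exact hgR t u v) (fun κ => by rw [hβx]; exact hgh κ)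
      have hfix : ∀ x, (Φ σ)⁻¹ ((D.h c)⁻¹ * β x * D.h c) = x := by
        have := hr K m hm hK G D ((Φ σ)⁻¹ * (MulAut.conj (D.h c))⁻¹ * β)
          (by
            intro t u v
            rw [MulAut.mul_apply, MulAut.mul_apply, MulAut.conj_inv_apply, hσR]
            have e : (D.h c)⁻¹ * (D.h c * D.R (σ t) (σ u) (σ v) * (D.h c)⁻¹) * D.h c =
                D.R (σ t) (σ u) (σ v) := by group
            rw [e, ← hΦR σ t u v]
            exact MulAut.inv_apply_self _ _ _)
          (by
            intro κ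
            obtain ⟨κ', hκ'K, hκ'⟩ := hσh κ
            obtain ⟨κ'', hκ''K, hκ''⟩ := hΦh σ κ
            have hκκ : κ'' = κ' := Units.ext (hκ''K.trans hκ'K.symm)
            rw [MulAut.mul_apply, MulAut.mul_apply, MulAut.conj_inv_apply, hκ']
            have e : (D.h c)⁻¹ * D.h κ' * D.h c = D.h κ' := by
              rw [mul_assoc, hcomm, inv_mul_cancel_left]
            rw [e, ← hκκ, ← hκ'']
            exact MulAut.inv_apply_self _ _ _)
        intro x
        have h := this x
        rw [MulAut.mul_apply, MulAut.mul_apply, MulAut.conj_inv_apply] at h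
        exact h
      refine ⟨σ, ?_⟩
      show QuotientGroup.mk (Φ σ) = QuotientGroup.mk α
      rw [QuotientGroup.eq]
      obtain ⟨w, hw⟩ : ∃ w : G, w = g⁻¹ * D.h c := ⟨_, rfl⟩
      refine ⟨(Φ σ)⁻¹ w, ?_⟩
      ext z
      rw [MulAut.conj_apply, MulAut.mul_apply]
      have h1 := hfix z
      rw [hβx] at h1
      have h3 : Φ σ z = (D.h c)⁻¹ * (g * α z * g⁻¹) * D.h c := by
        have := congrArg (Φ σ) h1
        rw [MulAut.apply_inv_self] at this
        exact this.symm
      have h2 : α z = w * (Φ σ z) * w⁻¹ := by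
        rw [h3, hw]; group
      rw [h2]
      have e1 : ∀ a b : G, (Φ σ)⁻¹ (a * b) = (Φ σ)⁻¹ a * (Φ σ)⁻¹ b := fun a b => map_mul _ a b
      have e2 : ∀ a : G, (Φ σ)⁻¹ (a⁻¹) = ((Φ σ)⁻¹ a)⁻¹ := fun a => map_inv _ a
      rw [e1, e1, e2, MulAut.inv_apply_self]
  exact (Nat.card_congr (Equiv.ofBijective Ψ ⟨hinj, hsurj⟩)).symm

example : (@final.{u, v} : StNorm.{u, v} → StCoord.{u, v} → StRigid.{u, v} → StInner.{u, v} →
    StCard.{u} → Cfsg.Agent.H96.Ro.StFinal.{u, v}) = @final.{u, v} := rfl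

end Cfsg.Agent.H75.Ro
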