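import Mathlib
import Cfsg.Agent.H96.RoDefs
/-!
S2127 team project (helper96), piece RO-TRIV: a multiplicative `H`-equivariant self-map of
`(K³, rm)` which is the identity on the first coordinate of `(t, 0, 0)` is the identity (glue of
RO-TRIV1, RO-TRIV2A, RO-TRIV2B).
-/
set_option autoImplicit false

namespace Cfsg.Agent.H75.Ro

open Cfsg.Agent.H96.Ro

universe u

theorem triv (h1 : StTriv1.{u}) (h2a : StTriv2A.{u}) (h2b : StTriv2B.{u}) : StTriv.{u} := by
  intro K _ _ _ m hm hK γ hmul heq hfirst a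
  obtain ⟨F2, G3, f3, g1, g2, hshape, hF2add, hG3add, hf3add, hF2eq, hG3eq, hg1eq, hg2eq⟩ :=
    h1 K m hm hK γ hmul heq hfirst
  obtain ⟨hF2, hg1, hG3⟩ :=
    h2a K m hm hK γ hmul F2 G3 f3 g1 g2 hshape hF2add hG3add hF2eq hG3eq hg1eq
  have hshape' : ∀ t u v : K, γ (t, u, v) = (t, u, g2 t + f3 v) := by
    intro t u v
    rw [hshape, hg1, hF2, hG3, zero_add, add_zero]
  obtain ⟨hf3, hg2⟩ := h2b K m hm hK γ hmul f3 g2 hshape' hf3add hg2eq
  obtain ⟨t, u, v⟩ := a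
  rw [hshape', hg2, hf3, zero_add]

example : (@triv.{u} : StTriv1.{u} → StTriv2A.{u} → StTriv2B.{u} →
    Cfsg.Agent.H96.Ro.StTriv.{u}) = @triv.{u} := rfl

end Cfsg.Agent.H75.Ro
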