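import Mathlib
import Cfsg.Agent.H91.SMDefs
import Cfsg.Agent.H85.StLinMain

set_option autoImplicit false

/-! S2086 piece SPLIT (helper75 for helper91): a central extension `ρ : E → SL_n(K)` (`n ≥ 3`, `K`
finite) satisfying `Comm`, `Ind`, `Rel3` has a section, via the Steinberg presentation. -/

namespace Cfsg.Agent.H75.SM

open Matrix Subgroup Cfsg.Agent.H91.SM Cfsg.Agent.H85.StLin
open scoped commutatorElement

universe u v

section
variable {n : ℕ} {K : Type u} [Field K] {E : Type v} [Group E]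

theorem exists_third (hn : 3 ≤ n) (i j : Fin n) : ∃ h : Fin n, h ≠ i ∧ h ≠ j := by
  by_contra hcon
  have hcon' : ∀ h : Fin n, h ≠ i → h = j := fun h hh => by_contra fun h' => hcon ⟨h, hh, h'⟩
  have h1 : (Finset.univ : Finset (Fin n)) ⊆ {i, j} := by
    intro b _
    by_cases hb : b = i
    · simp [hb]
    · simp [hcon' b hb]
  have h2 := Finset.card_le_card h1
  rw [Finset.card_univ, Fintype.card_fin] at h2
  have h3 := Finset.card_le_two (a := i) (b := j)
  omega

/-- A chosen third index. -/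
noncomputable def third (hn : 3 ≤ n) (i j : Fin n) : Fin n := Classical.choose (exists_third hn i j)

theorem third_ne_left (hn : 3 ≤ n) (i j : Fin n) : third hn i j ≠ i :=
  (Classical.choose_spec (exists_third hn i j)).1

theorem third_ne_right (hn : 3 ≤ n) (i j : Fin n) : third hn i j ≠ j :=
  (Classical.choose_spec (exists_third hn i j)).2

theorem comm_mul_central_left {z : E} (hz : z ∈ center E) (a b : E) : ⁅a * z, b⁆ = ⁅a, b⁆ := by
  rw [Subgroup.mem_center_iff] at hz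
  have h1 : z * b = b * z := (hz b).symm
  calc ⁅a * z, b⁆ = a * (z * b * z⁻¹) * a⁻¹ * b⁻¹ := by rw [commutatorElement_def]; group
    _ = a * b * a⁻¹ * b⁻¹ := by rw [h1, mul_inv_cancel_right]
    _ = ⁅a, b⁆ := (commutatorElement_def a b).symm

theorem comm_mul_central_right {z : E} (hz : z ∈ center E) (a b : E) : ⁅a, b * z⁆ = ⁅a, b⁆ := by
  rw [Subgroup.mem_center_iff] at hz
  have h2 : z * a⁻¹ * z⁻¹ = a⁻¹ := by rw [← hz a⁻¹, mul_inv_cancel_right]
  calc ⁅a, b * z⁆ = a * b * (z * a⁻¹ * z⁻¹) * b⁻¹ := by rw [commutatorElement_def]; group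
    _ = a * b * a⁻¹ * b⁻¹ := by rw [h2]
    _ = ⁅a, b⁆ := (commutatorElement_def a b).symm

/-- Commutators of lifts depend only on the images (central kernel). -/
theorem comm_congr (ρ : E →* SLn n K) (hker : ρ.ker ≤ center E) {a a' b b' : E}
    (ha : ρ a = ρ a') (hb : ρ b = ρ b') : ⁅a, b⁆ = ⁅a', b'⁆ := by
  have hz : a⁻¹ * a' ∈ center E :=
    hker (by rw [MonoidHom.mem_ker, map_mul, map_inv, ha, inv_mul_cancel])
  have hz' : b⁻¹ * b' ∈ center E :=
    hker (by rw [MonoidHom.mem_ker, map_mul, map_inv, hb, inv_mul_cancel])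
  have e1 : a' = a * (a⁻¹ * a') := by group
  have e2 : b' = b * (b⁻¹ * b') := by group
  rw [e1, e2, comm_mul_central_left hz, comm_mul_central_right hz']

theorem tv_comm {i j l : Fin n} (hij : i ≠ j) (hjl : j ≠ l) (hil : i ≠ l) (a b : K) :
    ⁅(tv hij a : SLn n K), tv hjl b⁆ = tv hil (a * b) := by
  rw [commutatorElement_def, tr_inv, tr_inv]
  exact Cfsg.Agent.H45.transvection_comm_rel hij hjl hil a b

theorem comm_mul_right' (a b c : E) : ⁅a, b * c⁆ = ⁅a, b⁆ * (b * ⁅a, c⁆ * b⁻¹) := by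
  simp only [commutatorElement_def]; group

variable (ρ : E →* SLn n K) (hsurj : Function.Surjective ρ) (hn : 3 ≤ n)

/-- The lifted generators `s_ij(t) = [L(x_ih(1)), L(x_hj(t))]`. -/
noncomputable def sgen (x : Idx n × K) : E :=
  ⁅Function.surjInv hsurj (tv (third_ne_left hn x.1.1.1 x.1.1.2).symm (1 : K)),
    Function.surjInv hsurj (tv (third_ne_right hn x.1.1.1 x.1.1.2) x.2)⁆

theorem rho_sgen (x : Idx n × K) : ρ (sgen ρ hsurj hn x) = tv x.1.2 x.2 := by
  unfold sgen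
  rw [map_commutatorElement, Function.surjInv_eq hsurj, Function.surjInv_eq hsurj,
    tv_comm _ _ x.1.2, one_mul]

/-- `s_ij(t)` is the commutator of any lifts of `x_ih(1)`, `x_hj(t)`, for any third index. -/
theorem sgen_eq (hker : ρ.ker ≤ center E) (hInd : Ind ρ) (x : Idx n × K) (h : Fin n)
    (hih : x.1.1.1 ≠ h) (hhj : h ≠ x.1.1.2) (p q : E) (hp : ρ p = tv hih 1)
    (hq : ρ q = tv hhj x.2) : sgen ρ hsurj hn x = ⁅p, q⁆ := by
  by_cases hh : third hn x.1.1.1 x.1.1.2 = h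
  · subst hh
    unfold sgen
    apply comm_congr ρ hker
    · rw [Function.surjInv_eq hsurj, hp]
    · rw [Function.surjInv_eq hsurj, hq]
  · unfold sgen
    exact hInd x.1.1.1 x.1.1.2 (third hn x.1.1.1 x.1.1.2) h
      (third_ne_left hn x.1.1.1 x.1.1.2).symm (third_ne_right hn x.1.1.1 x.1.1.2) hih hhj
      x.1.2 hh x.2 _ _ p q (Function.surjInv_eq hsurj _) (Function.surjInv_eq hsurj _) hp hq

theorem sgen_rels (hker : ρ.ker ≤ center E) (hC : Comm ρ) (hInd : Ind ρ) (hR : Rel3 ρ) :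
    ∀ r ∈ rels K n, FreeGroup.lift (sgen ρ hsurj hn) r = 1 := by
  rintro r ((⟨a, t, w, rfl⟩ | ⟨a, b, t, w, h1, h2, rfl⟩) | ⟨a, b, h, t, w, h1, rfl⟩)
  · simp only [map_mul, map_inv, FreeGroup.lift_apply_of]
    rw [mul_inv_eq_one]
    -- s_a(t) s_a(w) = s_a(t+w)
    obtain ⟨⟨i, j⟩, hij⟩ := a
    simp only at hij
    set hh := third hn i j with hhdef
    have hih : i ≠ hh := (third_ne_left hn i j).symm
    have hhj : hh ≠ j := third_ne_right hn i j
    set U := Function.surjInv hsurj (tv hih (1 : K)) with hU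
    set Vt := Function.surjInv hsurj (tv hhj t) with hVt
    set Vw := Function.surjInv hsurj (tv hhj w) with hVw
    have e1 : sgen ρ hsurj hn (⟨(i, j), hij⟩, t + w) = ⁅U, Vt * Vw⁆ := by
      apply sgen_eq ρ hsurj hn hker hInd (⟨(i, j), hij⟩, t + w) hh hih hhj
      · exact Function.surjInv_eq hsurj _
      · rw [map_mul, hVt, hVw, Function.surjInv_eq hsurj, Function.surjInv_eq hsurj, tr_mul]
    have e2 : sgen ρ hsurj hn (⟨(i, j), hij⟩, t) = ⁅U, Vt⁆ := rfl
    have e3 : sgen ρ hsurj hn (⟨(i, j), hij⟩, w) = ⁅U, Vw⁆ := rfl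
    rw [e1, comm_mul_right', ← e2, ← e3]
    congr 1
    have hc : Vt * sgen ρ hsurj hn (⟨(i, j), hij⟩, w) = sgen ρ hsurj hn (⟨(i, j), hij⟩, w) * Vt :=
      hC hh j i j hhj hij hhj hij.symm t w _ _ (Function.surjInv_eq hsurj _)
        (rho_sgen ρ hsurj hn (⟨(i, j), hij⟩, w))
    rw [hc, mul_inv_cancel_right]
  · simp only [map_mul, map_inv, FreeGroup.lift_apply_of]
    have hc : sgen ρ hsurj hn (a, t) * sgen ρ hsurj hn (b, w)
        = sgen ρ hsurj hn (b, w) * sgen ρ hsurj hn (a, t) :=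
      hC a.1.1 a.1.2 b.1.1 b.1.2 a.2 b.2 h1 h2 t w _ _ (rho_sgen ρ hsurj hn (a, t))
        (rho_sgen ρ hsurj hn (b, w))
    rw [hc]
    group
  · simp only [map_mul, map_inv, FreeGroup.lift_apply_of]
    obtain ⟨⟨i, j⟩, hij⟩ := a
    obtain ⟨⟨j', l⟩, hjl⟩ := b
    simp only at h1 h hij hjl
    subst h1
    rw [mul_inv_eq_one, ← commutatorElement_def]
    set p := Function.surjInv hsurj (tv hij (1 : K)) with hp
    set q := Function.surjInv hsurj (tv hjl (t * w)) with hq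
    have e1 : ⁅sgen ρ hsurj hn (⟨(i, j), hij⟩, t), sgen ρ hsurj hn (⟨(j, l), hjl⟩, w)⁆ = ⁅p, q⁆ :=
      hR i j l hij hjl h t w _ _ p q (rho_sgen ρ hsurj hn (⟨(i, j), hij⟩, t))
        (rho_sgen ρ hsurj hn (⟨(j, l), hjl⟩, w)) (Function.surjInv_eq hsurj _)
        (Function.surjInv_eq hsurj _)
    rw [e1]
    exact (sgen_eq ρ hsurj hn hker hInd (⟨(i, l), h⟩, t * w) j hij hjl p q
      (Function.surjInv_eq hsurj _) (Function.surjInv_eq hsurj _)).symm

end

/-- **S2086-SPLIT.** -/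
theorem split : SplitStmt.{u, v} := by
  intro n K _ _ E _ ρ hsurj hker hn hC hInd hR
  obtain ⟨m, rfl⟩ : ∃ m, n = m + 3 := ⟨n - 3, by omega⟩
  let φ : St K (m + 3) →* E := PresentedGroup.toGroup (sgen_rels ρ hsurj hn hker hC hInd hR)
  have hφ : ρ.comp φ = piHom K (m + 3) := by
    apply PresentedGroup.ext
    intro x
    show ρ (φ (PresentedGroup.of x)) = piHom K (m + 3) (PresentedGroup.of x)
    have e1 : φ (PresentedGroup.of x) = sgen ρ hsurj hn x := PresentedGroup.toGroup.of _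
    have e2 : piHom K (m + 3) (PresentedGroup.of x) = piF K (m + 3) x :=
      PresentedGroup.toGroup.of _
    rw [e1, e2, rho_sgen]
    rfl
  let e : St K (m + 3) ≃* SLn (m + 3) K :=
    MulEquiv.ofBijective (piHom K (m + 3)) ⟨piHom_inj m, piHom_surj⟩
  refine ⟨φ.comp e.symm.toMonoidHom, ?_⟩
  ext1 g
  show ρ (φ (e.symm g)) = g
  have h1 : ρ (φ (e.symm g)) = piHom K (m + 3) (e.symm g) := by
    rw [← hφ]; rfl
  rw [h1]
  exact e.apply_symm_apply g

end Cfsg.Agent.H75.SM
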