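import Cfsg.Agent.H90.SgDefs
import Cfsg.Agent.S0617
import Cfsg.Agent.H14.TFail

set_option autoImplicit false
set_option linter.unusedVariables false

/-! SG-GEN (piece of EXIST-GEN, for S2949): Glauberman's structure theorem S0617, transported to
the holomorph of `V` (set-up of helper14's `H14/SnGL.lean`), and BOX: `J(X)` is generated by
elements normalizing `JC` and by the preimages `D` of the subgroups of order 3 of the
`S₃`-factors not centralized by `J`. -/

open Cfsg
open scoped commutatorElement Pointwise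

namespace Cfsg.Agent.H75.SgG

open Cfsg.Agent.H14 Cfsg.Agent.H14.Holo Cfsg.Agent.H90.Sg

universe u

theorem gen (hBox : StBox.{u}) : StGen.{u} := by
  intro X _ _ V _ hV hsep hO J hJ hJ2
  have : Fact (Nat.Prime 2) := ⟨Nat.prime_two⟩
  have hJn := thompsonSubgroup_normal 2 X
  have hV' := Vh_elemAb V hV
  have hHV : (thompsonSubgroup 2 X).map (psi V) ≤
      Subgroup.normalizer ((Vh V : Subgroup (Hol V)) : Set (Hol V)) := by
    have := Vh_normal V
    rw [Subgroup.normalizer_eq_top]
    exact le_top
  have hHR : (thompsonSubgroup 2 X).map (psi V) ≤ (psi V).range := by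
    rintro _ ⟨j, -, rfl⟩
    exact ⟨j, rfl⟩
  have hf : (thompsonSubgroup 2 X).map (psi V) ⊓
      Subgroup.centralizer ((Vh V : Subgroup (Hol V)) : Set (Hol V)) = ⊥ := by
    rw [eq_bot_iff, ← range_faithful V]
    exact inf_le_inf_right _ hHR
  have hnorm : (psi V).range ≤
      Subgroup.normalizer (((thompsonSubgroup 2 X).map (psi V) : Subgroup (Hol V)) :
        Set (Hol V)) := by
    rintro _ ⟨g, rfl⟩
    rw [Subgroup.mem_normalizer_iff]
    intro h
    constructor
    · rintro ⟨j, hj, rfl⟩
      refine ⟨g * j * g⁻¹, hJn.conj_mem j hj g, ?_⟩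
      simp
    · rintro ⟨j, hj, hjh⟩
      refine ⟨g⁻¹ * j * g, ?_, ?_⟩
      · have := hJn.conj_mem j hj g⁻¹
        simpa using this
      · rw [map_mul, map_mul, hjh, map_inv]
        group
  have hS1 := hS1_of_normal (p := 2) (psi V).range ((thompsonSubgroup 2 X).map (psi V)) hHR
    hnorm (range_isPSolvable V hsep) (range_pCore_eq_bot V hO)
  have hS3 : (thompsonSubgroup 2 X).map (psi V) = ⨆ A : {A : Subgroup (Hol V) //
      A ≤ (thompsonSubgroup 2 X).map (psi V) ∧ IsBestOffenderOn 2 (Vh V) A},
      (A : Subgroup (Hol V)) := by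
    apply le_antisymm
    · conv_lhs => unfold Cfsg.thompsonSubgroup
      rw [Subgroup.map_le_iff_le_comap]
      apply sSup_le
      intro A hA
      rw [← Subgroup.map_le_iff_le_comap]
      exact le_iSup (fun A : {A : Subgroup (Hol V) //
        A ≤ (thompsonSubgroup 2 X).map (psi V) ∧ IsBestOffenderOn 2 (Vh V) A} =>
          (A : Subgroup (Hol V)))
        ⟨A.map (psi V), Subgroup.map_mono (le_sSup hA), bestOffender_map V hV hA⟩
    · exact iSup_le fun A => A.2.1
  -- the right-hand side contains `C = ker psi`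
  have hCn : (Subgroup.centralizer (V : Set X)).Normal := by
    rw [← psi_ker]; infer_instance
  have hCR : Subgroup.centralizer (V : Set X) ≤
      Subgroup.normalizer ((J ⊔ Subgroup.centralizer (V : Set X) : Subgroup X) : Set X) :=
    le_sup_right.trans Subgroup.le_normalizer
  -- it suffices to prove the inclusion of the images
  suffices key : (thompsonSubgroup 2 X).map (psi V) ≤
      (Subgroup.normalizer ((J ⊔ Subgroup.centralizer (V : Set X) : Subgroup X) : Set X) ⊔
      ⨆ D : {D : Subgroup X // Subgroup.centralizer (V : Set X) ≤ D ∧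
        (Subgroup.centralizer (V : Set X)).relIndex D = 3 ∧
        thompsonSubgroup 2 X ≤ Subgroup.normalizer (D : Set X) ∧
        ¬ ⁅D, J⁆ ≤ Subgroup.centralizer (V : Set X) ∧
        ∃ W : Subgroup X, Nat.card ↥W = 4 ∧ ∀ k ∈ D, ∀ v ∈ V, k * v * k⁻¹ * v⁻¹ ∈ W},
      (D : Subgroup X)).map (psi V) by
    intro x hx
    obtain ⟨r, hr, hrx⟩ := key (Subgroup.mem_map_of_mem _ hx)
    have h1 : r⁻¹ * x ∈ (psi V).ker := by
      rw [MonoidHom.mem_ker, map_mul, map_inv, hrx, inv_mul_cancel]
    rw [psi_ker] at h1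
    have h2 := mul_mem hr (le_sup_of_le_left hCR h1)
    simpa using h2
  -- elements of the image centralizing the image of `J` come from `N(J ⊔ C)`
  have hL1 : ∀ e ∈ (thompsonSubgroup 2 X).map (psi V),
      e ∈ Subgroup.centralizer ((J.map (psi V) : Subgroup (Hol V)) : Set (Hol V)) →
      e ∈ (Subgroup.normalizer
        ((J ⊔ Subgroup.centralizer (V : Set X) : Subgroup X) : Set X)).map (psi V) := by
    rintro _ ⟨h, hh, rfl⟩ hcen
    refine ⟨h, ?_, rfl⟩
    have hP : ∀ h' : X, psi V h' ∈
        Subgroup.centralizer ((J.map (psi V) : Subgroup (Hol V)) : Set (Hol V)) →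
        ∀ n ∈ J ⊔ Subgroup.centralizer (V : Set X),
          h' * n * h'⁻¹ ∈ J ⊔ Subgroup.centralizer (V : Set X) := by
      intro h' hc n hn
      have hle : (J ⊔ Subgroup.centralizer (V : Set X)).map (MulAut.conj h').toMonoidHom ≤
          J ⊔ Subgroup.centralizer (V : Set X) := by
        rw [Subgroup.map_sup]
        apply sup_le
        · rintro _ ⟨j, hj, rfl⟩
          have h1 : h' * j * h'⁻¹ * j⁻¹ ∈ (psi V).ker := by
            rw [MonoidHom.mem_ker, map_mul, map_mul, map_mul, map_inv, map_inv]
            have h2 := (Subgroup.mem_centralizer_iff.mp hc) (psi V j) ⟨j, hj, rfl⟩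
            rw [← h2]; group
          rw [psi_ker] at h1
          have h3 : (MulAut.conj h').toMonoidHom j = (h' * j * h'⁻¹ * j⁻¹) * j := by
            simp [MulAut.conj_apply]
          rw [h3]
          exact mul_mem (Subgroup.mem_sup_right h1) (Subgroup.mem_sup_left hj)
        · rintro _ ⟨c, hc', rfl⟩
          exact Subgroup.mem_sup_right (hCn.conj_mem c hc' h')
      exact hle ⟨n, hn, rfl⟩
    have hcen' : psi V h⁻¹ ∈
        Subgroup.centralizer ((J.map (psi V) : Subgroup (Hol V)) : Set (Hol V)) := by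
      rw [map_inv]; exact inv_mem hcen
    show h ∈ Subgroup.normalizer
      ((J ⊔ Subgroup.centralizer (V : Set X) : Subgroup X) : Set X)
    rw [Subgroup.mem_normalizer_iff]
    intro n
    constructor
    · exact hP h hcen n
    · intro hn
      have h1 := hP h⁻¹ hcen' _ hn
      have h2 : h⁻¹ * (h * n * h⁻¹) * h⁻¹⁻¹ = n := by group
      rwa [h2] at h1
  by_cases hH1 : (thompsonSubgroup 2 X).map (psi V) = ⊥
  · rw [hH1]; exact bot_le
  · obtain ⟨-, hE, hind, hsup, -, -⟩ :=
      Cfsg.Agent.S0617.result _ _ hV' hHV hf hS1 hS3 hH1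
    have hJH : J.map (psi V) ≤ (thompsonSubgroup 2 X).map (psi V) := Subgroup.map_mono hJ
    have hJ2' : IsPGroup 2 ↥(J.map (psi V)) := hJ2.map _
    conv_lhs => rw [← hsup]
    apply iSup_le
    intro i
    have hiH : (i : Subgroup (Hol V)) ≤ (thompsonSubgroup 2 X).map (psi V) := by
      conv_rhs => rw [← hsup]
      exact le_iSup _ i
    have hcase := hBox _ ((thompsonSubgroup 2 X).map (psi V)) (J.map (psi V))
      (fun i => (hE i).1) (fun i => (hE i).2.1) hind hsup hJH hJ2' i
    have hcenle : (i : Subgroup (Hol V)) ⊓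
        Subgroup.centralizer ((J.map (psi V) : Subgroup (Hol V)) : Set (Hol V)) ≤
        (Subgroup.normalizer ((J ⊔ Subgroup.centralizer (V : Set X) : Subgroup X) : Set X) ⊔
        ⨆ D : {D : Subgroup X // Subgroup.centralizer (V : Set X) ≤ D ∧
          (Subgroup.centralizer (V : Set X)).relIndex D = 3 ∧
          thompsonSubgroup 2 X ≤ Subgroup.normalizer (D : Set X) ∧
          ¬ ⁅D, J⁆ ≤ Subgroup.centralizer (V : Set X) ∧
          ∃ W : Subgroup X, Nat.card ↥W = 4 ∧ ∀ k ∈ D, ∀ v ∈ V, k * v * k⁻¹ * v⁻¹ ∈ W},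
        (D : Subgroup X)).map (psi V) := by
      intro e he
      exact Subgroup.map_mono le_sup_left (hL1 e (hiH he.1) he.2)
    rcases hcase with h1 | ⟨D, hDE, hD3, hHD, hDJ, hED⟩
    · intro e he
      exact hcenle ⟨he, h1 he⟩
    · refine hED.trans (sup_le ?_ hcenle)
      -- `D` is the image of its preimage, which is a member of the family
      have hDR : D ≤ (psi V).range := (hDE.trans hiH).trans hHR
      have hmap : (D.comap (psi V)).map (psi V) = D := Subgroup.map_comap_eq_self hDR
      have hmem : Subgroup.centralizer (V : Set X) ≤ D.comap (psi V) ∧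
          (Subgroup.centralizer (V : Set X)).relIndex (D.comap (psi V)) = 3 ∧
          thompsonSubgroup 2 X ≤ Subgroup.normalizer ((D.comap (psi V) : Subgroup X) : Set X) ∧
          ¬ ⁅D.comap (psi V), J⁆ ≤ Subgroup.centralizer (V : Set X) ∧
          ∃ W : Subgroup X, Nat.card ↥W = 4 ∧
            ∀ k ∈ D.comap (psi V), ∀ v ∈ V, k * v * k⁻¹ * v⁻¹ ∈ W := by
        refine ⟨?_, ?_, ?_, ?_, ?_⟩
        · rw [← psi_ker]; exact Subgroup.ker_le_comap _ _
        · rw [← psi_ker, ← MonoidHom.comap_bot, Subgroup.relIndex_comap, hmap,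
            Subgroup.relIndex_bot_left, hD3]
        · intro h hh
          have h1 := hHD (Subgroup.mem_map_of_mem (psi V) hh)
          rw [Subgroup.mem_normalizer_iff] at h1 ⊢
          intro n
          have h2 := h1 (psi V n)
          simp only [Subgroup.mem_comap, map_mul, map_inv]
          exact h2
        · intro hle
          apply hDJ
          intro d hd
          rw [← hmap] at hd
          obtain ⟨d', hd', rfl⟩ := hd
          rw [Subgroup.mem_centralizer_iff]
          rintro _ ⟨j, hj, rfl⟩
          have h1 : ⁅d', j⁆ ∈ (psi V).ker := by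
            rw [psi_ker]; exact hle (Subgroup.commutator_mem_commutator hd' hj)
          rw [MonoidHom.mem_ker, commutatorElement_def, map_mul, map_mul, map_mul, map_inv,
            map_inv] at h1
          calc psi V j * psi V d' = (psi V d' * psi V j * (psi V d')⁻¹ * (psi V j)⁻¹)⁻¹ *
                (psi V d' * psi V j) := by group
            _ = psi V d' * psi V j := by rw [h1, inv_one, one_mul]
        · have hcard := (hE i).2.2
          have := Vh_normal V
          have hle : ⁅Vh V, (i : Subgroup (Hol V))⁆ ≤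
              (SemidirectProduct.inl : ↥V →* Hol V).range :=
            Subgroup.commutator_le_left (Vh V) (i : Subgroup (Hol V))
          have hinl : Function.Injective (SemidirectProduct.inl : ↥V →* Hol V) :=
            SemidirectProduct.inl_injective
          refine ⟨((⁅Vh V, (i : Subgroup (Hol V))⁆).comap
            (SemidirectProduct.inl : ↥V →* Hol V)).map V.subtype, ?_, ?_⟩
          · rw [Subgroup.card_map_of_injective (Subgroup.subtype_injective V),
              ← Subgroup.card_map_of_injective hinl, Subgroup.map_comap_eq_self hle, hcard]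
            norm_num
          · intro k hk v hv
            refine ⟨(MulAut.conjNormal k : MulAut ↥V) ⟨v, hv⟩ * (⟨v, hv⟩ : ↥V)⁻¹, ?_, ?_⟩
            · show SemidirectProduct.inl ((MulAut.conjNormal k : MulAut ↥V) ⟨v, hv⟩ *
                (⟨v, hv⟩ : ↥V)⁻¹) ∈ ⁅Vh V, (i : Subgroup (Hol V))⁆
              rw [map_mul, map_inv, ← psi_conj, Subgroup.commutator_comm]
              have h1 : psi V k * SemidirectProduct.inl (⟨v, hv⟩ : ↥V) * (psi V k)⁻¹ *
                  (SemidirectProduct.inl (⟨v, hv⟩ : ↥V))⁻¹ =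
                  ⁅psi V k, SemidirectProduct.inl (⟨v, hv⟩ : ↥V)⁆ := by
                rw [commutatorElement_def]
              rw [h1]
              exact Subgroup.commutator_mem_commutator (hDE hk) ⟨⟨v, hv⟩, rfl⟩
            · simp [MulAut.conjNormal_apply]
      have hDle : D.comap (psi V) ≤
          ⨆ D : {D : Subgroup X // Subgroup.centralizer (V : Set X) ≤ D ∧
            (Subgroup.centralizer (V : Set X)).relIndex D = 3 ∧
            thompsonSubgroup 2 X ≤ Subgroup.normalizer (D : Set X) ∧
            ¬ ⁅D, J⁆ ≤ Subgroup.centralizer (V : Set X) ∧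
            ∃ W : Subgroup X, Nat.card ↥W = 4 ∧ ∀ k ∈ D, ∀ v ∈ V, k * v * k⁻¹ * v⁻¹ ∈ W},
          (D : Subgroup X) :=
        le_iSup (fun D : {D : Subgroup X // Subgroup.centralizer (V : Set X) ≤ D ∧
            (Subgroup.centralizer (V : Set X)).relIndex D = 3 ∧
            thompsonSubgroup 2 X ≤ Subgroup.normalizer (D : Set X) ∧
            ¬ ⁅D, J⁆ ≤ Subgroup.centralizer (V : Set X) ∧
            ∃ W : Subgroup X, Nat.card ↥W = 4 ∧ ∀ k ∈ D, ∀ v ∈ V, k * v * k⁻¹ * v⁻¹ ∈ W} =>
          (D : Subgroup X)) ⟨D.comap (psi V), hmem⟩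
      rw [← hmap]
      exact Subgroup.map_mono (hDle.trans le_sup_right)

end Cfsg.Agent.H75.SgG

universe u in
example (hBox : Cfsg.Agent.H90.Sg.StBox.{u}) : Cfsg.Agent.H90.Sg.StGen.{u} :=
  Cfsg.Agent.H75.SgG.gen.{u} hBox
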