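import Mathlib
import Cfsg.Agent.H83.UPDefs

/-!
# S6001-CENT (helper75, for helper83's team project S6001)
-/

set_option autoImplicit false
open scoped MatrixGroups

namespace Cfsg.Agent.H75.UP

open Matrix Cfsg.Agent.H83.UP

universe u

/-- S6001-CENT. -/
theorem cent : StCent.{u} := by
  intro F _ R hRi hcard
  classical
  -- central elements are scalar
  have hsc : ∀ g : GL (Fin 4) F, g ∈ R → (∀ h ∈ R, g * h = h * g) →
      ∃ c : F, (g : Matrix (Fin 4) (Fin 4) F) = c • (1 : Matrix (Fin 4) (Fin 4) F) := by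
    intro g _ hg
    apply hRi.2
    rintro _ ⟨h, hh, rfl⟩
    have := congrArg Units.val (hg h hh)
    rwa [Units.val_mul, Units.val_mul] at this
  have hsc' : ∀ g : Subgroup.center R,
      ∃ c : F, (g.1.1.1 : Matrix (Fin 4) (Fin 4) F) = c • (1 : Matrix (Fin 4) (Fin 4) F) := by
    intro g
    apply hsc _ g.1.2
    intro h hh
    have := Subgroup.mem_center_iff.1 g.2 ⟨h, hh⟩
    exact (congrArg Subtype.val this).symm
  -- the top-left entry is an injective monoid hom
  let f : Subgroup.center R →* F :=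
    { toFun := fun g => (g.1.1.1 : Matrix (Fin 4) (Fin 4) F) 0 0
      map_one' := by simp
      map_mul' := by
        intro a b
        obtain ⟨c, hc⟩ := hsc' a
        obtain ⟨d, hd⟩ := hsc' b
        simp [hc, hd, mul_comm] }
  have hf : ∀ g : Subgroup.center R,
      (g.1.1.1 : Matrix (Fin 4) (Fin 4) F) = f g • (1 : Matrix (Fin 4) (Fin 4) F) := by
    intro g
    obtain ⟨c, hc⟩ := hsc' g
    have : f g = c := by
      change (g.1.1.1 : Matrix (Fin 4) (Fin 4) F) 0 0 = c
      rw [hc]; simp
    rw [this, hc]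
  have hinj : Function.Injective f := by
    intro a b hab
    apply Subtype.ext
    apply Subtype.ext
    apply Units.ext
    rw [hf a, hf b, hab]
  haveI : Finite (Subgroup.center R) := Nat.finite_of_card_ne_zero (by rw [hcard]; norm_num)
  haveI : IsCyclic (Subgroup.center R) := isCyclic_of_subgroup_isDomain f hinj
  obtain ⟨z0, hz0⟩ := IsCyclic.exists_generator (α := Subgroup.center R)
  have hz0o : orderOf z0 = 4 := by
    rw [orderOf_eq_card_of_forall_mem_zpowers hz0, hcard]
  refine ⟨f z0, ?_, ?_, ?_⟩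
  · have h4 : f z0 ^ 4 = 1 := by
      have h := pow_orderOf_eq_one z0
      rw [hz0o] at h
      rw [← map_pow, h, map_one]
    have h2 : f z0 ^ 2 ≠ 1 := by
      rw [← map_pow, ← map_one f]
      intro h
      have := hinj h
      have h3 := orderOf_dvd_of_pow_eq_one this
      rw [hz0o] at h3
      norm_num at h3
    have h5 : (f z0 ^ 2 - 1) * (f z0 ^ 2 + 1) = 0 := by ring_nf; rw [h4]; ring
    rcases mul_eq_zero.1 h5 with h | h
    · exact absurd (sub_eq_zero.1 h) h2
    · exact eq_neg_of_add_eq_zero_left h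
  · intro g hg
    constructor
    · intro hcomm
      have hgc : (⟨g, hg⟩ : R) ∈ Subgroup.center R := by
        rw [Subgroup.mem_center_iff]
        intro h
        apply Subtype.ext
        exact (hcomm h.1 h.2).symm
      have hmem := hz0 ⟨⟨g, hg⟩, hgc⟩
      rw [← mem_powers_iff_mem_zpowers] at hmem
      obtain ⟨j, hj⟩ := hmem
      refine ⟨j, ?_⟩
      have h1 := hf ⟨⟨g, hg⟩, hgc⟩
      rw [← hj, map_pow] at h1
      rw [← h1, hj]
    · rintro ⟨j, hj⟩ h _
      apply Units.ext
      rw [Units.val_mul, Units.val_mul, hj]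
      simp
  · refine ⟨((z0 : R) : GL (Fin 4) F), (z0 : R).2, ?_⟩
    exact hf z0

example : Cfsg.Agent.H83.UP.StCent.{u} := cent

end Cfsg.Agent.H75.UP

#print axioms Cfsg.Agent.H75.UP.cent
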