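import Mathlib
import Cfsg.Agent.H83.UPDefs
import Cfsg.Agent.H98.TenSQ

/-!
# S6001-UINVB (helper75, for helper83's team project S6001)

The scalar `x^2` of an element of `SU_4(p)`, `p ≡ 3 (mod 4)`, is the square of a unitary scalar.
-/

set_option autoImplicit false
open scoped MatrixGroups

namespace Cfsg.Agent.H75.UP

open Matrix Cfsg.Agent.H83.UP

universe u

/-- A field with `p ^ 2` elements has characteristic `p`. -/
theorem charP_card_sq {F : Type u} [Field F] [Fintype F] {p : ℕ} (hp : p.Prime)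
    (hc : Fintype.card F = p ^ 2) : CharP F p := by
  obtain ⟨n, hq, hn⟩ := FiniteField.card F (ringChar F)
  have h1 : ringChar F ∣ p ^ 2 := by
    rw [← hc, hn]
    exact dvd_pow_self _ n.ne_zero
  have h2 : ringChar F ∣ p := hq.dvd_of_dvd_pow h1
  have h3 : ringChar F = p := (Nat.prime_dvd_prime_iff_eq hq hp).mp h2
  rw [← h3]
  exact ringChar.charP F

/-- An involution of a 4-dimensional space is diagonalizable with diagonal entries `±1`. -/
theorem exists_diag_of_involution {F : Type u} [Field F] (h2 : (2 : F) ≠ 0)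
    (y : Matrix (Fin 4) (Fin 4) F) (hy : y * y = 1) :
    ∃ (ε : Fin 4 → F) (Q : Matrix (Fin 4) (Fin 4) F), (∀ k, ε k = 1 ∨ ε k = -1) ∧
      IsUnit Q.det ∧ y * Q = Q * Matrix.diagonal ε := by
  classical
  obtain ⟨i, hi⟩ : ∃ i : ℕ, i = Module.finrank F (LinearMap.ker (Matrix.toLin' (y + 1))) :=
    ⟨_, rfl⟩
  have hin : i ≤ 4 := by
    have h1 := Submodule.finrank_le (LinearMap.ker (Matrix.toLin' (y + 1)))
    rw [Module.finrank_fin_fun] at h1
    rw [hi]
    exact h1
  have h11 : (1 : F) ≠ -1 := by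
    intro h
    apply h2
    have h3 : (2 : F) = 1 + 1 := by norm_num
    rw [h3]
    nth_rewrite 2 [h]
    exact add_neg_cancel 1
  have hiff : ∀ k : Fin 4, (if (k : ℕ) < i then (-1 : F) else 1) = -1 ↔ (k : ℕ) < i := by
    intro k
    by_cases hk : (k : ℕ) < i
    · simp [hk]
    · simp [hk, h11]
  let e0 : {k : Fin 4 // (k : ℕ) < i} ≃ Fin i :=
    { toFun := fun k => ⟨k.1, k.2⟩
      invFun := fun j => ⟨⟨j, lt_of_lt_of_le j.2 hin⟩, j.2⟩
      left_inv := fun k => rfl
      right_inv := fun j => rfl }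
  have hcard : Nat.card {k : Fin 4 // (if (k : ℕ) < i then (-1 : F) else 1) = -1} = i := by
    rw [Nat.card_congr (Equiv.subtypeEquivRight hiff), Nat.card_congr e0, Nat.card_fin]
  obtain ⟨Q, hQ, hyQ⟩ := Cfsg.Agent.H98.Ten.exists_diagonalization_of_involution h2 y hy
    (fun k : Fin 4 => if (k : ℕ) < i then (-1 : F) else 1)
    (fun k => by by_cases hk : (k : ℕ) < i <;> simp [hk]) (hcard.trans hi)
  exact ⟨_, Q, (fun k => by by_cases hk : (k : ℕ) < i <;> simp [hk]), hQ, hyQ⟩

/-- An involution `y` of a 4-dimensional space whose Frobenius twist is `-yᵀ` has determinant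
`1` (its two eigenspaces have dimension 2). -/
theorem det_eq_one_of_frob_neg {F : Type u} [Field F] (p : ℕ) [Fact p.Prime] [CharP F p]
    (hp2 : Odd p) (h2 : (2 : F) ≠ 0) (y : Matrix (Fin 4) (Fin 4) F) (hy : y * y = 1)
    (hfr : y.map (fun a => a ^ p) = -yᵀ) : y.det = 1 := by
  obtain ⟨ε, Q, hε, hQ, hyQ⟩ := exists_diag_of_involution h2 y hy
  have hQinv : Q * Q⁻¹ = 1 := Matrix.mul_nonsing_inv Q hQ
  have htr : y.trace = ∑ k, ε k := by
    have : y = Q * Matrix.diagonal ε * Q⁻¹ := by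
      rw [← hyQ, Matrix.mul_assoc, hQinv, Matrix.mul_one]
    rw [this, Matrix.trace_mul_comm, ← Matrix.mul_assoc, Matrix.nonsing_inv_mul Q hQ,
      Matrix.one_mul, Matrix.trace_diagonal]
  have hdet : y.det = ∏ k, ε k := by
    have := congrArg Matrix.det hyQ
    rw [Matrix.det_mul, Matrix.det_mul, Matrix.det_diagonal, mul_comm] at this
    exact mul_left_cancel₀ hQ.ne_zero this
  have h1 : y.trace ^ p = y.trace := by
    rw [htr, sum_pow_char]
    apply Finset.sum_congr rfl
    intro k _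
    rcases hε k with h | h <;> rw [h]
    · exact one_pow p
    · exact hp2.neg_one_pow
  have h2' : y.trace ^ p = - y.trace := by
    have := congrArg Matrix.trace hfr
    rw [Matrix.trace_neg, Matrix.trace_transpose] at this
    rw [← this]
    simp only [Matrix.trace, Matrix.diag_apply, Matrix.map_apply]
    rw [sum_pow_char]
  have h0 : y.trace = 0 := by
    have : (2 : F) * y.trace = 0 := by linear_combination h2' - h1
    rcases mul_eq_zero.1 this with h | h
    · exact absurd h h2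
    · exact h
  rw [htr, Fin.sum_univ_four] at h0
  rw [hdet, Fin.prod_univ_four]
  rcases hε 0 with e0 | e0 <;> rcases hε 1 with e1 | e1 <;> rcases hε 2 with e2 | e2 <;>
    rcases hε 3 with e3 | e3 <;> rw [e0, e1, e2, e3] at h0 ⊢ <;>
    first
    | exact absurd (by linear_combination h0 : (2 : F) = 0) h2
    | exact absurd (by linear_combination -h0 : (2 : F) = 0) h2
    | exact absurd (mul_self_eq_zero.1 (by linear_combination h0 : (2 : F) * 2 = 0)) h2
    | exact absurd (mul_self_eq_zero.1 (by linear_combination -h0 : (2 : F) * 2 = 0)) h2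
    | norm_num

/-- S6001-UINVB. -/
theorem uInvB : StUInvB.{u} := by
  intro F _ _ p x z hp hc hp4 hdet hU hxx
  classical
  haveI : Fact p.Prime := ⟨hp⟩
  haveI hchar : CharP F p := charP_card_sq hp hc
  have hpodd : Odd p := by rw [Nat.odd_iff]; omega
  have h2 : (2 : F) ≠ 0 := by
    intro h
    have h' : ((2 : ℕ) : F) = 0 := by exact_mod_cast h
    rw [CharP.cast_eq_zero_iff F p] at h'
    have := Nat.le_of_dvd (by norm_num) h'
    omega
  have hmapsmul : ∀ (r : F) (A : Matrix (Fin 4) (Fin 4) F),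
      (r • A).map (fun a => a ^ p) = r ^ p • A.map (fun a => a ^ p) := by
    intro r A
    exact Matrix.map_smul' (fun a => a ^ p) r A (fun a b => mul_pow a b p)
  -- `z ^ 4 = 1`
  have hz4 : z ^ 4 = 1 := by
    have := congrArg Matrix.det hxx
    rw [Matrix.det_mul, hdet, Matrix.det_smul, Matrix.det_one, Fintype.card_fin] at this
    simpa using this.symm
  have hz0 : z ≠ 0 := by
    intro h
    rw [h] at hz4
    simp at hz4
  have hxT : xᵀ * xᵀ = z • (1 : Matrix (Fin 4) (Fin 4) F) := by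
    rw [← Matrix.transpose_mul, hxx, Matrix.transpose_smul, Matrix.transpose_one]
  have hU' : xᵀ * x.map (fun a => a ^ p) = 1 := hU
  -- `x^(p) = z⁻¹ • xᵀ`
  have hxp : x.map (fun a => a ^ p) = z⁻¹ • xᵀ := by
    calc x.map (fun a => a ^ p) = (z⁻¹ • (xᵀ * xᵀ)) * x.map (fun a => a ^ p) := by
          rw [hxT, smul_smul, inv_mul_cancel₀ hz0, one_smul, Matrix.one_mul]
      _ = z⁻¹ • (xᵀ * (xᵀ * x.map (fun a => a ^ p))) := by
          rw [Matrix.smul_mul, Matrix.mul_assoc]
      _ = z⁻¹ • xᵀ := by rw [hU', Matrix.mul_one]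
  -- `z` is a square
  have hF2 : ringChar F ≠ 2 := by
    rw [ringChar.eq F p]
    intro h
    omega
  have hsqz : IsSquare z := by
    rw [FiniteField.isSquare_iff hF2 hz0, hc]
    obtain ⟨m, hm⟩ : ∃ m, p ^ 2 / 2 = 4 * m := by
      obtain ⟨k, hk⟩ : ∃ k, p = 4 * k + 3 := ⟨p / 4, by omega⟩
      refine ⟨2 * k ^ 2 + 3 * k + 1, ?_⟩
      rw [hk]
      have : (4 * k + 3) ^ 2 = 2 * (4 * (2 * k ^ 2 + 3 * k + 1)) + 1 := by ring
      rw [this]
      omega
    rw [hm, pow_mul, hz4, one_pow]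
  obtain ⟨c, hcc⟩ := hsqz
  have hc0 : c ≠ 0 := by
    intro h
    rw [h, mul_zero] at hcc
    exact hz0 hcc
  have hc4 : c ^ 4 = z ^ 2 := by rw [hcc]; ring
  have hz2 : z ^ 2 = 1 ∨ z ^ 2 = -1 := by
    have h5 : (z ^ 2 - 1) * (z ^ 2 + 1) = 0 := by ring_nf; rw [hz4]; ring
    rcases mul_eq_zero.1 h5 with h | h
    · exact Or.inl (sub_eq_zero.1 h)
    · exact Or.inr (eq_neg_of_add_eq_zero_left h)
  rcases hz2 with hz2 | hz2
  · refine ⟨c, hcc.symm, ?_⟩
    obtain ⟨k, hk⟩ : ∃ k, p + 1 = 4 * k := ⟨(p + 1) / 4, by omega⟩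
    rw [hk, pow_mul, hc4, hz2, one_pow]
  · have hc4' : c ^ 4 = -1 := by rw [hc4, hz2]
    have hc8 : c ^ 8 = 1 := by
      have : c ^ 8 = (c ^ 4) ^ 2 := by ring
      rw [this, hc4']; norm_num
    by_cases h8 : p % 8 = 7
    · refine ⟨c, hcc.symm, ?_⟩
      obtain ⟨k, hk⟩ : ∃ k, p + 1 = 8 * k := ⟨(p + 1) / 8, by omega⟩
      rw [hk, pow_mul, hc8, one_pow]
    · exfalso
      obtain ⟨k, hk⟩ : ∃ k, p + 1 = 8 * k + 4 := ⟨(p + 1) / 8, by omega⟩
      have hcp : c ^ (p + 1) = -1 := by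
        rw [hk, pow_add, pow_mul, hc8, one_pow, one_mul, hc4']
      obtain ⟨y, hy⟩ : ∃ y, y = c⁻¹ • x := ⟨_, rfl⟩
      have hyy : y * y = 1 := by
        rw [hy, Matrix.smul_mul, Matrix.mul_smul, smul_smul, hxx, smul_smul, hcc]
        have : c⁻¹ * c⁻¹ * (c * c) = 1 := by field_simp
        rw [this, one_smul]
      have hyfr : y.map (fun a => a ^ p) = -yᵀ := by
        rw [hy, hmapsmul, hxp, smul_smul, Matrix.transpose_smul, ← neg_smul]
        congr 1
        rw [inv_pow, ← mul_inv, hcc, ← mul_assoc, ← pow_succ, hcp, neg_one_mul, inv_neg]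
      have hdet1 := det_eq_one_of_frob_neg p hpodd h2 y hyy hyfr
      have hdet2 : y.det = -1 := by
        rw [hy, Matrix.det_smul, hdet, Fintype.card_fin, mul_one, inv_pow, hc4', inv_neg, inv_one]
      rw [hdet1] at hdet2
      apply h2
      linear_combination hdet2

example : Cfsg.Agent.H83.UP.StUInvB.{u} := uInvB

end Cfsg.Agent.H75.UP

#print axioms Cfsg.Agent.H75.UP.uInvB
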