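import Mathlib
import Cfsg.Agent.H83.UPDefs
import Cfsg.Agent.H50.GUFix
import Cfsg.Agent.H62.PSU3d
import Cfsg.Agent.H75.UPUINVB

/-!
# S6001-STDU (helper75, for helper83's team project S6001)

The base change to the standard Pauli group can be taken unitary.
-/

set_option autoImplicit false
open scoped MatrixGroups

namespace Cfsg.Agent.H75.UP

open Matrix Cfsg.Agent.H83.UP

universe u

/-- S6001-STDU. -/
theorem stdU (hB : StPBasic.{u}) (hC : StPCent.{u}) : StStdU.{u} := by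
  intro F _ _ p R ι P hp hc hp4 hι hRU hR
  classical
  haveI : Fact p.Prime := ⟨hp⟩
  haveI hchar : CharP F p := charP_card_sq hp hc
  have hpodd : Odd p := by rw [Nat.odd_iff]; omega
  have h2 : (2 : F) ≠ 0 := by
    intro h
    have h' : ((2 : ℕ) : F) = 0 := by exact_mod_cast h
    rw [CharP.cast_eq_zero_iff F p] at h'
    have := Nat.le_of_dvd (by norm_num) h'
    omega
  obtain ⟨-, -, -, -, hPT, hPfr, -⟩ := hB F
  obtain ⟨A, hA⟩ : ∃ A : Matrix (Fin 4) (Fin 4) F, A = (P : Matrix (Fin 4) (Fin 4) F) :=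
    ⟨_, rfl⟩
  obtain ⟨B, hBdef⟩ : ∃ B : Matrix (Fin 4) (Fin 4) F,
      B = ((P⁻¹ : GL (Fin 4) F) : Matrix (Fin 4) (Fin 4) F) := ⟨_, rfl⟩
  have hAB : A * B = 1 := by rw [hA, hBdef, ← Units.val_mul, mul_inv_cancel, Units.val_one]
  have hBA : B * A = 1 := by rw [hA, hBdef, ← Units.val_mul, inv_mul_cancel, Units.val_one]
  have hmapmul : ∀ X Y : Matrix (Fin 4) (Fin 4) F,
      (X * Y).map (fun a => a ^ p) = X.map (fun a => a ^ p) * Y.map (fun a => a ^ p) :=
    fun X Y => Matrix.map_mul (f := frobenius F p)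
  have hmapsmul : ∀ (r : F) (X : Matrix (Fin 4) (Fin 4) F),
      (r • X).map (fun a => a ^ p) = r ^ p • X.map (fun a => a ^ p) := by
    intro r X
    exact Matrix.map_smul' (fun a => a ^ p) r X (fun a b => mul_pow a b p)
  have hmapone : (1 : Matrix (Fin 4) (Fin 4) F).map (fun a => a ^ p) = 1 := by
    ext i j
    rw [Matrix.map_apply]
    by_cases hij : i = j
    · subst hij; simp
    · simp [Matrix.one_apply_ne hij, hp.ne_zero]
  obtain ⟨G, hG⟩ : ∃ G : Matrix (Fin 4) (Fin 4) F, G = Aᵀ * A.map (fun a => a ^ p) :=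
    ⟨_, rfl⟩
  have hPT' : ∀ v : Fin 4 → ZMod 2, (pauli v : Matrix (Fin 4) (Fin 4) F) * (pauli v)ᵀ = 1 :=
    fun v => mul_eq_one_comm.1 (hPT v)
  have hBp : B.map (fun a => a ^ p) * A.map (fun a => a ^ p) = 1 := by
    rw [← hmapmul, hBA, hmapone]
  have hAp : A.map (fun a => a ^ p) * B.map (fun a => a ^ p) = 1 := by
    rw [← hmapmul, hAB, hmapone]
  have hAT : Aᵀ * Bᵀ = 1 := by rw [← Matrix.transpose_mul, hBA, Matrix.transpose_one]
  have hBT : Bᵀ * Aᵀ = 1 := by rw [← Matrix.transpose_mul, hAB, Matrix.transpose_one]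
  -- `G` commutes with the Pauli matrices
  have hcomm : ∀ v : Fin 4 → ZMod 2, G * pauli v = pauli v * G := by
    intro v
    let u : GL (Fin 4) F := ⟨pauli v, (pauli v)ᵀ, hPT' v, hPT v⟩
    have hgR : P * u * P⁻¹ ∈ R := by
      rw [hR]
      refine ⟨0, v, ?_⟩
      have : P⁻¹ * (P * u * P⁻¹) * P = u := by group
      rw [this, pow_zero, one_smul]
    have hgU := (Cfsg.Agent.H50.GUFix.mem_GUI_iff_isU hc (P * u * P⁻¹)).1 (hRU hgR)
    have hval : ((P * u * P⁻¹ : GL (Fin 4) F) : Matrix (Fin 4) (Fin 4) F) = A * pauli v * B := by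
      rw [Units.val_mul, Units.val_mul, hA, hBdef]
    unfold Cfsg.Agent.H50.GUFix.IsU at hgU
    rw [hval, hmapmul, hmapmul, hPfr v p hpodd, Matrix.transpose_mul, Matrix.transpose_mul]
      at hgU
    have h1 : (pauli v : Matrix (Fin 4) (Fin 4) F)ᵀ * G * pauli v = G := by
      calc (pauli v : Matrix (Fin 4) (Fin 4) F)ᵀ * G * pauli v
          = (Aᵀ * Bᵀ) * ((pauli v)ᵀ * G * pauli v) *
              (B.map (fun a => a ^ p) * A.map (fun a => a ^ p)) := by
            rw [hAT, hBp, Matrix.one_mul, Matrix.mul_one]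
        _ = Aᵀ * (Bᵀ * ((pauli v)ᵀ * Aᵀ) *
              (A.map (fun a => a ^ p) * pauli v * B.map (fun a => a ^ p))) *
              A.map (fun a => a ^ p) := by
            rw [hG]; simp only [Matrix.mul_assoc]
        _ = G := by rw [hgU, Matrix.mul_one, hG]
    calc G * pauli v = (pauli v * (pauli v)ᵀ) * G * pauli v := by
          rw [hPT' v, Matrix.one_mul]
      _ = pauli v * ((pauli v)ᵀ * G * pauli v) := by simp only [Matrix.mul_assoc]
      _ = pauli v * G := by rw [h1]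
  obtain ⟨c, hcG⟩ := hC F G h2 hcomm
  have hc0 : c ≠ 0 := by
    intro h
    rw [h, zero_smul] at hcG
    have : A.map (fun a => a ^ p) = 0 := by
      calc A.map (fun a => a ^ p) = (Bᵀ * Aᵀ) * A.map (fun a => a ^ p) := by
            rw [hBT, Matrix.one_mul]
        _ = Bᵀ * G := by rw [hG, Matrix.mul_assoc]
        _ = 0 := by rw [hcG, Matrix.mul_zero]
    rw [this, Matrix.zero_mul] at hAp
    exact zero_ne_one hAp
  have hcp : c ^ p = c := by
    have h1 : G.map (fun a => a ^ p) = Gᵀ := by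
      rw [hG, hmapmul, Matrix.transpose_mul, Matrix.transpose_transpose, Matrix.transpose_map]
      congr 1
      ext i j
      rw [Matrix.map_apply, Matrix.map_apply, ← pow_mul, ← sq, ← hc, FiniteField.pow_card]
    rw [hcG] at h1
    have := congrFun (congrFun h1 0) 0
    simpa [hp.ne_zero] using this
  obtain ⟨d, hd⟩ := Cfsg.Agent.H62.ff_norm_surj p hp.two_le hc c⁻¹ (by rw [inv_pow, hcp])
  have hd0 : d ≠ 0 := by
    intro h
    rw [h, zero_pow (by omega)] at hd
    exact inv_ne_zero hc0 hd.symm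
  let s : GL (Fin 4) F := ⟨d • 1, d⁻¹ • 1,
    by rw [Matrix.smul_mul, Matrix.one_mul, smul_smul, mul_inv_cancel₀ hd0, one_smul],
    by rw [Matrix.smul_mul, Matrix.one_mul, smul_smul, inv_mul_cancel₀ hd0, one_smul]⟩
  refine ⟨P * s, ?_, ?_⟩
  · change P * s ∈ Cfsg.Agent.H7.GUI (Fin 4) F p
    rw [Cfsg.Agent.H50.GUFix.mem_GUI_iff_isU hc]
    unfold Cfsg.Agent.H50.GUFix.IsU
    have hval : ((P * s : GL (Fin 4) F) : Matrix (Fin 4) (Fin 4) F) = d • A := by
      rw [Units.val_mul, hA]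
      change (P : Matrix (Fin 4) (Fin 4) F) * (d • 1) = _
      rw [Matrix.mul_smul, Matrix.mul_one]
    rw [hval, hmapsmul, Matrix.transpose_smul, Matrix.smul_mul, Matrix.mul_smul, smul_smul,
      ← hG, hcG, smul_smul]
    have : d * d ^ p * c = 1 := by rw [← pow_succ', hd, inv_mul_cancel₀ hc0]
    rw [this, one_smul]
  · intro g
    rw [hR g]
    have hval : (((P * s)⁻¹ * g * (P * s) : GL (Fin 4) F) : Matrix (Fin 4) (Fin 4) F) =
        ((P⁻¹ * g * P : GL (Fin 4) F) : Matrix (Fin 4) (Fin 4) F) := by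
      have : (P * s)⁻¹ * g * (P * s) = s⁻¹ * (P⁻¹ * g * P) * s := by group
      rw [this, Units.val_mul, Units.val_mul]
      change (d⁻¹ • (1 : Matrix (Fin 4) (Fin 4) F)) * _ * (d • 1) = _
      rw [Matrix.smul_mul, Matrix.one_mul, Matrix.mul_smul, Matrix.mul_one, smul_smul,
        mul_inv_cancel₀ hd0, one_smul]
    rw [hval]

example (hB : Cfsg.Agent.H83.UP.StPBasic.{u}) (hC : Cfsg.Agent.H83.UP.StPCent.{u}) :
    Cfsg.Agent.H83.UP.StStdU.{u} := stdU hB hC

end Cfsg.Agent.H75.UP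

#print axioms Cfsg.Agent.H75.UP.stdU
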