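import Mathlib
import Cfsg.Agent.H83.UPDefs

/-!
# S6001-TV3 (helper75, for helper83's team project S6001)

In characteristic 3 the normalizer of the Pauli group contains no transvection.
-/

set_option autoImplicit false
open scoped MatrixGroups

namespace Cfsg.Agent.H75.UP

open Matrix Cfsg.Agent.H83.UP

universe u

/-- A matrix of rank at most one is a product column * row. -/
theorem exists_vecMulVec_of_rank_le_one {F : Type u} [Field F] (N : Matrix (Fin 4) (Fin 4) F)
    (h : N.rank ≤ 1) : ∃ a b : Fin 4 → F, N = vecMulVec a b := by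
  have h1 : Module.finrank F (LinearMap.range N.mulVecLin) ≤ 1 := h
  obtain ⟨⟨a, ha⟩, hspan⟩ := finrank_le_one_iff.1 h1
  have hcol : ∀ j : Fin 4, ∃ c : F, c • a = N *ᵥ (Pi.single j 1) := by
    intro j
    obtain ⟨c, hc⟩ := hspan ⟨N *ᵥ (Pi.single j 1), ⟨Pi.single j 1, rfl⟩⟩
    exact ⟨c, congrArg Subtype.val hc⟩
  choose b hb using hcol
  refine ⟨a, b, ?_⟩
  ext i j
  have := congrFun (hb j) i
  rw [Matrix.mulVec_single_one] at this
  rw [vecMulVec_apply, mul_comm]
  simpa using this.symm

/-- S6001-TV3. -/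
theorem tv3 (hB : StPBasic.{u}) (hLI : StPLI.{u}) (hC : StPCent.{u}) (hPerm : StPerm.{u}) :
    StTV3.{u} := by
  intro F _ _ ι y hι hNrm hsq hrk
  classical
  have h3 : (3 : F) = 0 := by exact_mod_cast CharP.cast_eq_zero F 3
  have h2 : (2 : F) ≠ 0 := by
    intro h
    have : (1 : F) = 0 := by linear_combination h3 - h
    exact one_ne_zero this
  obtain ⟨hP0, -, hPmul, -, hPT, -, hPtr⟩ := hB F
  obtain ⟨σ, c, hyc, hc4, hσadd, -, hσbij⟩ := hPerm F ι y h2 hι hNrm
  obtain ⟨N, hN⟩ : ∃ N, N = y - 1 := ⟨_, rfl⟩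
  rw [← hN] at hsq hrk
  have hy : y = 1 + N := by rw [hN]; abel
  by_contra hy1
  have hN0 : N ≠ 0 := by
    intro h; apply hy1; rw [hy, h, add_zero]
  obtain ⟨y2, hy2⟩ : ∃ y2, y2 = 1 + N + N := ⟨_, rfl⟩
  have h3N : ∀ W : Matrix (Fin 4) (Fin 4) F, (3 : ℕ) • W = 0 := by
    intro W
    rw [← Nat.cast_smul_eq_nsmul F 3 W]
    push_cast
    rw [h3, zero_smul]
  have hyy2 : y * y2 = 1 := by
    have : y * y2 = 1 + (3 : ℕ) • N + (N * N + N * N) := by rw [hy, hy2]; noncomm_ring
    rw [this, h3N, hsq]; simp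
  have hy2y : y2 * y = 1 := by
    have : y2 * y = 1 + (3 : ℕ) • N + (N * N + N * N) := by rw [hy, hy2]; noncomm_ring
    rw [this, h3N, hsq]; simp
  have hyy : y * y = y2 := by
    have : y * y = 1 + N + N + N * N := by rw [hy]; noncomm_ring
    rw [this, hsq, hy2, add_zero]
  have hS : ∀ X : Matrix (Fin 4) (Fin 4) F, X + y * X * y2 + y2 * X * y =
      N * X * N + (3 : ℕ) • (X + X * N + N * X + N * X * N) := by
    intro X; rw [hy, hy2]; noncomm_ring
  -- the trace functionals
  have hchar2 : ∀ a : Fin 4 → ZMod 2, a + a = 0 := by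
    intro a; funext i; exact CharTwo.add_self_eq_zero (a i)
  have hphi_self : ∀ u : Fin 4 → ZMod 2,
      trace ((pauli u : Matrix (Fin 4) (Fin 4) F)ᵀ * pauli u) = 1 := by
    intro u
    rw [hPT u, Matrix.trace_one, Fintype.card_fin]
    push_cast
    linear_combination h3
  have hphi_ne : ∀ u w : Fin 4 → ZMod 2, u ≠ w →
      trace ((pauli u : Matrix (Fin 4) (Fin 4) F)ᵀ * pauli w) = 0 := by
    intro u w huw
    obtain ⟨ε, hε, h1⟩ := hPmul u u
    rw [hchar2 u, hP0] at h1
    have hT : (pauli u : Matrix (Fin 4) (Fin 4) F)ᵀ = ε • pauli u := by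
      have e1 : (pauli u : Matrix (Fin 4) (Fin 4) F)ᵀ * (pauli u * pauli u) = pauli u := by
        rw [← Matrix.mul_assoc, hPT u, Matrix.one_mul]
      rw [h1, Matrix.mul_smul, Matrix.mul_one] at e1
      have hε2 : ε * ε = 1 := by rcases hε with rfl | rfl <;> ring
      calc (pauli u : Matrix (Fin 4) (Fin 4) F)ᵀ
          = (ε * ε) • (pauli u : Matrix (Fin 4) (Fin 4) F)ᵀ := by rw [hε2, one_smul]
        _ = ε • (ε • (pauli u : Matrix (Fin 4) (Fin 4) F)ᵀ) := by rw [smul_smul]
        _ = ε • pauli u := by rw [e1]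
    obtain ⟨ε', -, h2'⟩ := hPmul u w
    rw [hT, Matrix.smul_mul, h2', smul_smul, Matrix.trace_smul, hPtr (u + w), smul_zero]
    intro h
    apply huw
    have : u = u + (w + w) := by rw [hchar2 w, add_zero]
    rw [this, ← add_assoc, h, zero_add]
  -- rank one
  obtain ⟨a, b, hab⟩ := exists_vecMulVec_of_rank_le_one N hrk
  have hNXN : ∀ X : Matrix (Fin 4) (Fin 4) F, N * X * N = ((b ᵥ* X) ⬝ᵥ a) • N := by
    intro X
    rw [hab, Matrix.vecMulVec_mul, Matrix.vecMulVec_mul_vecMulVec, Matrix.vecMulVec_smul]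
  have hc0 : ∀ v, c v ≠ 0 := by
    intro v h
    have := hc4 v
    rw [h] at this
    simp at this
  have hconj1 : ∀ v, y * pauli v * y2 = c v • pauli (σ v) := by
    intro v
    rw [hyc v, Matrix.smul_mul, Matrix.mul_assoc, hyy2, Matrix.mul_one]
  have hconj2 : ∀ w, y2 * pauli (σ w) * y = (c w)⁻¹ • pauli w := by
    intro w
    have h1 : y2 * (y * pauli w) = pauli w := by rw [← Matrix.mul_assoc, hy2y, Matrix.one_mul]
    rw [hyc w, Matrix.mul_smul, ← Matrix.mul_assoc] at h1
    rw [eq_inv_smul_iff₀ (hc0 w)]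
    exact h1
  have hEQ : ∀ w, ((b ᵥ* pauli (σ w)) ⬝ᵥ a) • N =
      pauli (σ w) + c (σ w) • pauli (σ (σ w)) + (c w)⁻¹ • pauli w := by
    intro w
    have := hS (pauli (σ w))
    rw [hconj1, hconj2, h3N, add_zero, hNXN] at this
    exact this.symm
  have hphiEQ : ∀ u w, ((b ᵥ* pauli (σ w)) ⬝ᵥ a) *
        trace ((pauli u : Matrix (Fin 4) (Fin 4) F)ᵀ * N) =
      trace ((pauli u : Matrix (Fin 4) (Fin 4) F)ᵀ * pauli (σ w)) +
        c (σ w) * trace ((pauli u : Matrix (Fin 4) (Fin 4) F)ᵀ * pauli (σ (σ w))) +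
        (c w)⁻¹ * trace ((pauli u : Matrix (Fin 4) (Fin 4) F)ᵀ * pauli w) := by
    intro u w
    have := congrArg (fun X => trace ((pauli u : Matrix (Fin 4) (Fin 4) F)ᵀ * X)) (hEQ w)
    simpa [Matrix.mul_add, Matrix.mul_smul, Matrix.trace_add, Matrix.trace_smul] using this
  by_cases hfix : ∀ v, σ v = v
  · have hy3 : y * y * y = 1 := by rw [hyy, hy2y]
    have hc1 : ∀ v, c v = 1 := by
      intro v
      have h1 := hyc v
      rw [hfix v] at h1
      have h3' : y * y * y * pauli v = (c v ^ 3) • (pauli v * (y * y * y)) := by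
        calc y * y * y * pauli v = y * (y * (y * pauli v)) := by simp only [Matrix.mul_assoc]
          _ = y * (y * (c v • (pauli v * y))) := by rw [h1]
          _ = c v • (y * ((y * pauli v) * y)) := by
              simp only [Matrix.mul_smul, Matrix.mul_assoc]
          _ = c v • (y * ((c v • (pauli v * y)) * y)) := by rw [h1]
          _ = (c v * c v) • ((y * pauli v) * (y * y)) := by
              simp only [Matrix.mul_smul, Matrix.smul_mul, Matrix.mul_assoc, smul_smul]
          _ = (c v * c v) • ((c v • (pauli v * y)) * (y * y)) := by rw [h1]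
          _ = (c v ^ 3) • (pauli v * (y * y * y)) := by
              simp only [Matrix.smul_mul, Matrix.mul_assoc, smul_smul]
              congr 1
              ring
      rw [hy3, Matrix.one_mul, Matrix.mul_one] at h3'
      have hPne : (pauli v : Matrix (Fin 4) (Fin 4) F) ≠ 0 := by
        intro h
        have := hPT v
        rw [h, Matrix.mul_zero] at this
        exact zero_ne_one this
      have hc3 : c v ^ 3 = 1 := by
        by_contra hne
        apply hPne
        have : (1 - c v ^ 3) • (pauli v : Matrix (Fin 4) (Fin 4) F) = 0 := by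
          rw [sub_smul, one_smul, ← h3', sub_self]
        rcases smul_eq_zero.1 this with h | h
        · exact absurd (sub_eq_zero.1 h).symm hne
        · exact h
      have h4 := hc4 v
      have : c v * c v ^ 3 = 1 := by rw [← h4]; ring
      rw [hc3, mul_one] at this
      exact this
    obtain ⟨d, hd⟩ := hC F y h2 (fun v => by
      have h1 := hyc v
      rw [hfix v, hc1 v, one_smul] at h1
      exact h1)
    have hNd : N = (d - 1) • (1 : Matrix (Fin 4) (Fin 4) F) := by
      rw [hN, hd, sub_smul, one_smul]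
    rw [hNd, Matrix.smul_mul, Matrix.one_mul, smul_smul] at hsq
    have : (d - 1) * (d - 1) = 0 := by
      have := congrFun (congrFun hsq 0) 0
      simpa using this
    have hd1 : d - 1 = 0 := by rcases mul_eq_zero.1 this with h | h <;> exact h
    apply hN0
    rw [hNd, hd1, zero_smul]
  · rw [not_forall] at hfix
    obtain ⟨w, hw⟩ := hfix
    obtain ⟨t, ht⟩ := hσbij.2 w
    obtain ⟨u, -, hu⟩ := Finset.exists_mem_notMem_of_card_lt_card
      (s := ({0, w, σ w, w + σ w, t} : Finset (Fin 4 → ZMod 2))) (t := Finset.univ) (by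
        refine lt_of_le_of_lt Finset.card_le_five ?_
        rw [Finset.card_univ, Fintype.card_fun, ZMod.card, Fintype.card_fin]
        norm_num)
    simp only [Finset.mem_insert, Finset.mem_singleton, not_or] at hu
    obtain ⟨hu0, huw, huσw, hus, hut⟩ := hu
    obtain ⟨w', hw'fix, hw'1, hw'2, hw'3⟩ :
        ∃ w', σ w' ≠ w' ∧ w' ≠ w ∧ w' ≠ σ w ∧ σ w' ≠ w := by
      by_cases hfu : σ u = u
      · refine ⟨u + w, ?_, ?_, ?_, ?_⟩
        · rw [hσadd, hfu]
          intro h
          exact hw (add_left_cancel h)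
        · intro h
          apply hu0
          have h' : u + w = 0 + w := by rw [h, zero_add]
          exact add_right_cancel h'
        · intro h
          apply hus
          have : u = u + (w + w) := by rw [hchar2 w, add_zero]
          rw [this, ← add_assoc, h, add_comm]
        · rw [hσadd, hfu]
          intro h
          apply hus
          have : u = u + (σ w + σ w) := by rw [hchar2 (σ w), add_zero]
          rw [this, ← add_assoc, h]
      · refine ⟨u, hfu, huw, huσw, ?_⟩
        intro h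
        apply hut
        apply hσbij.1
        rw [h, ht]
    have e1 := hphiEQ (σ w) w
    rw [hphi_self, hphi_ne (σ w) (σ (σ w)) (fun h => hw (hσbij.1 h).symm),
      hphi_ne (σ w) w hw] at e1
    have e2 := hphiEQ (σ w') w
    rw [hphi_ne (σ w') (σ w) (fun h => hw'1 (hσbij.1 h)),
      hphi_ne (σ w') (σ (σ w)) (fun h => hw'2 (hσbij.1 h)), hphi_ne (σ w') w hw'3] at e2
    have e3 := hphiEQ (σ w') w'
    rw [hphi_self, hphi_ne (σ w') (σ (σ w')) (fun h => hw'fix (hσbij.1 h).symm),
      hphi_ne (σ w') w' hw'fix] at e3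
    simp only [mul_zero, add_zero] at e1 e2 e3
    rcases mul_eq_zero.1 e2 with h | h
    · rw [h, zero_mul] at e1
      exact zero_ne_one e1
    · rw [h, mul_zero] at e3
      exact zero_ne_one e3

example (hB : Cfsg.Agent.H83.UP.StPBasic.{u}) (hLI : Cfsg.Agent.H83.UP.StPLI.{u})
    (hC : Cfsg.Agent.H83.UP.StPCent.{u}) (hPerm : Cfsg.Agent.H83.UP.StPerm.{u}) :
    Cfsg.Agent.H83.UP.StTV3.{u} := tv3 hB hLI hC hPerm

end Cfsg.Agent.H75.UP

#print axioms Cfsg.Agent.H75.UP.tv3
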