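import Cfsg.Agent.H77.UfDefs2

/-!
# UF-CARD126 (helper77, S2149): there are 126 isotropic points in the Hermitian plane over `F25`
-/

set_option autoImplicit false

namespace Cfsg.Agent.H75.Uf

open Cfsg.Agent.H77.Uf Cfsg.Agent.H17 Matrix
open scoped LinearAlgebra.Projectivization

/-- the norm to the prime field -/
def nrm (x : F25) : ZMod 5 := x.re * x.re - 2 * (x.im * x.im)

theorem mul_pow5 : ∀ x : F25, x * x ^ 5 = (⟨nrm x, 0⟩ : F25) := by decide +kernel

set_option maxRecDepth 1000000 in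
theorem count_triples :
    (Finset.univ.filter (fun t : F25 × F25 × F25 =>
      t ≠ 0 ∧ nrm t.1 + nrm t.2.1 + nrm t.2.2 = 0)).card = 3024 := by
  decide +kernel

theorem herm_iff (v : Fin 3 → F25) :
    Cfsg.hermForm 3 F25 5 v v = 0 ↔ nrm (v 0) + nrm (v 1) + nrm (v 2) = 0 := by
  unfold Cfsg.hermForm
  rw [Fin.sum_univ_three, mul_pow5, mul_pow5, mul_pow5, QuadraticAlgebra.ext_iff]
  simp

/-- vectors as triples -/
def vecEquiv : (Fin 3 → F25) ≃ F25 × F25 × F25 where
  toFun v := (v 0, v 1, v 2)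
  invFun t := ![t.1, t.2.1, t.2.2]
  left_inv v := by funext i; fin_cases i <;> rfl
  right_inv t := rfl

theorem card_isoVec :
    Nat.card {v : Fin 3 → F25 // v ≠ 0 ∧ Cfsg.hermForm 3 F25 5 v v = 0} = 3024 := by
  rw [← count_triples, ← Fintype.card_subtype, ← Nat.card_eq_fintype_card]
  apply Nat.card_congr
  refine vecEquiv.subtypeEquiv ?_
  intro v
  rw [herm_iff]
  have h0 : v = 0 ↔ vecEquiv v = 0 := by
    constructor
    · rintro rfl; rfl
    · intro h
      have h1 : v 0 = 0 := congrArg Prod.fst h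
      have h2 : v 1 = 0 := congrArg (fun t => t.2.1) h
      have h3 : v 2 = 0 := congrArg (fun t => t.2.2) h
      funext i; fin_cases i <;> assumption
  rw [Ne, h0]
  rfl

/-- a point and a unit give a nonzero isotropic vector -/
noncomputable def ptToVec (pa : Pts35 × F25ˣ) :
    {v : Fin 3 → F25 // v ≠ 0 ∧ Cfsg.hermForm 3 F25 5 v v = 0} :=
  ⟨(pa.2 : F25) • (pa.1 : ℙ F25 (Fin 3 → F25)).rep,
    smul_ne_zero pa.2.ne_zero (pa.1 : ℙ F25 (Fin 3 → F25)).rep_nonzero, by
      rw [hermForm_smul_left, hermForm_smul_right]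
      have h : Cfsg.hermForm 3 F25 5 (pa.1 : ℙ F25 (Fin 3 → F25)).rep
          (pa.1 : ℙ F25 (Fin 3 → F25)).rep = 0 := pa.1.2
      rw [h, mul_zero, mul_zero]⟩

theorem ptToVec_bijective : Function.Bijective ptToVec := by
  constructor
  · rintro ⟨P, a⟩ ⟨Q, b⟩ h
    have h1 : (a : F25) • (P : ℙ F25 (Fin 3 → F25)).rep =
        (b : F25) • (Q : ℙ F25 (Fin 3 → F25)).rep := congrArg Subtype.val h
    have hPQ : (P : ℙ F25 (Fin 3 → F25)) = Q := by
      rw [← Projectivization.mk_rep (P : ℙ F25 (Fin 3 → F25)),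
        ← Projectivization.mk_rep (Q : ℙ F25 (Fin 3 → F25)), Projectivization.mk_eq_mk_iff']
      refine ⟨(a : F25)⁻¹ * b, ?_⟩
      rw [← smul_smul, ← h1, smul_smul, inv_mul_cancel₀ a.ne_zero, one_smul]
    have hPQ' : P = Q := Subtype.ext hPQ
    subst hPQ'
    have hab : (a : F25) = b :=
      smul_left_injective F25 (P : ℙ F25 (Fin 3 → F25)).rep_nonzero h1
    rw [Units.ext hab]
  · rintro ⟨v, hv0, hv⟩
    obtain ⟨a, ha⟩ := Projectivization.exists_smul_eq_mk_rep F25 v hv0
    refine ⟨(⟨Projectivization.mk F25 v hv0, (mk_mem_isoPts v hv0).mpr hv⟩, a⁻¹), ?_⟩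
    apply Subtype.ext
    show ((a⁻¹ : F25ˣ) : F25) • (Projectivization.mk F25 v hv0).rep = v
    rw [← ha, Units.smul_def, smul_smul, Units.inv_mul, one_smul]

theorem card126 : StCard126 := by
  unfold StCard126
  have h1 := Nat.card_eq_of_bijective _ ptToVec_bijective
  rw [card_isoVec, Nat.card_prod, Nat.card_units, Nat.card_eq_fintype_card (α := F25),
    card_F25] at h1
  omega

end Cfsg.Agent.H75.Uf
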