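import Cfsg.Agent.H77.UfDefs3

/-!
# UF-CENTERPRES (helper77, S2149): central elements of `SU₃(5)` preserve the list
-/

set_option autoImplicit false

namespace Cfsg.Agent.H75.Uf

open Cfsg.Agent.H77.Uf Matrix

theorem pres_one : Pres 1 := by
  intro v hv
  exact ⟨v, hv, 1, by rw [Matrix.one_mulVec, one_smul]⟩

theorem pres_mul {A B : Matrix (Fin 3) (Fin 3) F25} (hA : Pres A) (hB : Pres B) :
    Pres (A * B) := by
  intro v hv
  obtain ⟨w, hw, c, hc⟩ := hB v hv
  obtain ⟨w', hw', c', hc'⟩ := hA w hw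
  exact ⟨w', hw', c * c', by rw [← Matrix.mulVec_mulVec, hc, Matrix.mulVec_smul, hc', smul_smul]⟩

theorem pres_pow (z : SU35) (hz : Pres z.1.1) (n : ℕ) : Pres (z ^ n).1.1 := by
  induction n with
  | zero => exact pres_one
  | succ n ih =>
    have h : (z ^ (n + 1)).1.1 = (z ^ n).1.1 * z.1.1 := by rw [pow_succ]; rfl
    rw [h]
    exact pres_mul ih hz

theorem centerPres (hMem : StMem) (hRel : StRel) (hPres : StPresAll) (hZ3 : StCenter3) :
    StCenterPres := by
  intro g hg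
  obtain ⟨z₁, hz₁⟩ := hMem.2.2.2.2.2.2.1
  have hne : Z1m ≠ 1 := hRel.2.2.2.2.2.2.2.1
  have hcomm := hRel.2.2.2.2.2.2.2.2.1
  have hP : Pres Z1m := hPres.2.2.2.2.2.2
  have hz₁c : z₁ ∈ Subgroup.center SU35 := by
    rw [Subgroup.mem_center_iff]
    intro h
    apply Subtype.ext
    apply Subtype.ext
    show h.1.1 * z₁.1.1 = z₁.1.1 * h.1.1
    rw [hz₁, hcomm]
  have hz₁1 : (⟨z₁, hz₁c⟩ : ↥(Subgroup.center SU35)) ≠ 1 := by
    intro h
    apply hne
    have h1 : z₁ = 1 := congrArg Subtype.val h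
    rw [← hz₁, h1]
    rfl
  have hp : Fact (Nat.Prime 3) := ⟨Nat.prime_three⟩
  have htop := zpowers_eq_top_of_prime_card (G := ↥(Subgroup.center SU35)) hZ3 hz₁1
  have hfin : Finite ↥(Subgroup.center SU35) := Nat.finite_of_card_ne_zero (by rw [hZ3]; norm_num)
  have hmem : (⟨g, hg⟩ : ↥(Subgroup.center SU35)) ∈
      Subgroup.zpowers (⟨z₁, hz₁c⟩ : ↥(Subgroup.center SU35)) := by
    rw [htop]; exact Subgroup.mem_top _
  rw [← mem_powers_iff_mem_zpowers] at hmem
  obtain ⟨n, hn⟩ := hmem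
  have hgn : z₁ ^ n = g := by
    have := congrArg Subtype.val hn
    simpa using this
  rw [← hgn]
  exact pres_pow z₁ (by rw [hz₁]; exact hP) n

end Cfsg.Agent.H75.Uf
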