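import Cfsg.Agent.H77.UfDefs3

/-!
# UF-ST27 (helper77, S2149): an extraspecial triple forces 27 to divide the order
-/

set_option autoImplicit false

namespace Cfsg.Agent.H75.Uf

open Cfsg.Agent.H77.Uf

universe u

/-- `y` normalizes `A`, `y ∉ A`, `y ^ k ∈ A`, `k` prime: `|A| · k` divides `|G|`. -/
theorem card_mul_prime_dvd {G : Type u} [Group G] [Finite G] (A : Subgroup G) (y : G) {k : ℕ}
    (hk : k.Prime) (hn : ∀ h, h ∈ A ↔ y * h * y⁻¹ ∈ A) (hy : y ∉ A) (hyk : y ^ k ∈ A) :
    Nat.card A * k ∣ Nat.card G := by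
  have hyN : y ∈ Subgroup.normalizer (A : Set G) := Subgroup.mem_normalizer_iff.mpr hn
  have hnorm : (A.subgroupOf (Subgroup.normalizer (A : Set G))).Normal :=
    Subgroup.normal_in_normalizer
  have h1 : (QuotientGroup.mk (⟨y, hyN⟩ : ↥(Subgroup.normalizer (A : Set G))) :
      ↥(Subgroup.normalizer (A : Set G)) ⧸ A.subgroupOf (Subgroup.normalizer (A : Set G))) ^ k
      = 1 := by
    rw [← QuotientGroup.mk_pow, QuotientGroup.eq_one_iff, Subgroup.mem_subgroupOf]
    exact hyk
  have h2 : (QuotientGroup.mk (⟨y, hyN⟩ : ↥(Subgroup.normalizer (A : Set G))) :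
      ↥(Subgroup.normalizer (A : Set G)) ⧸ A.subgroupOf (Subgroup.normalizer (A : Set G)))
      ≠ 1 := by
    intro h
    rw [QuotientGroup.eq_one_iff, Subgroup.mem_subgroupOf] at h
    exact hy h
  have hkf : Fact k.Prime := ⟨hk⟩
  have h3 := orderOf_eq_prime h1 h2
  have h4 : k ∣ Nat.card (↥(Subgroup.normalizer (A : Set G)) ⧸
      A.subgroupOf (Subgroup.normalizer (A : Set G))) := h3 ▸ orderOf_dvd_natCard _
  have h5 := Subgroup.card_eq_card_quotient_mul_card_subgroup
    (A.subgroupOf (Subgroup.normalizer (A : Set G)))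
  have h6 : Nat.card (A.subgroupOf (Subgroup.normalizer (A : Set G))) = Nat.card A :=
    Nat.card_congr (Subgroup.subgroupOfEquivOfLe Subgroup.le_normalizer).toEquiv
  have h7 : Nat.card ↥(Subgroup.normalizer (A : Set G)) ∣ Nat.card G :=
    Subgroup.card_subgroup_dvd_card _
  rw [h5, h6] at h7
  obtain ⟨c, hc⟩ := h4
  rw [hc] at h7
  exact Dvd.dvd.trans ⟨c, by ring⟩ h7

theorem st27 : St27.{u} := by
  intro G _ _ x y z hx hy hz hzc hyx
  have hx1 : x ≠ 1 := by
    rintro rfl
    apply hz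
    simpa using hyx.symm
  -- z ^ 3 = 1
  have hz3 : z ^ 3 = 1 := by
    have h1 : (y * x * y⁻¹) ^ 3 = 1 := by
      rw [conj_pow, hx, mul_one, mul_inv_cancel]
    have hc : Commute x z := (hzc x).symm
    rw [hyx, hc.mul_pow, hx, one_mul] at h1
    exact h1
  have hoz : orderOf z = 3 := orderOf_eq_prime hz3 hz
  have hxC : x ∈ Subgroup.centralizer ({x} : Set G) :=
    Subgroup.mem_centralizer_singleton_iff.mpr rfl
  have hzC : z ∈ Subgroup.centralizer ({x} : Set G) :=
    Subgroup.mem_centralizer_singleton_iff.mpr (hzc x)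
  -- z is not a power of x
  have hzx : ∀ i : ℤ, x ^ i ≠ z := by
    intro i hi
    have h1 : y * z * y⁻¹ = z := by rw [← hzc y, mul_inv_cancel_right]
    have h2 : y * x ^ i * y⁻¹ = (x * z) ^ i := by rw [← hyx, conj_zpow]
    rw [hi, h1] at h2
    have hc : Commute x z := (hzc x).symm
    rw [hc.mul_zpow, hi] at h2
    have h3 : z ^ i = 1 := by
      have := h2.symm
      rwa [mul_eq_left] at this
    have h4 : ((orderOf z : ℕ) : ℤ) ∣ i := orderOf_dvd_iff_zpow_eq_one.mpr h3
    rw [hoz] at h4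
    obtain ⟨j, rfl⟩ := h4
    apply hz
    rw [← hi, zpow_mul, zpow_natCast, hx, one_zpow]
  -- 9 divides |C|
  have h9 : 3 * 3 ∣ Nat.card ↥(Subgroup.centralizer ({x} : Set G)) := by
    have hcard : Nat.card ↥(Subgroup.zpowers
        (⟨x, hxC⟩ : ↥(Subgroup.centralizer ({x} : Set G)))) = 3 := by
      rw [Nat.card_zpowers]
      have hp : Fact (Nat.Prime 3) := ⟨Nat.prime_three⟩
      exact orderOf_eq_prime (Subtype.ext (by simpa using hx))
        (fun h => hx1 (congrArg Subtype.val h))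
    have := card_mul_prime_dvd
      (Subgroup.zpowers (⟨x, hxC⟩ : ↥(Subgroup.centralizer ({x} : Set G))))
      (⟨z, hzC⟩ : ↥(Subgroup.centralizer ({x} : Set G))) Nat.prime_three ?_ ?_ ?_
    · rw [hcard] at this
      exact this
    · intro h
      have : (⟨z, hzC⟩ : ↥(Subgroup.centralizer ({x} : Set G))) * h * ⟨z, hzC⟩⁻¹ = h := by
        apply Subtype.ext
        show z * (h : G) * z⁻¹ = h
        rw [hzc, mul_inv_cancel_right]
      rw [this]
    · intro hmem
      obtain ⟨i, hi⟩ := Subgroup.mem_zpowers_iff.mp hmem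
      apply hzx i
      have := congrArg Subtype.val hi
      simpa using this
    · have : (⟨z, hzC⟩ : ↥(Subgroup.centralizer ({x} : Set G))) ^ 3 = 1 :=
        Subtype.ext (by simpa using hz3)
      rw [this]
      exact Subgroup.one_mem _
  -- y normalizes C, is not in C, and y^3 = 1
  have hxz : y⁻¹ * x * y = x * z⁻¹ := by
    have h1 : x = y⁻¹ * (x * z) * y := by rw [← hyx]; group
    have h2 : y⁻¹ * (x * z) * y = y⁻¹ * x * y * z := by
      rw [mul_assoc y⁻¹ (x * z) y, mul_assoc x z y, hzc y, ← mul_assoc x y z, ← mul_assoc,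
        ← mul_assoc]
    rw [h2] at h1
    rw [eq_mul_inv_iff_mul_eq]
    exact h1.symm
  have h27 := card_mul_prime_dvd (Subgroup.centralizer ({x} : Set G)) y Nat.prime_three ?_ ?_ ?_
  · obtain ⟨c, hc⟩ := h9
    rw [hc] at h27
    exact Dvd.dvd.trans ⟨c, by ring⟩ h27
  · intro h
    rw [Subgroup.mem_centralizer_singleton_iff, Subgroup.mem_centralizer_singleton_iff]
    have hzi : z⁻¹ * h = h * z⁻¹ := by
      rw [inv_mul_eq_iff_eq_mul, ← mul_assoc, hzc h, mul_inv_cancel_right]
    have h1 : y * h * y⁻¹ * x = y * (h * (y⁻¹ * x * y)) * y⁻¹ := by group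
    have h2 : x * (y * h * y⁻¹) = y * ((y⁻¹ * x * y) * h) * y⁻¹ := by group
    constructor
    · intro hh
      have h3 : h * (x * z⁻¹) = x * z⁻¹ * h :=
        calc h * (x * z⁻¹) = (h * x) * z⁻¹ := (mul_assoc _ _ _).symm
          _ = (x * h) * z⁻¹ := by rw [hh]
          _ = x * (h * z⁻¹) := mul_assoc _ _ _
          _ = x * (z⁻¹ * h) := by rw [hzi]
          _ = x * z⁻¹ * h := (mul_assoc _ _ _).symm
      rw [h1, h2, hxz, h3]
    · intro hh
      rw [h1, h2, hxz] at hh
      have h3 : h * (x * z⁻¹) = x * z⁻¹ * h := mul_left_cancel (mul_right_cancel hh)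
      calc h * x = h * (x * z⁻¹) * z := by group
        _ = x * z⁻¹ * h * z := by rw [h3]
        _ = x * (z⁻¹ * h) * z := by group
        _ = x * (h * z⁻¹) * z := by rw [hzi]
        _ = x * h := by group
  · intro hmem
    rw [Subgroup.mem_centralizer_singleton_iff] at hmem
    apply hz
    have : y * x * y⁻¹ = x := by rw [hmem, mul_inv_cancel_right]
    rw [this] at hyx
    simpa using hyx.symm
  · rw [hy]
    exact Subgroup.one_mem _

end Cfsg.Agent.H75.Uf
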