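import Cfsg.Agent.H77.UfDefs2

/-!
# UF-TWOTRANS (helper77, S2149): `SU₃(5)` is 2-transitive on the isotropic points
-/

set_option autoImplicit false

namespace Cfsg.Agent.H75.Uf

open Cfsg.Agent.H77.Uf Cfsg.Agent.H17 Matrix
open scoped LinearAlgebra.Projectivization

attribute [local instance] Cfsg.Agent.H17.suAction

theorem twoTrans (hI : StIso3) : StTwoTrans := by
  intro a b c d hab hcd
  have hF : Fintype.card F25 = 5 ^ 2 := by rw [card_F25]; norm_num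
  have hall : ∀ z : Fin 3 → F25, InD 3 z := fun z i hi => absurd i.2 (by omega)
  obtain ⟨x, hx, hxx, ha⟩ := isoPts_exists_rep a
  obtain ⟨y, hy, hyy, hb⟩ := isoPts_exists_rep b
  obtain ⟨z, hz, hzz, hc⟩ := isoPts_exists_rep c
  obtain ⟨w, hw, hww, hd⟩ := isoPts_exists_rep d
  have hxy : Cfsg.hermForm 3 F25 5 x y ≠ 0 := by
    intro h0
    obtain ⟨c', hc'⟩ := hI x y hx hy hxx hyy h0
    apply hab
    apply Subtype.ext
    rw [ha, hb, Projectivization.mk_eq_mk_iff']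
    exact ⟨c', hc'.symm⟩
  have hzw : Cfsg.hermForm 3 F25 5 z w ≠ 0 := by
    intro h0
    obtain ⟨c', hc'⟩ := hI z w hz hw hzz hww h0
    apply hcd
    apply Subtype.ext
    rw [hc, hd, Projectivization.mk_eq_mk_iff']
    exact ⟨c', hc'.symm⟩
  obtain ⟨t, -, -, ht⟩ := b1 hF le_rfl le_rfl x z (hall x) (hall z) hx hz hxx hzz
  have hzy' : Cfsg.hermForm 3 F25 5 z (suAct t y) ≠ 0 := by
    rw [← ht, suAct_herm]; exact hxy
  have hy'y' : Cfsg.hermForm 3 F25 5 (suAct t y) (suAct t y) = 0 := by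
    rw [suAct_herm]; exact hyy
  obtain ⟨cy, hcy⟩ : ∃ cy, cy = ((Cfsg.hermForm 3 F25 5 z (suAct t y))⁻¹) ^ 5 := ⟨_, rfl⟩
  obtain ⟨cw, hcw⟩ : ∃ cw, cw = ((Cfsg.hermForm 3 F25 5 z w)⁻¹) ^ 5 := ⟨_, rfl⟩
  have hcy0 : cy ≠ 0 := by rw [hcy]; exact pow_ne_zero 5 (inv_ne_zero hzy')
  have hcw0 : cw ≠ 0 := by rw [hcw]; exact pow_ne_zero 5 (inv_ne_zero hzw)
  have h1 : Cfsg.hermForm 3 F25 5 z (cy • suAct t y) = 1 := by
    rw [hermForm_smul_right, hcy, frob_frob hF, inv_mul_cancel₀ hzy']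
  have h2 : Cfsg.hermForm 3 F25 5 z (cw • w) = 1 := by
    rw [hermForm_smul_right, hcw, frob_frob hF, inv_mul_cancel₀ hzw]
  obtain ⟨t', -, -, ht'z, ht'y⟩ := b2 hF (Or.inl (by norm_num)) (m := 3) z (cy • suAct t y)
      (cw • w) (hall _) (hall _) (hall _) hzz
      (by rw [hermForm_smul_left, hermForm_smul_right, hy'y', mul_zero, mul_zero])
      (by rw [hermForm_smul_left, hermForm_smul_right, hww, mul_zero, mul_zero]) h1 h2
  refine ⟨t' * t, Subtype.ext ?_, Subtype.ext ?_⟩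
  · show (t' * t) • (a : ℙ F25 (Fin 3 → F25)) = c
    rw [ha, hc]
    exact su_smul_mk (t' * t) x z hx hz 1 (by rw [suAct_mul, ht, ht'z, one_smul])
  · show (t' * t) • (b : ℙ F25 (Fin 3 → F25)) = d
    rw [hb, hd]
    apply su_smul_mk (t' * t) y w hy hw (cy⁻¹ * cw)
    rw [suAct_smul] at ht'y
    rw [suAct_mul, ← smul_smul, ← ht'y, smul_smul, inv_mul_cancel₀ hcy0, one_smul]

end Cfsg.Agent.H75.Uf
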